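import Cfsg.Agent.H41.LDSpec

/-! Basic lemmas for the tower LD5. -/

set_option autoImplicit false

open Matrix Cfsg Cfsg.Geo H19
open scoped MatrixGroups commutatorElement

namespace H41.LD

universe u

variable {K : Type u} [Field K] {n : ℕ} {G H : Subgroup (GL (Fin n) K)} {x y z r s t : R n K}

/-! ### rank one matrices -/

theorem N_mulVec (x : R n K) (v : Fin n → K) : N x *ᵥ v = (x.2 ⬝ᵥ v) • x.1 := by
  rw [N, vecMulVec_mulVec, op_smul_eq_smul]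

theorem vecMul_N (x : R n K) (v : Fin n → K) : v ᵥ* N x = (v ⬝ᵥ x.1) • x.2 := by
  rw [N, vecMul_vecMulVec]

theorem mul_N (A : Matrix (Fin n) (Fin n) K) (x : R n K) : A * N x = N (A *ᵥ x.1, x.2) := by
  rw [N, mul_vecMulVec]; rfl

theorem N_mul (x : R n K) (A : Matrix (Fin n) (Fin n) K) : N x * A = N (x.1, x.2 ᵥ* A) := by
  rw [N, vecMulVec_mul]; rfl

theorem N_smul_left (c : K) (u φ : Fin n → K) : N (c • u, φ) = c • N (u, φ) := by
  ext i j; simp [N, vecMulVec_apply, mul_assoc]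

theorem N_smul_right (c : K) (u φ : Fin n → K) : N (u, c • φ) = c • N (u, φ) := by
  ext i j; simp [N, vecMulVec_apply, mul_left_comm]

theorem N_add_left (u w φ : Fin n → K) : N (u + w, φ) = N (u, φ) + N (w, φ) := by
  ext i j; simp [N, vecMulVec_apply, add_mul]

theorem N_add_right (u φ ψ : Fin n → K) : N (u, φ + ψ) = N (u, φ) + N (u, ψ) := by
  ext i j; simp [N, vecMulVec_apply, mul_add]

theorem N_sub_left (u w φ : Fin n → K) : N (u - w, φ) = N (u, φ) - N (w, φ) := by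
  ext i j; simp [N, vecMulVec_apply, sub_mul]

theorem N_sub_right (u φ ψ : Fin n → K) : N (u, φ - ψ) = N (u, φ) - N (u, ψ) := by
  ext i j; simp [N, vecMulVec_apply, mul_sub]

theorem N_neg_left (u φ : Fin n → K) : N (-u, φ) = -N (u, φ) := by
  ext i j; simp [N, vecMulVec_apply]

theorem N_neg_right (u φ : Fin n → K) : N (u, -φ) = -N (u, φ) := by
  ext i j; simp [N, vecMulVec_apply]

@[simp] theorem N_zero_left (φ : Fin n → K) : N (0, φ) = 0 := by simp [N]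

@[simp] theorem N_zero_right (u : Fin n → K) : N (u, 0) = 0 := by simp [N]

theorem N_mul_N (x y : R n K) : N x * N y = (x.2 ⬝ᵥ y.1) • N (x.1, y.2) := by
  rw [N_mul, vecMul_N, N_smul_right]

theorem N_mk_mul (u φ w ψ : Fin n → K) : N (u, φ) * N (w, ψ) = (φ ⬝ᵥ w) • N (u, ψ) := N_mul_N _ _

theorem trace_N (x : R n K) : (N x).trace = x.2 ⬝ᵥ x.1 := by
  rw [N, trace_vecMulVec, dotProduct_comm]

theorem N_eq_zero : N x = 0 ↔ x.1 = 0 ∨ x.2 = 0 := vecMulVec_eq_zero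

theorem cc_eq (x y : R n K) : cc x y = (N x * N y).trace := by
  rw [N_mul_N, trace_smul, trace_N, cc, smul_eq_mul]

theorem tau_eq (x y z : R n K) : tau x y z = (N x * N y * N z).trace := by
  rw [N_mul_N, smul_mul_assoc, N_mul_N, trace_smul, trace_smul, trace_N, tau]
  simp only [smul_eq_mul]; ring

theorem cc_comm (x y : R n K) : cc x y = cc y x := mul_comm _ _

theorem tau_rot (x y z : R n K) : tau x y z = tau y z x := by unfold tau; ring

theorem tau_mul (x y z : R n K) : tau x y z * tau x z y = cc x y * cc y z * cc x z := by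
  unfold tau cc; ring

theorem cc_congr {x' y' : R n K} (h : N x = N x') (h' : N y = N y') : cc x y = cc x' y' := by
  rw [cc_eq, cc_eq, h, h']

theorem tau_congr {x' y' z' : R n K} (h : N x = N x') (h' : N y = N y') (h'' : N z = N z') :
    tau x y z = tau x' y' z' := by rw [tau_eq, tau_eq, h, h', h'']

theorem exists_dot_one {v : Fin n → K} (h : v ≠ 0) : ∃ a : Fin n → K, a ⬝ᵥ v = 1 := by
  obtain ⟨i, hi⟩ := Function.ne_iff.1 h
  exact ⟨Pi.single i (v i)⁻¹, by rw [single_dotProduct, inv_mul_cancel₀ hi]⟩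

theorem exists_smul_of_N (h : N y = N x) (h1 : x.1 ≠ 0) (h2 : x.2 ≠ 0) :
    ∃ c : K, c ≠ 0 ∧ y.1 = c • x.1 ∧ y.2 = c⁻¹ • x.2 := by
  obtain ⟨a, ha⟩ := exists_dot_one h2
  obtain ⟨b, hb⟩ := exists_dot_one h1
  have e1 := congrArg (· *ᵥ a) h
  have e2 := congrArg (b ᵥ* ·) h
  simp only [N_mulVec, vecMul_N, hb, one_smul, dotProduct_comm x.2 a, ha] at e1 e2
  have e3 : (y.2 ⬝ᵥ a) * (b ⬝ᵥ y.1) = 1 := by
    rw [← hb, ← e1, dotProduct_smul, smul_eq_mul]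
  have h3 : b ⬝ᵥ y.1 ≠ 0 := right_ne_zero_of_mul_eq_one e3
  refine ⟨b ⬝ᵥ y.1, h3, ?_, ?_⟩
  · rw [← e1, smul_smul, mul_comm, e3, one_smul]
  · rw [← e2, smul_smul, inv_mul_cancel₀ h3, one_smul]

theorem N_scale {c : K} (hc : c ≠ 0) (x : R n K) : N (c • x.1, c⁻¹ • x.2) = N x := by
  rw [N_smul_left, N_smul_right, smul_smul, mul_inv_cancel₀ hc, one_smul]

theorem rf_mul_self (h : x.2 ⬝ᵥ x.1 = 2) : (1 - N x) * (1 - N x) = 1 := by
  rw [sub_mul, mul_sub, mul_sub, N_mul_N, h, two_smul]; simp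

theorem rf_mulVec (x : R n K) (v : Fin n → K) : (1 - N x) *ᵥ v = v - (x.2 ⬝ᵥ v) • x.1 := by
  rw [sub_mulVec, one_mulVec, N_mulVec]

theorem vecMul_rf (x : R n K) (v : Fin n → K) : v ᵥ* (1 - N x) = v - (v ⬝ᵥ x.1) • x.2 := by
  rw [vecMul_sub, vecMul_one, vecMul_N]

/-! ### matrices of elements of a group -/

/-- `A` is the matrix of an element of `G`. -/
def In (G : Subgroup (GL (Fin n) K)) (A : Matrix (Fin n) (Fin n) K) : Prop := ∃ g ∈ G, g.val = A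

theorem In.one (G : Subgroup (GL (Fin n) K)) : In G 1 := ⟨1, G.one_mem, rfl⟩

theorem In.mul {A B : Matrix (Fin n) (Fin n) K} (h : In G A) (h' : In G B) : In G (A * B) := by
  obtain ⟨g, hg, rfl⟩ := h
  obtain ⟨k, hk, rfl⟩ := h'
  exact ⟨g * k, G.mul_mem hg hk, rfl⟩

theorem In.pow {A : Matrix (Fin n) (Fin n) K} (h : In G A) (k : ℕ) : In G (A ^ k) := by
  obtain ⟨g, hg, rfl⟩ := h
  exact ⟨g ^ k, G.pow_mem hg k, Units.val_pow_eq_pow_val g k⟩

theorem In.inv {A B : Matrix (Fin n) (Fin n) K} (h : In G A) (e : A * B = 1) : In G B := by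
  obtain ⟨g, hg, rfl⟩ := h
  exact ⟨g⁻¹, G.inv_mem hg, Units.inv_eq_of_mul_eq_one_right e⟩

theorem In.mono {A : Matrix (Fin n) (Fin n) K} (h : In G A) (e : G ≤ H) : In H A :=
  let ⟨g, hg, h1⟩ := h; ⟨g, e hg, h1⟩

theorem In.smul {A : Matrix (Fin n) (Fin n) K} (h : In (G ⊔ scalars (Fin n) K) A) {c : K}
    (hc : c ≠ 0) : In (G ⊔ scalars (Fin n) K) (c • A) := by
  have := In.mul ⟨scal _ (Units.mk0 c hc), Subgroup.mem_sup_right (scal_mem _), rfl⟩ h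
  simpa using this

theorem mem_sup_scalars {g : GL (Fin n) K} (h : g ∈ G ⊔ scalars (Fin n) K) :
    ∃ k ∈ G, ∃ c : Kˣ, g = k * scal (Fin n) c := by
  have h' : g ∈ ((G ⊔ scalars (Fin n) K : Subgroup _) : Set (GL (Fin n) K)) := h
  rw [Subgroup.mul_normal] at h'
  obtain ⟨k, hk, _, ⟨c, rfl⟩, rfl⟩ := h'
  exact ⟨k, hk, c, rfl⟩

theorem Rf.isIn (h : Rf G x) : In G (1 - N x) := h.2.2.2

theorem Rf.mono (h : Rf G x) (e : G ≤ H) : Rf H x := ⟨h.1, h.2.1, h.2.2.1, h.isIn.mono e⟩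

theorem Rf.N_ne (h : Rf G x) : N x ≠ 0 := fun e => (N_eq_zero.1 e).elim h.2.1 h.2.2.1

theorem Rf.of_N (h : Rf G x) (e : N y = N x) : Rf G y :=
  ⟨by rw [← trace_N, e, trace_N, h.1], fun e' => h.N_ne (e ▸ N_eq_zero.2 (.inl e')),
    fun e' => h.N_ne (e ▸ N_eq_zero.2 (.inr e')), e ▸ h.2.2.2⟩

theorem rf_of_in (h : x.2 ⬝ᵥ x.1 = 2) (h0 : N x ≠ 0) (h1 : In G (1 - N x)) : Rf G x :=
  ⟨h, fun e => h0 (N_eq_zero.2 (.inl e)), fun e => h0 (N_eq_zero.2 (.inr e)), h1⟩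

/-- The conjugate of a pair by an invertible matrix. -/
def cg (g : GL (Fin n) K) (x : R n K) : R n K := (g.val *ᵥ x.1, x.2 ᵥ* (g⁻¹).val)

theorem N_cg (g : GL (Fin n) K) (x : R n K) : N (cg g x) = g.val * N x * (g⁻¹).val := by
  rw [mul_N, N_mul]; rfl

theorem cg_dot (g : GL (Fin n) K) (x y : R n K) : (cg g x).2 ⬝ᵥ (cg g y).1 = x.2 ⬝ᵥ y.1 := by
  simp only [cg]
  rw [← dotProduct_mulVec, mulVec_mulVec, Units.inv_mul, one_mulVec]

theorem cc_cg (g : GL (Fin n) K) (x y : R n K) : cc (cg g x) (cg g y) = cc x y := by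
  simp only [cc, cg_dot]

theorem tau_cg (g : GL (Fin n) K) (x y z : R n K) : tau (cg g x) (cg g y) (cg g z) = tau x y z := by
  simp only [tau, cg_dot]

theorem cg_mul (g k : GL (Fin n) K) (x : R n K) : cg (g * k) x = cg g (cg k x) := by
  simp [cg, vecMul_vecMul, mulVec_mulVec]

@[simp] theorem cg_one (x : R n K) : cg 1 x = x := by simp [cg]

theorem cg_inv_cg (g : GL (Fin n) K) (x : R n K) : cg g⁻¹ (cg g x) = x := by
  rw [← cg_mul, inv_mul_cancel, cg_one]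

theorem cg_cg_inv (g : GL (Fin n) K) (x : R n K) : cg g (cg g⁻¹ x) = x := by
  rw [← cg_mul, mul_inv_cancel, cg_one]

theorem N_cg_ne (g : GL (Fin n) K) (h : N x ≠ 0) : N (cg g x) ≠ 0 := fun e => h (by
  rw [← cg_inv_cg g x, N_cg, e]; simp)

theorem In.conj {A : Matrix (Fin n) (Fin n) K} (h : In G A) {g : GL (Fin n) K}
    (hg : g ∈ G ⊔ scalars (Fin n) K) : In G (g.val * A * (g⁻¹).val) := by
  obtain ⟨k, hk, c, rfl⟩ := mem_sup_scalars hg
  obtain ⟨a, ha, rfl⟩ := h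
  refine ⟨k * a * k⁻¹, G.mul_mem (G.mul_mem hk ha) (G.inv_mem hk), ?_⟩
  rw [← Units.val_mul, ← Units.val_mul, mul_assoc k (scal _ c), scalars_commute (scal_mem c)]
  congr 1; group

theorem Rf.conj' (h : Rf G x) {g : GL (Fin n) K} (hg : g ∈ G ⊔ scalars (Fin n) K) :
    Rf G (cg g x) :=
  rf_of_in ((cg_dot g x x).trans h.1) (N_cg_ne g h.N_ne) (by
    have := h.isIn.conj hg
    rwa [mul_sub, sub_mul, mul_one, Units.mul_inv, ← N_cg] at this)

theorem Rf.conj (h : Rf G x) {g : GL (Fin n) K} (hg : g ∈ G) : Rf G (cg g x) :=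
  h.conj' (Subgroup.mem_sup_left hg)

theorem Tv.conj (h : Tv G x) {g : GL (Fin n) K} (hg : g ∈ G) : Tv G (cg g x) :=
  ⟨(cg_dot g x x).trans h.1, by
    have := In.conj h.2 (Subgroup.mem_sup_left hg)
    rwa [mul_add, add_mul, mul_one, Units.mul_inv, ← N_cg] at this⟩

/-- The unit defined by a reflection. -/
def rf (x : R n K) (h : x.2 ⬝ᵥ x.1 = 2) : GL (Fin n) K :=
  ⟨1 - N x, 1 - N x, rf_mul_self h, rf_mul_self h⟩

theorem Rf.mem (h : Rf G x) : rf x h.1 ∈ G := by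
  obtain ⟨g, hg, e⟩ := h.isIn
  exact (Units.ext e : g = rf x h.1) ▸ hg

/-- The conjugate of `y` by the reflection `x`. -/
def cj (x y : R n K) : R n K := (y.1 - (x.2 ⬝ᵥ y.1) • x.1, y.2 - (y.2 ⬝ᵥ x.1) • x.2)

theorem cg_rf (h : x.2 ⬝ᵥ x.1 = 2) (y : R n K) : cg (rf x h) y = cj x y :=
  Prod.ext (rf_mulVec x y.1) (vecMul_rf x y.2)

theorem N_cj (x y : R n K) : N (cj x y) = (1 - N x) * N y * (1 - N x) := by
  rw [mul_N, N_mul, rf_mulVec, vecMul_rf]; rfl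

theorem Rf.cj (hx : Rf G x) (hy : Rf G y) : Rf G (cj x y) := cg_rf hx.1 y ▸ hy.conj hx.mem

theorem cj_dot_left (x y : R n K) (v : Fin n → K) :
    (cj x y).2 ⬝ᵥ v = y.2 ⬝ᵥ v - (y.2 ⬝ᵥ x.1) * (x.2 ⬝ᵥ v) := by simp [cj]

theorem cj_dot_right (x y : R n K) (v : Fin n → K) :
    v ⬝ᵥ (cj x y).1 = v ⬝ᵥ y.1 - (x.2 ⬝ᵥ y.1) * (v ⬝ᵥ x.1) := by simp [cj]

theorem tau_cj (h : s.2 ⬝ᵥ s.1 = 2) (r t : R n K) :
    tau (cj s r) s t = cc r s * cc s t - tau r s t ∧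
      tau (cj s r) t s = cc r s * cc s t - tau r t s := by
  simp only [tau, cc, cj_dot_left, cj_dot_right, h]
  constructor <;> ring

theorem cc_cj (r s t : R n K) :
    cc (cj s r) t = cc r t - tau r s t - tau r t s + cc r s * cc s t := by
  simp only [tau, cc, cj_dot_left, cj_dot_right]; ring

/-! ### non-reversible triples -/

theorem NR.rot (h : NR G r s t) : NR G s t r :=
  ⟨h.r2, h.r3, h.r1, fun e => h.ne (by simp only [tau] at e ⊢; linear_combination e)⟩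

theorem NR.swap (h : NR G r s t) : NR G r t s := ⟨h.r1, h.r3, h.r2, h.ne.symm⟩

theorem NR.swap' (h : NR G r s t) : NR G s r t := h.rot.swap

theorem dt_rot (r s t : R n K) : dt s t r = dt r s t := by simp only [dt, tau, cc]; ring

theorem dt_swap (r s t : R n K) : dt r t s = dt r s t := by simp only [dt, tau, cc]; ring

theorem dt_swap' (r s t : R n K) : dt s r t = dt r s t := by simp only [dt, tau, cc]; ring

theorem NR.cj (h : NR G r s t) : NR G (cj s r) s t :=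
  ⟨h.r2.cj h.r1, h.r2, h.r3, by
    rw [(tau_cj h.r2.1 r t).1, (tau_cj h.r2.1 r t).2]; exact fun e => h.ne (sub_right_inj.1 e)⟩

theorem NR.dot_ne (h : NR G r s t) (hT : Thin G) : r.2 ⬝ᵥ s.1 ≠ 0 := fun e =>
  h.ne (by simp [tau, e, hT.sym h.r1 h.r2 e])

theorem NR.dot_ne' (h : NR G r s t) (hT : Thin G) : s.2 ⬝ᵥ r.1 ≠ 0 := h.swap'.dot_ne hT

theorem NR.cc_ne (h : NR G r s t) (hT : Thin G) : cc r s ≠ 0 :=
  mul_ne_zero (h.dot_ne hT) (h.dot_ne' hT)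

theorem Thin.cc_ne (hT : Thin G) (hx : Rf G x) (hy : Rf G y) (h : x.2 ⬝ᵥ y.1 ≠ 0) : cc x y ≠ 0 :=
  mul_ne_zero h fun e => h (hT.sym hy hx e)

theorem Thin.of_cc (hT : Thin G) (hx : Rf G x) (hy : Rf G y) (h : cc x y = 0) :
    x.2 ⬝ᵥ y.1 = 0 ∧ y.2 ⬝ᵥ x.1 = 0 :=
  (mul_eq_zero.1 h).elim (fun e => ⟨e, hT.sym hx hy e⟩) fun e => ⟨hT.sym hy hx e, e⟩

theorem Thin.N_eq_of_left (hT : Thin G) (hx : Rf G x) (hy : Rf G y) {c : K} (h : y.1 = c • x.1) :
    N y = N x := by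
  have hc : c ≠ 0 := fun e => hy.2.1 (by simp [h, e])
  have := hT.uniqL hy (hx.of_N (N_scale hc x)) h
  rw [← N_scale hc x]; exact congrArg N (Prod.ext h this)

theorem Thin.N_eq_of_right (hT : Thin G) (hx : Rf G x) (hy : Rf G y) {c : K} (h : y.2 = c • x.2) :
    N y = N x := by
  have hc : c⁻¹ ≠ 0 := inv_ne_zero fun e => hy.2.2.1 (by simp [h, e])
  have h' : y.2 = c⁻¹⁻¹ • x.2 := by rwa [inv_inv]
  have := hT.uniqR hy (hx.of_N (N_scale hc x)) h'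
  rw [← N_scale hc x]; exact congrArg N (Prod.ext this h')

theorem NR.N_ne (h : NR G r s t) : N r ≠ N s := fun e => h.ne (by
  rw [tau_congr e rfl rfl, tau_congr (x := r) (y := t) (z := s) e rfl rfl, tau_rot s t s]
  simp only [tau]; ring)

theorem sup_1 (r s t : R n K) : Sup r s t r :=
  ⟨Submodule.subset_span (by simp), Submodule.subset_span (by simp)⟩

theorem sup_2 (r s t : R n K) : Sup r s t s :=
  ⟨Submodule.subset_span (by simp), Submodule.subset_span (by simp)⟩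

theorem sup_3 (r s t : R n K) : Sup r s t t :=
  ⟨Submodule.subset_span (by simp), Submodule.subset_span (by simp)⟩

theorem Sup.cj (hx : Sup r s t x) (hy : Sup r s t y) : Sup r s t (cj x y) :=
  ⟨sub_mem hy.1 (Submodule.smul_mem _ _ hx.1), sub_mem hy.2 (Submodule.smul_mem _ _ hx.2)⟩

theorem Sup.trans {r' s' t' : R n K} (hx : Sup r s t x) (h1 : Sup r' s' t' r) (h2 : Sup r' s' t' s)
    (h3 : Sup r' s' t' t) : Sup r' s' t' x :=
  ⟨Submodule.span_le.2 (by rintro _ (rfl | rfl | rfl); exacts [h1.1, h2.1, h3.1]) hx.1,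
    Submodule.span_le.2 (by rintro _ (rfl | rfl | rfl); exacts [h1.2, h2.2, h3.2]) hx.2⟩

theorem Sup.rot (hx : Sup r s t x) : Sup s t r x := hx.trans (sup_3 ..) (sup_1 ..) (sup_2 ..)

theorem Sup.swap (hx : Sup r s t x) : Sup r t s x := hx.trans (sup_1 ..) (sup_3 ..) (sup_2 ..)

theorem Sup.of_N (hx : Sup r s t x) (h : N y = N x) (h0 : N x ≠ 0) : Sup r s t y := by
  obtain ⟨c, -, h1, h2⟩ := exists_smul_of_N h (fun e => h0 (N_eq_zero.2 (.inl e)))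
    fun e => h0 (N_eq_zero.2 (.inr e))
  exact ⟨h1 ▸ Submodule.smul_mem _ _ hx.1, h2 ▸ Submodule.smul_mem _ _ hx.2⟩

theorem parG_le (G : Subgroup (GL (Fin n) K)) (r s t : R n K) : ParG G r s t ≤ G :=
  (Subgroup.closure_le _).2 fun _ ⟨_, hx, _, e⟩ => (Units.ext e : _ = rf _ hx.1) ▸ hx.mem

theorem parG_mono {r' s' t' : R n K} (h1 : Sup r' s' t' r) (h2 : Sup r' s' t' s)
    (h3 : Sup r' s' t' t) : ParG G r s t ≤ ParG G r' s' t' :=
  Subgroup.closure_mono fun _ ⟨x, hx, hs, e⟩ => ⟨x, hx, hs.trans h1 h2 h3, e⟩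

theorem Rf.in_parG (hx : Rf G x) (hs : Sup r s t x) : In (ParG G r s t) (1 - N x) :=
  ⟨rf x hx.1, Subgroup.subset_closure ⟨x, hx, hs, rfl⟩, rfl⟩

theorem nrx_aux (hT : Thin G) (h : NR G r s t) (hx : Rf G x) (h1 : cc r x ≠ 0) (h2 : cc s x ≠ 0)
    (h3 : cc t x ≠ 0) : NR G r s x ∨ NR G s t x ∨ NR G t r x := by
  by_contra hc
  push Not at hc
  have e1 : tau r s x = tau r x s := by_contra fun e => hc.1 ⟨h.r1, h.r2, hx, e⟩
  have e2 : tau s t x = tau s x t := by_contra fun e => hc.2.1 ⟨h.r2, h.r3, hx, e⟩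
  have e3 : tau t r x = tau t x r := by_contra fun e => hc.2.2 ⟨h.r3, h.r1, hx, e⟩
  have _ := hT
  refine h.ne (mul_right_cancel₀ (mul_ne_zero (mul_ne_zero h1 h2) h3) ?_)
  have e : tau r s x * tau s t x * tau t r x = tau r x s * tau s x t * tau t x r := by
    rw [e1, e2, e3]
  simp only [tau, cc] at e ⊢
  linear_combination e

theorem cc_cj_ne (hT : Thin G) (hr : Rf G r) (hs : Rf G s) (hx : Rf G x) (h0 : s.2 ⬝ᵥ r.1 ≠ 0)
    (h1 : cc r x ≠ 0) (h2 : cc s x = 0) : cc (cj r s) x ≠ 0 :=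
  hT.cc_ne (hr.cj hs) hx (by
    rw [cj_dot_left, (hT.of_cc hs hx h2).1, zero_sub, neg_ne_zero]
    exact mul_ne_zero h0 (left_ne_zero_of_mul h1))

theorem nrx_one (hT : Thin G) (h : NR G r s t) (hx : Rf G x) (h1 : cc r x ≠ 0) :
    ∃ r' s', Sup r s t r' ∧ Sup r s t s' ∧ NR G r' s' x := by
  have key : ∀ s t : R n K, NR G r s t → ∃ s', Sup r s t s' ∧ NR G r s' t ∧ cc s' x ≠ 0 :=
    fun s t h => by
      by_cases h2 : cc s x = 0
      · exact ⟨cj r s, (sup_1 ..).cj (sup_2 ..), h.swap'.cj.swap',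
          cc_cj_ne hT h.r1 h.r2 hx (h.dot_ne' hT) h1 h2⟩
      · exact ⟨s, sup_2 .., h, h2⟩
  obtain ⟨s', a1, a2, a3⟩ := key s t h
  obtain ⟨t', b1, b2, b3⟩ := key t s' a2.swap
  have b4 : Sup r s t t' := b1.trans (sup_1 ..) (sup_3 ..) a1
  rcases nrx_aux hT b2 hx h1 b3 a3 with e | e | e
  exacts [⟨_, _, sup_1 .., b4, e⟩, ⟨_, _, b4, a1, e⟩, ⟨_, _, a1, sup_1 .., e⟩]

theorem nrx (hT : Thin G) (h : NR G r s t) (hx : Rf G x)
    (h1 : cc r x ≠ 0 ∨ cc s x ≠ 0 ∨ cc t x ≠ 0) :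
    ∃ r' s', Sup r s t r' ∧ Sup r s t s' ∧ NR G r' s' x := by
  rcases h1 with h1 | h1 | h1
  · exact nrx_one hT h hx h1
  · obtain ⟨r', s', a, b, c⟩ := nrx_one hT h.rot hx h1
    exact ⟨r', s', a.rot.rot, b.rot.rot, c⟩
  · obtain ⟨r', s', a, b, c⟩ := nrx_one hT h.rot.rot hx h1
    exact ⟨r', s', a.rot, b.rot, c⟩

/-! ### the normal subgroup generated by the reflections -/

theorem not_mem_scalars_of_rk (hn : 2 ≤ n) {g : GL (Fin n) K} {a c : K} (h0 : N x ≠ 0) (hc : c ≠ 0)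
    (e : g.val = a • 1 + c • N x) : g ∉ scalars (Fin n) K := fun h => by
  obtain ⟨d, hd⟩ := (mem_scalars_iff g).1 h
  have e1 : N x = (c⁻¹ * (d - a)) • (1 : Matrix (Fin n) (Fin n) K) := by
    rw [mul_smul, sub_smul, ← hd, e, add_sub_cancel_left, smul_smul, inv_mul_cancel₀ hc, one_smul]
  generalize c⁻¹ * (d - a) = k at e1
  have f := fun i j => congrFun (congrFun e1 i) j
  simp only [N, vecMulVec_apply, Matrix.smul_apply, smul_eq_mul] at f
  have h01 : (⟨0, by omega⟩ : Fin n) ≠ ⟨1, by omega⟩ := by simp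
  have f1 := f ⟨0, by omega⟩ ⟨0, by omega⟩
  have f2 := f ⟨1, by omega⟩ ⟨1, by omega⟩
  have f3 := f ⟨0, by omega⟩ ⟨1, by omega⟩
  have f4 := f ⟨1, by omega⟩ ⟨0, by omega⟩
  rw [one_apply_eq] at f1 f2
  rw [one_apply_ne h01] at f3
  rw [one_apply_ne h01.symm] at f4
  have : k * k = 0 := by
    linear_combination (-k) * f1 - (x.1 ⟨0, by omega⟩ * x.2 ⟨0, by omega⟩) * f2 +
      (x.1 ⟨1, by omega⟩ * x.2 ⟨0, by omega⟩) * f3 + 0 * f4
  exact h0 (by rw [e1, mul_self_eq_zero.1 this, zero_smul])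

theorem N_ne_smul_one (hn : 2 ≤ n) (h0 : N x ≠ 0) (c : K) : N x ≠ c • 1 := fun e =>
  not_mem_scalars_of_rk hn (g := 1) (a := 1 - c) h0 one_ne_zero
    (by rw [e, one_smul, ← add_smul]; simp)
    (Subgroup.one_mem _)

/-- The group generated by a set of reflections. -/
def Gen (D : Set (R n K)) : Subgroup (GL (Fin n) K) :=
  Subgroup.closure {g | ∃ x ∈ D, g.val = 1 - N x}

theorem gen_le {D : Set (R n K)} (h : ∀ x ∈ D, Rf G x) : Gen D ≤ G :=
  (Subgroup.closure_le _).2 fun _ ⟨x, hx, e⟩ => (Units.ext e : _ = rf _ (h x hx).1) ▸ (h x hx).mem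

theorem RS.gen {G : Subgroup (GL (Fin 5) K)} (hG : RS G) {D : Set (R 5 K)} (h : ∀ x ∈ D, Rf G x)
    (h0 : D.Nonempty) (hc : ∀ g ∈ G, ∀ x ∈ D, ∃ y ∈ D, N y = N (cg g x)) :
    gspan (Gen D) = ⊤ ∧ G ≤ Gen D ⊔ scalars (Fin 5) K := by
  refine (hG.qp _ (gen_le h) fun g hg a ha => ?_).resolve_left fun hle => ?_
  · induction ha using Subgroup.closure_induction with
    | mem a ha =>
      obtain ⟨x, hx, e⟩ := ha
      obtain ⟨y, hy, e'⟩ := hc g hg x hx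
      refine Subgroup.subset_closure ⟨y, hy, ?_⟩
      rw [e', N_cg, Units.val_mul, Units.val_mul, e, mul_sub, sub_mul, mul_one, Units.mul_inv]
    | one => simp
    | mul a b _ _ ha hb => simpa [mul_assoc] using Subgroup.mul_mem _ ha hb
    | inv a _ ha => simpa [mul_assoc] using Subgroup.inv_mem _ ha
  · obtain ⟨x, hx⟩ := h0
    exact not_mem_scalars_of_rk (a := 1) (c := -1) (by norm_num) (h x hx).N_ne (by simp)
      (by simp [rf, sub_eq_add_neg]) (hle (Subgroup.subset_closure ⟨x, hx, rfl⟩) : rf x (h x hx).1 ∈ _)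

theorem RS.gen_all {G : Subgroup (GL (Fin 5) K)} (hG : RS G) {x : R 5 K} (hx : Rf G x) :
    gspan (Gen {y | Rf G y}) = ⊤ ∧ G ≤ Gen {y | Rf G y} ⊔ scalars (Fin 5) K :=
  hG.gen (fun _ h => h) ⟨x, hx⟩ fun g hg y hy => ⟨cg g y, Rf.conj hy hg, rfl⟩

theorem gen_induction {D : Set (R n K)} (h : ∀ x ∈ D, x.2 ⬝ᵥ x.1 = 2)
    {p : Matrix (Fin n) (Fin n) K → Prop} (h1 : p 1) (hm : ∀ x ∈ D, ∀ A, p A → p ((1 - N x) * A))
    {g : GL (Fin n) K} (hg : g ∈ Gen D) : p g.val := by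
  induction hg using Subgroup.closure_induction_left with
  | one => exact h1
  | mul_left a ha b _ hb => obtain ⟨x, hx, e⟩ := ha; rw [Units.val_mul, e]; exact hm x hx _ hb
  | inv_mul_cancel a ha b _ hb =>
    obtain ⟨x, hx, e⟩ := ha
    have : (a⁻¹).val = 1 - N x :=
      Units.inv_eq_of_mul_eq_one_right (by rw [e]; exact rf_mul_self (h x hx))
    rw [Units.val_mul, this]
    exact hm x hx _ hb

theorem exists_out_of {D : Set (R n K)} (h : ∀ x ∈ D, x.2 ⬝ᵥ x.1 = 2) (hs : gspan (Gen D) = ⊤)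
    {W : Submodule K (Fin n → K)} (h0 : W ≠ ⊥) (h1 : W ≠ ⊤) :
    ∃ x ∈ D, x.1 ∉ W ∧ ∃ w ∈ W, x.2 ⬝ᵥ w ≠ 0 := by
  by_contra hc
  push Not at hc
  refine (irr_iff.1 (irr_of_gspan_eq_top hs) W fun g hg => ?_).elim h0 h1
  refine gen_induction h (p := fun A => ∀ w ∈ W, A *ᵥ w ∈ W) (by simp) (fun x hx A hA w hw => ?_) hg
  rw [← mulVec_mulVec, rf_mulVec]
  by_cases e : x.1 ∈ W
  · exact sub_mem (hA w hw) (W.smul_mem _ e)
  · simpa [hc x hx e _ (hA w hw)] using hA w hw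

theorem RS.exists_out {G : Subgroup (GL (Fin 5) K)} (hG : RS G) {x : R 5 K} (hx : Rf G x)
    {W : Submodule K (Fin 5 → K)} (h0 : W ≠ ⊥) (h1 : W ≠ ⊤) :
    ∃ y, Rf G y ∧ y.1 ∉ W ∧ ∃ w ∈ W, y.2 ⬝ᵥ w ≠ 0 :=
  exists_out_of (fun _ h => h.1) (hG.gen_all hx).1 h0 h1

theorem smul_of_comm {D : Set (R n K)} (h : ∀ x ∈ D, x.2 ⬝ᵥ x.1 = 2) (hs : gspan (Gen D) = ⊤)
    {A : Matrix (Fin n) (Fin n) K} (hA : ∀ x ∈ D, A * N x = N x * A) : ∃ c : K, A = c • 1 :=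
  exists_smul_of_commute_gspan hs fun _ hg => gen_induction h (p := fun B => A * B = B * A) (by simp)
    (fun x hx B hB => by
      rw [mul_assoc, ← hB, ← mul_assoc, ← mul_assoc, mul_sub, sub_mul, sub_mul, hA x hx]; simp [sub_mul]) hg

theorem span_ne_top {m : ℕ} (hm : m < n) (e : Fin m → Fin n → K) :
    Submodule.span K (Set.range e) ≠ ⊤ := fun h => by
  have := finrank_range_le_card (R := K) e
  rw [Set.finrank, h] at this
  simp at this; omega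

theorem span_three_ne_top (a b c : Fin 5 → K) : Submodule.span K {a, b, c} ≠ ⊤ := by
  have := span_ne_top (by norm_num) ![a, b, c]
  rwa [Matrix.range_cons, Matrix.range_cons, Matrix.range_cons_empty, Set.singleton_union,
    Set.singleton_union] at this

theorem exists_cc_ne (hT : Thin G) (h1 : Rf G r) (h2 : Rf G s) (h3 : Rf G t) (hx : Rf G x)
    {w : Fin n → K} (hw : w ∈ Submodule.span K {r.1, s.1, t.1}) (h : x.2 ⬝ᵥ w ≠ 0) :
    cc r x ≠ 0 ∨ cc s x ≠ 0 ∨ cc t x ≠ 0 := by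
  by_contra hc
  push Not at hc
  refine h (Submodule.span_induction (p := fun w _ => x.2 ⬝ᵥ w = 0) ?_ (by simp)
    (fun a b _ _ ha hb => by simp [ha, hb]) (fun c a _ ha => by simp [ha]) hw)
  rintro _ (rfl | rfl | rfl)
  exacts [(hT.of_cc h1 hx hc.1).2, (hT.of_cc h2 hx hc.2.1).2, (hT.of_cc h3 hx hc.2.2).2]

/-- A non-reversible triple extends out of its span. -/
theorem RS.exists_nr {G : Subgroup (GL (Fin 5) K)} (hG : RS G) {r s t : R 5 K} (h : NR G r s t) :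
    ∃ r' s' x, Sup r s t r' ∧ Sup r s t s' ∧ NR G r' s' x ∧
      x.1 ∉ Submodule.span K {r.1, s.1, t.1} := by
  obtain ⟨x, hx, h1, w, hw, h2⟩ := hG.exists_out h.r1 (W := Submodule.span K {r.1, s.1, t.1})
    (fun e => h.r1.2.1 ((Submodule.eq_bot_iff _).1 e _ (sup_1 r s t).1)) (span_three_ne_top _ _ _)
  obtain ⟨r', s', a, b, c⟩ := nrx hG.thin h hx (exists_cc_ne hG.thin h.r1 h.r2 h.r3 hx hw h2)
  exact ⟨r', s', x, a, b, c, h1⟩

theorem Deg.dt_ne (hD : Deg G) {r' s' : R n K} (h1 : Sup r s t r') (h2 : Sup r s t s')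
    (h : NR G r' s' x) (hx : x.1 ∉ Submodule.span K {r.1, s.1, t.1}) : dt r' s' x ≠ 0 := fun e =>
  hx (Submodule.span_le.2 (by rintro _ (rfl | rfl); exacts [h1.1, h2.1]) (hD _ _ _ h e).1)

end H41.LD
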