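/- Transport between `GL₆(4)` and the elements of `GL₁₂(2)` commuting with `w0`; the special unitary
group `SU₆(2)` as a subgroup `SU1` of the model. -/
import Cfsg.Agent.H39.F24Defs
import Cfsg.Agent.H6.U6a
import Cfsg.Agent.S0278

set_option autoImplicit false
set_option maxRecDepth 100000
set_option Elab.async false

namespace H41.F24E

open H39.F24 H49 Cfsg Matrix

/-- the field with four elements -/
abbrev F4 : Type := H6.F4
/-- vectors over the field with four elements -/
abbrev W6 : Type := Fin 6 → F4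

/-- the element `a + b ω` -/
def c4 (a b : ZMod 2) : F4 :=
  if a = 0 then (if b = 0 then .o else .w) else (if b = 0 then .i else .v)
/-- first coordinate -/
def re4 : F4 → ZMod 2 | .o => 0 | .i => 1 | .w => 0 | .v => 1
/-- second coordinate -/
def im4 : F4 → ZMod 2 | .o => 0 | .i => 0 | .w => 1 | .v => 1

/-- coordinates over the field with four elements -/
def eps : V ≃+ W6 where
  toFun v := ![c4 (v 0) (v 1), c4 (v 2) (v 3), c4 (v 4) (v 5), c4 (v 6) (v 7), c4 (v 8) (v 9),
    c4 (v 10) (v 11)]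
  invFun u := ![re4 (u 0), im4 (u 0), re4 (u 1), im4 (u 1), re4 (u 2), im4 (u 2), re4 (u 3),
    im4 (u 3), re4 (u 4), im4 (u 4), re4 (u 5), im4 (u 5)]
  left_inv v := by
    have h1 : ∀ a b, re4 (c4 a b) = a := by decide
    have h2 : ∀ a b, im4 (c4 a b) = b := by decide
    funext j; fin_cases j <;> first | exact h1 _ _ | exact h2 _ _
  right_inv u := by
    have h : ∀ x, c4 (re4 x) (im4 x) = x := by decide
    funext j; fin_cases j <;> exact h _
  map_add' u v := by
    have h : ∀ a b a' b', c4 (a + a') (b + b') = c4 a b + c4 a' b' := by decide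
    funext j; fin_cases j <;> exact h _ _ _ _

theorem eps_w0 (v : V) : eps (w0 • v) = H6.F4.w • eps v := by
  refine Pi.single_induction (fun v : V => eps (w0 • v) = H6.F4.w • eps v) v (by simp)
    (fun a b ha hb => by rw [smul_add, map_add, ha, hb, map_add, smul_add]) ?_
  decide +kernel

theorem herm_eps (v : V) : hermForm 6 F4 2 (eps v) (eps v) = c4 (q v) 0 := by
  have h : ∀ a b, c4 a b * c4 a b ^ 2 = c4 (a + b + a * b) 0 := by decide
  have h' : ∀ a b, c4 (a + b) 0 = c4 a 0 + c4 b 0 := by decide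
  rw [hermForm, Fin.sum_univ_six, q, h', h', h', h', h', ← h, ← h, ← h, ← h, ← h, ← h]
  rfl

/-- the element of the model attached to a matrix -/
noncomputable def th0 (A : GL (Fin 6) F4) : X :=
  (exists_of_addEquiv (eps.trans ((Matrix.GeneralLinearGroup.toLin A).toLinearEquiv.toAddEquiv.trans
    eps.symm))).choose

theorem eps_th0 (A : GL (Fin 6) F4) (v : V) : eps (th0 A • v) = (A : Matrix _ _ F4) *ᵥ eps v := by
  rw [th0, (exists_of_addEquiv _).choose_spec v]
  exact eps.apply_symm_apply _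

/-- the embedding of `GL₆(4)` -/
noncomputable def th : GL (Fin 6) F4 →* X := MonoidHom.mk' th0 fun A B => ext_smul fun v =>
  eps.injective (by rw [mul_smul, eps_th0, eps_th0, eps_th0, mulVec_mulVec, Units.val_mul])

theorem eps_th (A : GL (Fin 6) F4) (v : V) : eps (th A • v) = (A : Matrix _ _ F4) *ᵥ eps v :=
  eps_th0 A v

theorem th_inj : Function.Injective th := by
  rw [injective_iff_map_eq_one]
  intro A h
  refine Units.ext (Matrix.toLin'.injective (LinearMap.ext fun u => ?_))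
  have := eps_th A (eps.symm u)
  rw [h, one_smul, eps.apply_symm_apply] at this
  simpa using this.symm

theorem th_mem (A : GL (Fin 6) F4) : th A ∈ Lin := mem_Lin.2 (ext_smul fun v => eps.injective (by
  rw [mul_smul, mul_smul, eps_th, eps_w0, eps_w0, eps_th, mulVec_smul]))

/-- the linear map attached to an element commuting with `w0` -/
noncomputable def linOf (g : X) (hg : g ∈ Lin) : W6 →ₗ[F4] W6 where
  toFun u := eps (g • eps.symm u)
  map_add' u v := by rw [map_add, smul_add, map_add]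
  map_smul' c u := by
    obtain ⟨v, rfl⟩ := eps.surjective u
    have hw : eps (g • eps.symm (H6.F4.w • eps v)) = H6.F4.w • eps (g • v) := by
      rw [← eps_w0, eps.symm_apply_apply, smul_w0 hg, eps_w0]
    rw [eps.symm_apply_apply, RingHom.id_apply]
    rcases c with _ | _ | _ | _
    · change eps (g • eps.symm ((0 : F4) • eps v)) = (0 : F4) • _
      rw [zero_smul, zero_smul, map_zero, smul_zero, map_zero]
    · change eps (g • eps.symm ((1 : F4) • eps v)) = (1 : F4) • _
      rw [one_smul, one_smul, eps.symm_apply_apply]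
    · exact hw
    · change eps (g • eps.symm ((1 + H6.F4.w) • eps v)) = (1 + H6.F4.w) • _
      rw [add_smul, add_smul, one_smul, one_smul, map_add, smul_add, map_add, hw,
        eps.symm_apply_apply]

theorem exists_th {g : X} (hg : g ∈ Lin) : ∃ A, th A = g := by
  have hi := Lin.inv_mem hg
  refine ⟨⟨LinearMap.toMatrix' (linOf g hg), LinearMap.toMatrix' (linOf g⁻¹ hi), ?_, ?_⟩,
    ext_smul fun v => eps.injective ?_⟩
  · rw [← LinearMap.toMatrix'_comp, ← LinearMap.toMatrix'_id]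
    exact congrArg _ (LinearMap.ext fun u => by simp [linOf])
  · rw [← LinearMap.toMatrix'_comp, ← LinearMap.toMatrix'_id]
    exact congrArg _ (LinearMap.ext fun u => by simp [linOf])
  · rw [eps_th, LinearMap.toMatrix'_mulVec]
    simp [linOf]

theorem herm_add (u v : W6) : hermForm 6 F4 2 (u + v) (u + v) = hermForm 6 F4 2 u u +
    hermForm 6 F4 2 v v + (hermForm 6 F4 2 u v + hermForm 6 F4 2 u v ^ 2) := by
  have h : ∀ x y : F4, (x + y) * (x + y) ^ 2 = x * x ^ 2 + y * y ^ 2 + (x * y ^ 2 + (x * y ^ 2) ^ 2) := by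
    decide
  have h' : ∀ x y : F4, (x + y) ^ 2 = x ^ 2 + y ^ 2 := by decide
  simp only [hermForm, Fin.sum_univ_six, Pi.add_apply, h]
  simp only [h']
  abel

theorem herm_smul (c : F4) (u v : W6) : hermForm 6 F4 2 (c • u) v = c * hermForm 6 F4 2 u v := by
  simp only [hermForm, Pi.smul_apply, smul_eq_mul, Finset.mul_sum, mul_assoc]

theorem th_mem_Oq {A : GL (Fin 6) F4} : th A ∈ Oq ↔ ∀ u v,
    hermForm 6 F4 2 ((A : Matrix _ _ F4) *ᵥ u) ((A : Matrix _ _ F4) *ᵥ v) = hermForm 6 F4 2 u v := by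
  constructor
  · intro h
    have h1 : ∀ u, hermForm 6 F4 2 ((A : Matrix _ _ F4) *ᵥ u) ((A : Matrix _ _ F4) *ᵥ u) =
        hermForm 6 F4 2 u u := fun u => by
      obtain ⟨v, rfl⟩ := eps.surjective u
      rw [← eps_th, herm_eps, herm_eps, q_smul h]
    have h2 : ∀ u v, hermForm 6 F4 2 ((A : Matrix _ _ F4) *ᵥ u) ((A : Matrix _ _ F4) *ᵥ v) +
        hermForm 6 F4 2 ((A : Matrix _ _ F4) *ᵥ u) ((A : Matrix _ _ F4) *ᵥ v) ^ 2 =
        hermForm 6 F4 2 u v + hermForm 6 F4 2 u v ^ 2 := fun u v => by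
      have := h1 (u + v)
      rw [mulVec_add, herm_add, herm_add, h1, h1] at this
      exact add_left_cancel this
    intro u v
    have h3 := h2 (H6.F4.w • u) v
    rw [mulVec_smul, herm_smul, herm_smul] at h3
    exact (by decide : ∀ x y : F4, x + x ^ 2 = y + y ^ 2 →
      H6.F4.w * x + (H6.F4.w * x) ^ 2 = H6.F4.w * y + (H6.F4.w * y) ^ 2 → x = y) _ _ (h2 u v) h3
  · intro h v
    have := h (eps v) (eps v)
    rw [← eps_th, herm_eps, herm_eps] at this
    exact (by decide : ∀ a b : ZMod 2, c4 a 0 = c4 b 0 → a = b) _ _ this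

/-- `GL₆(4)` is the centraliser of `w0` -/
noncomputable def eLin : GL (Fin 6) F4 ≃* Lin :=
  MulEquiv.ofBijective (th.codRestrict Lin th_mem) ⟨fun _ _ h => th_inj (congrArg Subtype.val h),
    fun g => by obtain ⟨A, hA⟩ := exists_th g.2; exact ⟨A, Subtype.ext hA⟩⟩

/-- the determinant over the field with four elements -/
noncomputable def dt : Lin →* F4ˣ := Matrix.GeneralLinearGroup.det.comp eLin.symm.toMonoidHom

theorem dt_th (A : GL (Fin 6) F4) : dt ⟨th A, th_mem A⟩ = Matrix.GeneralLinearGroup.det A :=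
  congrArg Matrix.GeneralLinearGroup.det (eLin.symm_apply_apply A)

theorem dt_eq {g : X} (hg : g ∈ Lin) {A : GL (Fin 6) F4}
    (h : ∀ v, eps (g • v) = (A : Matrix _ _ F4) *ᵥ eps v) :
    dt ⟨g, hg⟩ = Matrix.GeneralLinearGroup.det A := by
  obtain rfl : th A = g := ext_smul fun v => eps.injective (by rw [eps_th, h])
  exact dt_th A

/-- the special unitary group inside the model -/
noncomputable def SU1 : Subgroup X := Oq ⊓ dt.ker.map Lin.subtype

theorem mem_SU1 {g : X} : g ∈ SU1 ↔ g ∈ Oq ∧ ∃ h : g ∈ Lin, dt ⟨g, h⟩ = 1 :=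
  and_congr_right' ⟨fun ⟨x, hx, e⟩ => e ▸ ⟨x.2, hx⟩, fun ⟨h, e⟩ => ⟨⟨g, h⟩, e, rfl⟩⟩

theorem SU1_le_GU : SU1 ≤ H39.F24.GU := fun _ hg => ⟨(mem_SU1.1 hg).1, (mem_SU1.1 hg).2.1⟩

/-- the embedding of `SU₆(2)` -/
noncomputable def thS : SU 6 F4 2 →* X :=
  th.comp (Matrix.SpecialLinearGroup.toGL.comp (SU 6 F4 2).subtype)

theorem thS_inj : Function.Injective thS :=
  th_inj.comp (Matrix.SpecialLinearGroup.toGL_injective.comp Subtype.val_injective)

theorem range_thS : thS.range = SU1 := by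
  ext g
  rw [mem_SU1]
  constructor
  · rintro ⟨A, rfl⟩
    exact ⟨th_mem_Oq.2 A.2, th_mem _, (dt_th _).trans (Units.ext A.1.2)⟩
  · rintro ⟨h1, h2, h3⟩
    obtain ⟨A, rfl⟩ := exists_th h2
    rw [dt_th] at h3
    exact ⟨⟨⟨A, congrArg Units.val h3⟩, th_mem_Oq.1 h1⟩, congrArg th (Units.ext rfl)⟩

theorem equivSU (F : Type*) [Field F] [Fintype F] (hF : Fintype.card F = 4) :
    Nonempty (SU 6 F 2 ≃* SU1) := by
  have f : F ≃+* F4 := FiniteField.ringEquivOfCardEq (by rw [hF]; rfl)
  exact ⟨(H55.suCongr f 6 2).trans ((MonoidHom.ofInjective thS_inj).trans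
    (MulEquiv.subgroupCongr range_thS))⟩

theorem card_SU1 : Nat.card SU1 = 27590492160 := by
  obtain ⟨e⟩ := equivSU F4 rfl
  have := Cfsg.Agent.S0278.result (F := F4) (q := 2) rfl 6 (by norm_num)
  rw [Nat.card_congr e.toEquiv, show 2 ^ (6 * (6 - 1) / 2) * ∏ i ∈ Finset.range 6,
    (if Even i then 2 ^ (i + 1) + 1 else 2 ^ (i + 1) - 1) = 82771476480 by decide +kernel] at this
  omega

/-- a generator of the multiplicative group -/
def om : F4ˣ := ⟨.w, .v, rfl, rfl⟩

theorem units_cases : ∀ c : F4ˣ, c = 1 ∨ c = om ∨ c = om * om := by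
  rintro ⟨a, b, h1, h2⟩
  simp only [Units.ext_iff]
  revert a b; decide

theorem units_cube (c : F4ˣ) : c ^ 3 = 1 := Units.ext (H6.F4.cube c.1 c.ne_zero)

theorem w0_mem_Lin : w0 ∈ Lin := mem_Lin.2 rfl

theorem dt_w0 : dt ⟨w0, w0_mem_Lin⟩ = 1 := by
  rw [dt_eq w0_mem_Lin (A := ⟨Matrix.diagonal fun _ => .w, Matrix.diagonal fun _ => .v, by decide,
    by decide⟩) fun v => by rw [eps_w0]; funext i; simp [mulVec_diagonal]]
  refine Units.ext ?_
  rw [Matrix.GeneralLinearGroup.val_det_apply, det_diagonal]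
  decide

theorem w0_mem_SU1 : w0 ∈ SU1 := mem_SU1.2 ⟨w0_mem_Oq, w0_mem_Lin, dt_w0⟩

/-- the diagonal matrix `diag (ω, 1, 1, 1, 1, 1)` -/
noncomputable def d0 : X := th ⟨Matrix.diagonal ![.w, 1, 1, 1, 1, 1],
  Matrix.diagonal ![.v, 1, 1, 1, 1, 1], by decide, by decide⟩

theorem d0_mem_Lin : d0 ∈ Lin := th_mem _

theorem d0_mem_Oq : d0 ∈ Oq := th_mem_Oq.2 fun u v => by
  have h : ∀ x y : F4, H6.F4.w * x * (H6.F4.w * y) ^ 2 = x * y ^ 2 := by decide
  simp [hermForm, Fin.sum_univ_six, mulVec_diagonal, h]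

theorem dt_d0 : dt ⟨d0, d0_mem_Lin⟩ = om := by
  refine (dt_th _).trans (Units.ext ?_)
  rw [Matrix.GeneralLinearGroup.val_det_apply, det_diagonal]
  decide

end H41.F24E
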