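/- The three classes of subgroups `3·U₄(3)` of `SU₆(2)`, from the conjugacy theorem in `GU₆(2)`. -/
import Cfsg.Agent.H41.F24T
import Cfsg.Agent.H41.F24U
import Cfsg.Agent.H39.F24Stab

set_option autoImplicit false
set_option maxRecDepth 100000
set_option Elab.async false

namespace H41.F24E

open H39.F24 H49 Cfsg

theorem M0_le_SU1 : M0 ≤ SU1 := by
  let δ : M0 →* F4ˣ := dt.comp (Subgroup.inclusion M0_le_Lin)
  have hZ : ∀ g ∈ Z0, δ g = 1 := fun g hg => by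
    obtain ⟨k, hk⟩ := mem_Z0.1 hg
    have : Subgroup.inclusion M0_le_Lin g = (⟨w0, w0_mem_Lin⟩ : Lin) ^ k := Subtype.ext hk.symm
    change dt _ = 1
    rw [this, map_zpow, dt_w0, one_zpow]
  haveI := simple_quot
  rcases IsSimpleGroup.eq_bot_or_eq_top_of_normal (QuotientGroup.lift Z0 δ hZ).ker inferInstance
    with e | e
  · have h1 := Nat.card_le_card_of_injective _ ((MonoidHom.ker_eq_bot_iff _).1 e)
    rw [card_quot, Nat.card_units, Nat.card_eq_fintype_card, H6.F4.card_eq] at h1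
    omega
  · intro g hg
    have : QuotientGroup.lift Z0 δ hZ (QuotientGroup.mk ⟨g, hg⟩) = 1 := by
      rw [← MonoidHom.mem_ker, e]; trivial
    exact mem_SU1.2 ⟨H0_le_Oq (M0_le_H0 hg), M0_le_Lin hg, this⟩

theorem map_conj_mul {G : Type*} [Group G] (K : Subgroup G) (a b : G) :
    (K.map (MulAut.conj b).toMonoidHom).map (MulAut.conj a).toMonoidHom =
      K.map (MulAut.conj (a * b)).toMonoidHom := by
  rw [Subgroup.map_map, map_mul]; rfl

theorem map_conj_one {G : Type*} [Group G] (K : Subgroup G) :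
    K.map (MulAut.conj (1 : G)).toMonoidHom = K := by
  rw [map_one]; exact Subgroup.map_id K

theorem mem_St_of_norm {n : X} (hq : n ∈ Oq) (h : M0.map (MulAut.conj n).toMonoidHom = M0) :
    n ∈ St := by
  have hM : M0 ≤ St := M0_le_H0.trans H0_le_St
  have key : ∀ v : V, {w | ty w = ty (n • v)}.ncard = {w | ty w = ty v}.ncard := fun v => by
    rw [← Set.ncard_image_of_injective {w | ty w = ty v} (MulAction.injective n)]
    congr 1
    ext w
    constructor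
    · intro hw
      obtain ⟨m, hm, rfl⟩ := exists_smul_of_ty (Eq.symm hw)
      rw [← h] at hm
      obtain ⟨m', hm', rfl⟩ := hm
      exact ⟨m' • v, ty_smul (hM hm') v, by simp [mul_smul]⟩
    · rintro ⟨w', hw, rfl⟩
      obtain ⟨m, hm, rfl⟩ := exists_smul_of_ty (Eq.symm hw)
      have := ty_smul (hM (h ▸ Subgroup.mem_map_of_mem (MulAut.conj n).toMonoidHom hm)) (n • v)
      simpa [mul_smul] using this
  intro v
  have h0 : ty (n • v) = 0 ↔ ty v = 0 := by rw [ty_eq_zero, ty_eq_zero, smul_eq_zero_iff_eq]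
  have h1 : ty (n • v) = 1 ↔ ty v = 1 := by rw [ty_eq_one, ty_eq_one, q_smul hq]
  have h2 := ty_lt v
  have h3 := ty_lt (n • v)
  have h4 := key v
  by_contra hne
  rcases (by omega : (ty v = 2 ∧ ty (n • v) = 3) ∨ (ty v = 3 ∧ ty (n • v) = 2)) with
    ⟨a, b⟩ | ⟨a, b⟩ <;> rw [a, b, ncard_ty2, ncard_ty3] at h4 <;> omega

theorem dt_of_norm {n : X} (hq : n ∈ Oq) (hl : n ∈ Lin)
    (h : M0.map (MulAut.conj n).toMonoidHom = M0) : dt ⟨n, hl⟩ = 1 := by
  have hK : n ∈ K0 := mem_K0.2 ⟨mem_St_of_norm hq h, hl⟩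
  have h1 := (M0.subgroupOf K0).index_mul_card
  rw [Nat.card_congr (Subgroup.subgroupOfEquivOfLe M0_le_K0).toEquiv, card_M0] at h1
  have h2 := card_K0_le
  have h3 : 0 < Nat.card K0 := Nat.card_pos
  have h4 : n * n ∈ M0 := by
    rcases (by omega : (M0.subgroupOf K0).index = 1 ∨ (M0.subgroupOf K0).index = 2) with e | e
    · have : (⟨n, hK⟩ * ⟨n, hK⟩ : K0) ∈ M0.subgroupOf K0 := by
        rw [Subgroup.index_eq_one.1 e]; trivial
      exact this
    · exact Subgroup.mul_self_mem_of_index_two e ⟨n, hK⟩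
  have h5 : dt ⟨n, hl⟩ * dt ⟨n, hl⟩ = 1 := by
    rw [← map_mul]; exact (mem_SU1.1 (M0_le_SU1 h4)).2.2
  have h6 := units_cube (dt ⟨n, hl⟩)
  rwa [pow_succ, pow_two, h5, one_mul] at h6

/-- the conjugates of `M0` under the powers of `d0` -/
noncomputable def Mi (i : ℕ) : Subgroup X := M0.map (MulAut.conj (d0 ^ i)).toMonoidHom

theorem dt_pow (i : ℕ) : dt ⟨d0 ^ i, Lin.pow_mem d0_mem_Lin i⟩ = om ^ i := by
  rw [← dt_d0, ← map_pow]; rfl

theorem Mi_le (i : ℕ) : Mi i ≤ SU1 := by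
  rintro _ ⟨m, hm, rfl⟩
  obtain ⟨h1, h2, h3⟩ := mem_SU1.1 (M0_le_SU1 hm)
  have a := Oq.pow_mem d0_mem_Oq i
  have b := Lin.pow_mem d0_mem_Lin i
  refine mem_SU1.2 ⟨Oq.mul_mem (Oq.mul_mem a h1) (Oq.inv_mem a),
    Lin.mul_mem (Lin.mul_mem b h2) (Lin.inv_mem b), ?_⟩
  change dt (⟨d0 ^ i, b⟩ * ⟨m, h2⟩ * (⟨d0 ^ i, b⟩ : Lin)⁻¹) = 1
  rw [map_mul, map_mul, map_inv, h3, mul_one, mul_inv_cancel]

theorem Mi_conj {i j : ℕ} {s : X} (hs : s ∈ SU1)
    (h : (Mi i).map (MulAut.conj s).toMonoidHom = Mi j) : om ^ i = om ^ j := by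
  obtain ⟨h1, h2, h3⟩ := mem_SU1.1 hs
  have a := fun i => Oq.pow_mem d0_mem_Oq i
  have b := fun i => Lin.pow_mem d0_mem_Lin i
  have := dt_of_norm (n := (d0 ^ j)⁻¹ * (s * d0 ^ i))
    (Oq.mul_mem (Oq.inv_mem (a j)) (Oq.mul_mem h1 (a i)))
    (Lin.mul_mem (Lin.inv_mem (b j)) (Lin.mul_mem h2 (b i))) (by
      rw [← map_conj_mul, ← map_conj_mul]
      change ((Mi i).map _).map _ = _
      rw [h, Mi, map_conj_mul, inv_mul_cancel, map_conj_one])
  change dt ((⟨d0 ^ j, b j⟩ : Lin)⁻¹ * (⟨s, h2⟩ * ⟨d0 ^ i, b i⟩)) = 1 at this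
  rw [map_mul, map_mul, map_inv, h3, one_mul, dt_pow, dt_pow, inv_mul_eq_one] at this
  exact this.symm

theorem s5520_of_core (core : ∀ K : Subgroup X, K ≤ SU1 → Nat.card K = 9797760 →
      ∃ g ∈ H39.F24.GU, K.map (MulAut.conj g).toMonoidHom = M0)
    (F : Type) [Field F] [Fintype F] (hF : Fintype.card F = 4) (F9 : Type) [Field F9] [Fintype F9]
    (hF9 : Fintype.card F9 = 9) : ∃ K₁ K₂ K₃ : Subgroup ↥(Cfsg.SU 6 F 2),
    (∀ K ∈ [K₁, K₂, K₃], Nat.card ↥(Subgroup.center ↥K) = 3 ∧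
      Nonempty (↥K ⧸ Subgroup.center ↥K ≃* Cfsg.PSU 4 F9 3)) ∧
    (¬ ∃ g : ↥(Cfsg.SU 6 F 2), K₁.map (MulAut.conj g).toMonoidHom = K₂) ∧
    (¬ ∃ g : ↥(Cfsg.SU 6 F 2), K₁.map (MulAut.conj g).toMonoidHom = K₃) ∧
    (¬ ∃ g : ↥(Cfsg.SU 6 F 2), K₂.map (MulAut.conj g).toMonoidHom = K₃) ∧
    ∀ K : Subgroup ↥(Cfsg.SU 6 F 2), Nat.card ↥(Subgroup.center ↥K) = 3 →
      Nonempty (↥K ⧸ Subgroup.center ↥K ≃* Cfsg.PSU 4 F9 3) →
      ∃ g : ↥(Cfsg.SU 6 F 2), K.map (MulAut.conj g).toMonoidHom = K₁ ∨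
        K.map (MulAut.conj g).toMonoidHom = K₂ ∨ K.map (MulAut.conj g).toMonoidHom = K₃ := by
  obtain ⟨e⟩ := equivSU F hF
  set Θ : SU 6 F 2 →* X := SU1.subtype.comp e.toMonoidHom with hΘ
  have inj : Function.Injective Θ := Subtype.val_injective.comp e.injective
  have rg : Θ.range = SU1 := by
    rw [hΘ, MonoidHom.range_comp, MonoidHom.range_eq_top.2 e.surjective, ← MonoidHom.range_eq_map,
      Subgroup.range_subtype]
  have mc : ∀ i, ((Mi i).comap Θ).map Θ = Mi i := fun i =>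
    Subgroup.map_comap_eq_self (rg ▸ Mi_le i)
  have cj : ∀ (K : Subgroup (SU 6 F 2)) (g : SU 6 F 2), (K.map (MulAut.conj g).toMonoidHom).map Θ =
      (K.map Θ).map (MulAut.conj (Θ g)).toMonoidHom := fun K g => by
    rw [Subgroup.map_map, Subgroup.map_map]
    congr 1
    ext x : 1
    simp
  have nc : ∀ i j, om ^ i ≠ om ^ j → ¬ ∃ g : SU 6 F 2,
      ((Mi i).comap Θ).map (MulAut.conj g).toMonoidHom = (Mi j).comap Θ := by
    rintro i j hij ⟨g, hg⟩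
    have := cj ((Mi i).comap Θ) g
    rw [hg, mc, mc] at this
    exact hij (Mi_conj (rg ▸ ⟨g, rfl⟩) this.symm)
  obtain ⟨e0⟩ := quotCenter_PSU F9 hF9
  have pr : ∀ i, Nat.card (Subgroup.center ((Mi i).comap Θ)) = 3 ∧
      Nonempty (↥((Mi i).comap Θ) ⧸ Subgroup.center ((Mi i).comap Θ) ≃* PSU 4 F9 3) := fun i => by
    have f : ↥((Mi i).comap Θ) ≃* M0 := ((Subgroup.equivMapOfInjective _ Θ inj).trans
      (MulEquiv.subgroupCongr (mc i))).trans ((MulAut.conj (d0 ^ i)).subgroupMap M0).symm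
    exact ⟨by rw [Nat.card_congr (Subgroup.centerCongr f).toEquiv, card_center_M0],
      ⟨(H55.quotCenterCongr f).trans e0⟩⟩
  refine ⟨(Mi 0).comap Θ, (Mi 1).comap Θ, (Mi 2).comap Θ, ?_, nc 0 1 (by decide), nc 0 2 (by decide),
    nc 1 2 (by decide), fun K h1 ⟨f⟩ => ?_⟩
  · simp only [List.forall_mem_cons, List.not_mem_nil, IsEmpty.forall_iff, implies_true, and_true]
    exact ⟨pr 0, pr 1, pr 2⟩
  · have c1 := Subgroup.card_eq_card_quotient_mul_card_subgroup (Subgroup.center K)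
    rw [h1, Nat.card_congr (f.trans e0.symm).toEquiv, center_M0, card_quot] at c1
    obtain ⟨g, ⟨g1, g2⟩, hg⟩ := core (K.map Θ) (rg ▸ Subgroup.map_le_range Θ K)
      (by rw [Subgroup.card_map_of_injective inj, c1])
    have key : ∀ i, om ^ i * dt ⟨g, g2⟩ = 1 →
        ∃ s : SU 6 F 2, K.map (MulAut.conj s).toMonoidHom = (Mi i).comap Θ := fun i hi => by
      have b := Lin.pow_mem d0_mem_Lin i
      have : d0 ^ i * g ∈ Θ.range := rg ▸ mem_SU1.2 ⟨Oq.mul_mem (Oq.pow_mem d0_mem_Oq i) g1,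
        Lin.mul_mem b g2, by
          change dt (⟨d0 ^ i, b⟩ * ⟨g, g2⟩) = 1
          rw [map_mul, dt_pow, hi]⟩
      obtain ⟨s, hs⟩ := this
      refine ⟨s, Subgroup.map_injective inj ?_⟩
      rw [cj, mc, hs, ← map_conj_mul, hg, Mi]
    rcases units_cases (dt ⟨g, g2⟩) with h | h | h
    · obtain ⟨s, hs⟩ := key 0 (by rw [h]; decide)
      exact ⟨s, Or.inl hs⟩
    · obtain ⟨s, hs⟩ := key 2 (by rw [h]; decide)
      exact ⟨s, Or.inr (Or.inr hs)⟩
    · obtain ⟨s, hs⟩ := key 1 (by rw [h]; decide)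
      exact ⟨s, Or.inr (Or.inl hs)⟩

end H41.F24E
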