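/- The stabiliser of a non-central involution of `Q / ⟨z⟩` in a group of large Fischer type. -/
import Cfsg.Agent.H41.F24E
import Cfsg.Agent.H39.F24Pair

set_option autoImplicit false
set_option Elab.async false

namespace H41.F24E

open H39.F24 MulAction Cfsg

universe u

theorem s5443_of_core (core : CoreStmt.{u}) {G : Type u} [Group G] [Finite G] (z : G)
    (Q : Subgroup (Subgroup.centralizer ({z} : Set G))) [Q.Normal]
    (hF : Cfsg.IsOfLargeFischerTypeAt z Q) (t : Subgroup.centralizer ({z} : Set G)) (htQ : t ∈ Q)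
    (ht2 : orderOf t = 2) (ht : ¬ IsConj z (t : G))
    (S : Subgroup (Subgroup.centralizer ({z} : Set G)))
    (hS : ∀ h : Subgroup.centralizer ({z} : Set G), h ∈ S ↔ (h * t * h⁻¹ = t ∨
      ((h * t * h⁻¹ : Subgroup.centralizer ({z} : Set G)) : G) = t * z)) :
    Nonempty (↥(S.map (QuotientGroup.mk' Q)) ≃*
      Cfsg.isometryGroup (ZMod 2) (Cfsg.quadFormMinus 2 (ZMod 2) 1 1)) := by
  obtain ⟨cl, ρ, h⟩ := core z Q hF
  have hq : (t : G) ∈ Q.map (CZ z).subtype := (mem_map_subtype t).2 htQ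
  have h1 : (t : G) ≠ 1 := fun e => by
    rw [show t = 1 from Subtype.ext e, orderOf_one] at ht2; omega
  have h2 : (t : G) * t = 1 := by
    have := pow_orderOf_eq_one t
    rw [ht2, pow_two] at this
    exact congrArg Subtype.val this
  obtain ⟨e⟩ := isoO6 ((h.not_conj_iff hq h1 h2).1 ht)
  have hk : Q = ρ.ker := by
    ext c; rw [MonoidHom.mem_ker, h.toCo.rho_eq_one_iff, mem_map_subtype]
  let ψ : (CZ z ⧸ Q) →* X := QuotientGroup.lift Q ρ fun c hc => by rwa [hk] at hc
  have hψ : Function.Injective ψ := by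
    rw [injective_iff_map_eq_one]
    intro a ha
    obtain ⟨c, rfl⟩ := QuotientGroup.mk_surjective a
    exact (QuotientGroup.eq_one_iff c).2 (hk ▸ ha)
  have key : ∀ c : CZ z, c ∈ S ↔ ρ c • cl t = cl t := fun c => by
    rw [hS, ← h.act c t hq, h.toCo.cl_eq_iff (h.toCo.conj_mem c hq) hq, Subtype.ext_iff]
    rfl
  have : (S.map (QuotientGroup.mk' Q)).map ψ = H0 ⊓ stabilizer X (cl t) := by
    ext g
    rw [Subgroup.map_map, Subgroup.mem_map, Subgroup.mem_inf, mem_stabilizer_iff]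
    constructor
    · rintro ⟨c, hc, rfl⟩
      exact ⟨h.rho_mem c, (key c).1 hc⟩
    · rintro ⟨hg, e⟩
      obtain ⟨c, rfl⟩ := h.exists_rho hg
      exact ⟨c, (key c).2 e, rfl⟩
  exact ⟨((Subgroup.equivMapOfInjective _ ψ hψ).trans (MulEquiv.subgroupCongr this)).trans e⟩

end H41.F24E
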