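/- The two copies of `SU₆(2)` in the model agree. -/
import Cfsg.Agent.H41.F24C
import Cfsg.Agent.H39.F24M

set_option autoImplicit false
set_option maxRecDepth 100000
set_option Elab.async false

namespace H41.F24E

open H39.F24 H49 Cfsg

theorem mem_SU1_of_pow {x : X} (hx : x ∈ H39.F24.GU) {m : ℕ} (hm : x ^ m = 1) (h3 : m % 3 ≠ 0) :
    x ∈ SU1 := by
  refine mem_SU1.2 ⟨hx.1, hx.2, ?_⟩
  have h1 : dt ⟨x, hx.2⟩ ^ m = 1 := by
    rw [← map_pow, show (⟨x, hx.2⟩ : Lin) ^ m = 1 from Subtype.ext hm, map_one]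
  have h2 := Nat.dvd_gcd (orderOf_dvd_of_pow_eq_one h1)
    (orderOf_dvd_of_pow_eq_one (units_cube (dt ⟨x, hx.2⟩)))
  rw [Nat.Coprime.gcd_eq_one ((Nat.Prime.coprime_iff_not_dvd Nat.prime_three).2 (by omega)).symm,
    Nat.dvd_one, orderOf_eq_one_iff] at h2
  exact h2

theorem SU0_eq_SU1 : SU0 = SU1 := by
  refine Subgroup.eq_of_le_of_card_ge ?_ (by rw [card_SU0, card_SU1])
  rw [SU0_eq]
  refine closure_le_of_all fun x hx => ?_
  have mem : ∀ y ∈ suS, y ∈ H39.F24.GU := fun y hy =>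
    SU0_le_GU (SU0_eq ▸ Subgroup.subset_closure hy)
  rcases (by decide +kernel : ∀ x ∈ suS, x = w0 ∨ x ^ 10 = 1 ∨ ∃ y ∈ suS, y ^ 10 = 1 ∧
    ((x * y) ^ 20 = 1 ∨ (x * y) ^ 11 = 1)) x hx with e | e | ⟨y, hy, e, e'⟩
  · rw [e]; exact w0_mem_SU1
  · exact mem_SU1_of_pow (mem x hx) e (by norm_num)
  · have a := mem_SU1_of_pow (mem y hy) e (by norm_num)
    have c := H39.F24.GU.mul_mem (mem x hx) (mem y hy)
    refine (SU1.mul_mem_cancel_right a).1 ?_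
    rcases e' with e' | e'
    · exact mem_SU1_of_pow c e' (by norm_num)
    · exact mem_SU1_of_pow c e' (by norm_num)

theorem core_SU1 (K : Subgroup X) (hK : K ≤ SU1) (hc : Nat.card K = 9797760) :
    ∃ g ∈ H39.F24.GU, K.map (MulAut.conj g).toMonoidHom = M0 :=
  core_M (SU0_eq_SU1 ▸ hK) hc

end H41.F24E
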