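import Cfsg.Agent.H85.InvBasic
import Cfsg.Agent.H2.PrimeCore
import Cfsg.Agent.H9.MaxClass
import Cfsg.Agent.S0238

/-! A group containing a four-group whose involutions have small centralizers, and with Sylow
2-subgroups of bounded order, has bounded order. -/

set_option autoImplicit false
open Cfsg Subgroup

universe u

namespace H41

variable {G : Type*} [Group G] [Finite G]

/-- Two commuting involutions with all three centralizers of order at most `c`. -/
structure Four (c : ℕ) (s t : G) : Prop where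
  hs : orderOf s = 2
  ht : orderOf t = 2
  hst : orderOf (s * t) = 2
  cs : Nat.card (centralizer ({s} : Set G)) ≤ c
  ct : Nat.card (centralizer ({t} : Set G)) ≤ c
  cst : Nat.card (centralizer ({s * t} : Set G)) ≤ c

omit [Finite G] in
theorem orderOf_mk_eq_two {L : Subgroup G} [L.Normal] {s : G} (hs : orderOf s = 2) (h : s ∉ L) :
    orderOf (s : G ⧸ L) = 2 := by
  refine H85.ord2_iff.2 ⟨?_, fun e => h ((QuotientGroup.eq_one_iff s).1 e)⟩
  rw [← QuotientGroup.mk_mul, H85.ord2_mul_self hs, QuotientGroup.mk_one]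

theorem Four.quot {c : ℕ} {s t : G} (h : Four c s t) (L : Subgroup G) [L.Normal] (hs : s ∉ L)
    (ht : t ∉ L) (hst : s * t ∉ L) : Four c (s : G ⧸ L) (t : G ⧸ L) :=
  ⟨orderOf_mk_eq_two h.hs hs, orderOf_mk_eq_two h.ht ht, orderOf_mk_eq_two h.hst hst,
    (H9.card_centralizer_quotient_le L s).trans h.cs,
    (H9.card_centralizer_quotient_le L t).trans h.ct,
    (H9.card_centralizer_quotient_le L (s * t)).trans h.cst⟩

theorem not_mem_of_odd {K : Subgroup G} (hK : Odd (Nat.card K)) {s : G} (hs : orderOf s = 2) :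
    s ∉ K := fun h => by
  have := K.orderOf_dvd_natCard h
  rw [hs] at this
  exact (Nat.not_even_iff_odd.2 hK) (even_iff_two_dvd.2 this)

theorem card_conjugators_le (x y : G) :
    Nat.card {g : G // g * x * g⁻¹ = y} ≤ Nat.card (centralizer ({x} : Set G)) := by
  by_cases h : IsConj x y
  · exact (H85.card_conjugators h).le
  · have : IsEmpty {g : G // g * x * g⁻¹ = y} := ⟨fun g => h (isConj_iff.2 ⟨g.1, g.2⟩)⟩
    simp

theorem Four.card_le_of_odd {c : ℕ} {s t : G} (h : Four c s t) {K : Subgroup G} [K.Normal]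
    (hK : Odd (Nat.card K)) : Nat.card K ≤ c ^ 3 := by
  classical
  have := Fintype.ofFinite G
  have key : ∀ k ∈ K, ∃ z, z ∈ centralizer ({t} : Set G) ∧ IsConj (s * t) z ∧
      k * s * k⁻¹ ∈ centralizer ({z} : Set G) := by
    intro k hk
    have h1 := H85.ord2_conj h.hs k
    have h2 : ((k * s * k⁻¹ * t : G) : G ⧸ K) = (s * t : G) := by
      simp [(QuotientGroup.eq_one_iff k).2 hk]
    have h3 := orderOf_mk_eq_two h.hst (not_mem_of_odd hK h.hst)
    have h4 : Even (orderOf (k * s * k⁻¹ * t)) := by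
      rw [even_iff_two_dvd, ← h3, ← h2]
      exact orderOf_map_dvd (QuotientGroup.mk' K) _
    obtain ⟨z, hz, hz2⟩ := H85.exists_ord2_mem_zpowers h4
    obtain ⟨c1, c2⟩ := H85.commute_of_ord2_mem_zpowers h1 h.ht hz hz2
    refine ⟨z, mem_centralizer_singleton_iff.2 c2, ?_, mem_centralizer_singleton_iff.2 c1.symm⟩
    have h5 : (z : G ⧸ K) = (s * t : G) := by
      refine H85.ord2_unique_in_zpowers (x := ((s * t : G) : G ⧸ K)) ?_ (mem_zpowers _)
        (orderOf_mk_eq_two hz2 (not_mem_of_odd hK hz2)) h3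
      obtain ⟨m, rfl⟩ := hz
      exact ⟨m, by simp only [QuotientGroup.mk_zpow, h2]⟩
    refine H85.isConj_of_odd_orderOf_mul h.hst hz2 (Odd.of_dvd_nat hK (K.orderOf_dvd_natCard ?_))
    rw [← QuotientGroup.eq_one_iff, QuotientGroup.mk_mul, h5, H85.ord2_mul_self h3]
  have hsub : Finset.univ.filter (· ∈ K) ⊆
      (Finset.univ.filter fun z => z ∈ centralizer ({t} : Set G) ∧ IsConj (s * t) z).biUnion
        fun z => (Finset.univ.filter (· ∈ centralizer ({z} : Set G))).biUnion
          fun y => Finset.univ.filter fun g => g * s * g⁻¹ = y := by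
    intro k hk
    obtain ⟨z, h1, h2, h3⟩ := key k (Finset.mem_filter.1 hk).2
    simp only [Finset.mem_biUnion, Finset.mem_filter, Finset.mem_univ, true_and]
    exact ⟨z, ⟨h1, h2⟩, _, h3, rfl⟩
  have hc : ∀ (q : G → Prop) [DecidablePred q], (Finset.univ.filter q).card = Nat.card {x // q x} :=
    fun q _ => by rw [Nat.card_eq_fintype_card, Fintype.card_subtype]
  have h1 := (Finset.card_le_card hsub).trans (Finset.card_biUnion_le_card_mul _ _ (c * c)
    fun z hz => (Finset.card_biUnion_le_card_mul _ _ c fun y _ => by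
      rw [hc]; exact (card_conjugators_le s y).trans h.cs).trans (Nat.mul_le_mul_right c (by
        rw [hc]
        exact (H85.card_centralizer_of_isConj (Finset.mem_filter.1 hz).2.2).symm.le.trans h.cst)))
  have h2 : (Finset.univ.filter fun z => z ∈ centralizer ({t} : Set G) ∧ IsConj (s * t) z).card
      ≤ c := by
    refine le_trans (Finset.card_le_card (t := Finset.univ.filter (· ∈ centralizer ({t} : Set G)))
      fun z hz => ?_) (by rw [hc]; exact h.ct)
    simp only [Finset.mem_filter, Finset.mem_univ, true_and] at hz ⊢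
    exact hz.1
  rw [hc] at h1
  calc Nat.card K ≤ _ := h1
    _ ≤ c * (c * c) := Nat.mul_le_mul_right _ h2
    _ = c ^ 3 := by ring

/-- Brauer and Fowler: some nontrivial element has a small class. -/
theorem exists_small_class {s : G} (hs : orderOf s = 2) {c : ℕ}
    (h : Nat.card (centralizer ({s} : Set G)) ≤ c) :
    Nat.card G ≤ c ∨ ∃ g : G, g ≠ 1 ∧ (centralizer ({g} : Set G)).index ≤ 2 * c ^ 2 := by
  classical
  have := Fintype.ofFinite G
  by_contra hn
  push Not at hn
  obtain ⟨hG, hn⟩ := hn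
  set I : Finset G := Finset.univ.filter fun t => orderOf t = 2 with hI
  have h1 : Nat.card G ≤ I.card * c := by
    rw [← H85.card_class_mul_card_centralizer s]
    refine Nat.mul_le_mul ?_ h
    rw [Nat.card_eq_fintype_card, Fintype.card_subtype]
    refine Finset.card_le_card fun y hy => ?_
    simp only [hI, Finset.mem_filter, Finset.mem_univ, true_and] at hy ⊢
    exact H85.ord2_of_isConj hs hy
  have h2 : 2 ≤ I.card := by
    by_contra h2
    have : I.card * c ≤ 1 * c := Nat.mul_le_mul_right c (by omega)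
    omega
  let d : G → ℕ := fun x =>
    Nat.card {p : G × G // orderOf p.1 = 2 ∧ orderOf p.2 = 2 ∧ p.1 * p.2 = x}
  have hd : ∀ x, d x = ((I ×ˢ I).filter fun p => p.1 * p.2 = x).card := by
    intro x
    simp only [d]
    rw [Nat.card_eq_fintype_card, Fintype.card_subtype]
    congr 1
    ext p
    simp [hI, and_assoc]
  have hsum : I.card ^ 2 = ∑ x, d x := by
    rw [pow_two, ← Finset.card_product,
      Finset.card_eq_sum_card_fiberwise (f := fun p : G × G => p.1 * p.2) (t := Finset.univ)
        (fun _ _ => Finset.mem_coe.2 (Finset.mem_univ _))]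
    exact Finset.sum_congr rfl fun x _ => (hd x).symm
  have hd1 : d 1 ≤ I.card := by
    rw [hd]
    refine Finset.card_le_card_of_injOn (fun p => p.1) ?_ ?_
    · intro p hp
      exact (Finset.mem_product.1 (Finset.mem_filter.1 hp).1).1
    · rintro ⟨u, v⟩ hp ⟨u', v'⟩ hp' h
      have h1 := (Finset.mem_filter.1 hp).2
      have h2 := (Finset.mem_filter.1 hp').2
      simp only at h h1 h2
      subst h
      rw [mul_left_cancel (h1.trans h2.symm)]
  have h3 : ∑ x ∈ Finset.univ.erase 1, 2 * c ^ 2 * d x ≤ ∑ _x ∈ Finset.univ.erase (1 : G),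
      Nat.card G := by
    refine Finset.sum_le_sum fun x hx => ?_
    rw [← (centralizer ({x} : Set G)).index_mul_card]
    exact Nat.mul_le_mul (hn x (Finset.mem_erase.1 hx).1).le (Cfsg.Agent.S0238.result x).1
  rw [← Finset.mul_sum, Finset.sum_const, smul_eq_mul, Finset.card_erase_of_mem (Finset.mem_univ _),
    Finset.card_univ, ← Nat.card_eq_fintype_card] at h3
  rw [← Finset.add_sum_erase _ _ (Finset.mem_univ 1)] at hsum
  set n := I.card
  set σ := ∑ x ∈ Finset.univ.erase 1, d x
  obtain ⟨m, hm⟩ : ∃ m, Nat.card G = m + 1 := ⟨_, (Nat.succ_pred_eq_of_pos Nat.card_pos).symm⟩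
  rw [hm] at h1 h3
  simp only [Nat.add_sub_cancel] at h3
  have h4 : n ^ 2 ≤ 2 * σ := by nlinarith
  have h5 : (m + 1) ^ 2 ≤ (n * c) ^ 2 := Nat.pow_le_pow_left h1 2
  have h6 : (n * c) ^ 2 ≤ 2 * c ^ 2 * σ := by
    rw [mul_pow]
    calc n ^ 2 * c ^ 2 ≤ 2 * σ * c ^ 2 := Nat.mul_le_mul_right _ h4
      _ = _ := by ring
  nlinarith

theorem exists_small_normal (hO : pPrimeCore 2 G = ⊥) {g : G} (hg : g ≠ 1) {m : ℕ}
    (hm : (centralizer ({g} : Set G)).index ≤ m) :
    ∃ L : Subgroup G, L.Normal ∧ L ≠ ⊥ ∧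
      Nat.card L ≤ m.factorial + 2 ^ (Nat.card G).factorization 2 := by
  set K := (centralizer ({g} : Set G)).normalCore with hK
  have hKi : K.index ≤ m.factorial := by
    refine le_trans ?_ (Nat.factorial_le hm)
    rw [hK, normalCore_eq_ker, index_ker, index_eq_card, ← Nat.card_perm]
    exact Nat.card_le_card_of_injective _ Subtype.val_injective
  set L := normalClosure ({g} : Set G) with hL
  have hLK : L ≤ centralizer (K : Set G) := by
    refine normalClosure_le_normal ?_
    rintro _ rfl k hk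
    exact mem_centralizer_singleton_iff.1 (normalCore_le _ hk)
  by_cases hZ : L ⊓ K = ⊥
  · refine ⟨L, inferInstance, fun h => hg ?_, le_trans ?_ (hKi.trans (Nat.le_add_right _ _))⟩
    · have : g ∈ L := subset_normalClosure rfl
      rwa [h, mem_bot] at this
    · refine Nat.card_le_card_of_injective ((QuotientGroup.mk' K).comp L.subtype) ?_
      rw [injective_iff_map_eq_one]
      intro x hx
      have : (x : G) ∈ L ⊓ K := ⟨x.2, (QuotientGroup.eq_one_iff _).1 hx⟩
      rw [hZ, mem_bot] at this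
      exact Subtype.ext this
  · refine ⟨L ⊓ K, inferInstance, hZ, le_trans ?_ (Nat.le_add_left _ _)⟩
    have h1 : pPrimeCore 2 ↥(L ⊓ K) = ⊥ := by
      rw [H2.pPrimeCore_eq_subgroupOf, hO, bot_subgroupOf]
    have h2 : ∀ q, q.Prime → q ∣ Nat.card ↥(L ⊓ K) → q = 2 := by
      intro q hq hqd
      by_contra hq2
      have := Fact.mk hq
      obtain ⟨z, hz⟩ := exists_prime_orderOf_dvd_card' q hqd
      have : (zpowers z).Normal := ⟨fun x hx y => by
        have : y * x = x * y := Subtype.ext (hLK x.2.1 y y.2.2)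
        rwa [this, mul_inv_cancel_right]⟩
      have h3 : zpowers z ≤ pPrimeCore 2 ↥(L ⊓ K) := H2.le_pPrimeCore (by
        rw [Nat.card_zpowers, hz]; exact (Nat.coprime_primes hq Nat.prime_two).2 hq2)
      rw [h1, le_bot_iff, zpowers_eq_bot] at h3
      rw [h3, orderOf_one] at hz
      exact hq.one_lt.ne hz
    have h3 := Nat.eq_prime_pow_of_unique_prime_dvd (Nat.card_pos (α := ↥(L ⊓ K))).ne'
      fun {q} hq hqd => h2 q hq hqd
    have h4 := (L ⊓ K).card_subgroup_dvd_card
    rw [h3] at h4 ⊢
    exact Nat.pow_le_pow_right two_pos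
      ((Nat.prime_two.pow_dvd_iff_le_factorization Nat.card_pos.ne').1 h4)

theorem card_le_mul_of_mem_normal {L : Subgroup G} [hL : L.Normal] {v : G} (hv : v ∈ L) :
    Nat.card G ≤ Nat.card L * Nat.card (centralizer ({v} : Set G)) := by
  rw [← H85.card_class_mul_card_centralizer v]
  refine Nat.mul_le_mul_right _ (Nat.card_le_card_of_injective
    (fun y => (⟨y.1, ?_⟩ : L)) fun y y' h => Subtype.ext (congrArg (fun x : L => x.1) h))
  obtain ⟨x, hx⟩ := isConj_iff.1 y.2
  exact hx ▸ hL.conj_mem v hv x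

theorem four_bound (c a : ℕ) : ∃ N : ℕ, ∀ (G : Type u) [Group G] [Finite G] (s t : G),
    (Nat.card G).factorization 2 ≤ a → Four c s t → Nat.card G ≤ N := by
  induction a with
  | zero =>
    refine ⟨0, fun G _ _ s t ha h => ?_⟩
    have := Nat.prime_two.factorization_pos_of_dvd (Nat.card_pos (α := G)).ne'
      (h.hs ▸ orderOf_dvd_natCard s)
    omega
  | succ a ih =>
    obtain ⟨N, hN⟩ := ih
    set b := (2 * c ^ 2).factorial + 2 ^ (a + 1) with hb
    have key : ∀ (G : Type u) [Group G] [Finite G] (s t : G), pPrimeCore 2 G = ⊥ →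
        (Nat.card G).factorization 2 ≤ a + 1 → Four c s t → Nat.card G ≤ c + b * (c + N) := by
      intro G _ _ s t hO ha h
      rcases exists_small_class h.hs h.cs with h1 | ⟨g, hg, h1⟩
      · exact h1.trans (Nat.le_add_right _ _)
      obtain ⟨L, hL, hL1, hLb⟩ := exists_small_normal hO hg h1
      replace hLb : Nat.card L ≤ b :=
        hLb.trans (Nat.add_le_add_left (Nat.pow_le_pow_right two_pos ha) _)
      refine le_trans ?_ (Nat.le_add_left _ _)
      have h2 : ∀ v ∈ L, Nat.card (centralizer ({v} : Set G)) ≤ c → Nat.card G ≤ b * (c + N) :=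
        fun v hv hc => (card_le_mul_of_mem_normal hv).trans
          (Nat.mul_le_mul hLb (hc.trans (Nat.le_add_right _ _)))
      by_cases e1 : s ∈ L
      · exact h2 s e1 h.cs
      by_cases e2 : t ∈ L
      · exact h2 t e2 h.ct
      by_cases e3 : s * t ∈ L
      · exact h2 _ e3 h.cst
      have h3 : 2 ∣ Nat.card L := by
        by_contra h3
        exact hL1 (le_bot_iff.1 (hO ▸ H2.le_pPrimeCore
          ((Nat.prime_two.coprime_iff_not_dvd).2 h3).symm))
      have h4 := Nat.prime_two.factorization_pos_of_dvd Nat.card_pos.ne' h3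
      have h5 := card_eq_card_quotient_mul_card_subgroup L
      have h6 := hN (G ⧸ L) s t (by
        rw [h5, Nat.factorization_mul Nat.card_pos.ne' Nat.card_pos.ne', Finsupp.add_apply] at ha
        omega) (h.quot L e1 e2 e3)
      rw [h5, mul_comm]
      exact Nat.mul_le_mul hLb (h6.trans (Nat.le_add_left _ _))
    refine ⟨(c + b * (c + N)) * c ^ 3, fun G _ _ s t ha h => ?_⟩
    have hodd : Odd (Nat.card (pPrimeCore 2 G)) := H2.odd_card_oddCore G
    have h5 := card_eq_card_quotient_mul_card_subgroup (pPrimeCore 2 G)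
    have h6 := key (G ⧸ pPrimeCore 2 G) s t (H2.pPrimeCore_quotient_pPrimeCore 2 G) (by
      rw [h5, Nat.factorization_mul Nat.card_pos.ne' Nat.card_pos.ne', Finsupp.add_apply] at ha
      omega) (h.quot _ (not_mem_of_odd hodd h.hs) (not_mem_of_odd hodd h.ht)
        (not_mem_of_odd hodd h.hst))
    rw [h5]
    exact Nat.mul_le_mul h6 (h.card_le_of_odd hodd)

end H41
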