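/- Lattices in a rational quadratic space: duals, discriminants, change of lattice. -/
import Cfsg.Agent.Base

set_option autoImplicit false

namespace H41.Ft

open Module Submodule

variable {V : Type*} [AddCommGroup V] [Module ℚ V] [FiniteDimensional ℚ V]

/-- Symmetric positive definite forms. -/
structure PD (B : LinearMap.BilinForm ℚ V) : Prop where
  symm : ∀ x y, B x y = B y x
  pos : ∀ x, x ≠ 0 → 0 < B x x

namespace PD
variable {B : LinearMap.BilinForm ℚ V} (hB : PD B)
include hB

theorem nonneg (x : V) : 0 ≤ B x x := by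
  by_cases h : x = 0
  · simp [h]
  · exact (hB.pos x h).le

theorem eq_zero {x : V} (h : B x x = 0) : x = 0 := by
  by_contra h0
  exact (hB.pos x h0).ne' h

theorem nd : B.Nondegenerate :=
  ⟨fun x h => hB.eq_zero (h x), fun x h => hB.eq_zero (h x)⟩

theorem isSymm : B.IsSymm := ⟨fun x y => hB.symm x y⟩

theorem smul {c : ℚ} (hc : 0 < c) : PD (c • B) :=
  ⟨fun x y => by simp [hB.symm x y], fun x hx => by simpa using mul_pos hc (hB.pos x hx)⟩

theorem diag : ∃ (c : Basis (Fin (finrank ℚ V)) ℚ V) (l : Fin (finrank ℚ V) → ℚ),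
    (∀ i, 0 < l i) ∧ (∀ i j, B (c i) (c j) = if i = j then l i else 0) ∧
      ∀ x y, B x y = ∑ i, l i * (c.repr x i * c.repr y i) := by
  obtain ⟨c, hc⟩ := LinearMap.BilinForm.exists_orthogonal_basis (B := B) ⟨fun x y => hB.symm x y⟩
  have h : ∀ i j, B (c i) (c j) = if i = j then B (c i) (c i) else 0 := by
    intro i j
    split_ifs with hij
    · rw [hij]
    · exact hc hij
  refine ⟨c, fun i => B (c i) (c i), fun i => hB.pos _ (c.ne_zero i), h, fun x y => ?_⟩
  conv_lhs => rw [← c.sum_repr x, ← c.sum_repr y]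
  simp only [map_sum, map_smul, LinearMap.sum_apply, LinearMap.smul_apply, smul_eq_mul]
  refine Finset.sum_congr rfl fun i _ => ?_
  rw [Finset.sum_eq_single i]
  · ring
  · intro j _ hj
    rw [h j i, if_neg hj, mul_zero]
  · simp

/-- The cube of a positive definite form is a positive semidefinite kernel. -/
theorem cube_nonneg {ι : Type*} [Fintype ι] (x : ι → V) : 0 ≤ ∑ i, ∑ j, B (x i) (x j) ^ 3 := by
  obtain ⟨c, l, hl, -, h⟩ := hB.diag
  have : ∑ i, ∑ j, B (x i) (x j) ^ 3 = ∑ a, ∑ b, ∑ d, l a * l b * l d *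
      (∑ i, c.repr (x i) a * c.repr (x i) b * c.repr (x i) d) ^ 2 := by
    have e1 : ∀ i j, B (x i) (x j) ^ 3 = ∑ a, ∑ b, ∑ d, l a * l b * l d *
        ((c.repr (x i) a * c.repr (x i) b * c.repr (x i) d) *
          (c.repr (x j) a * c.repr (x j) b * c.repr (x j) d)) := by
      intro i j
      rw [h, pow_three, Finset.sum_mul_sum, Finset.sum_mul]
      refine Finset.sum_congr rfl fun a _ => ?_
      rw [Finset.mul_sum]
      refine Finset.sum_congr rfl fun b _ => ?_
      rw [Finset.mul_sum]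
      refine Finset.sum_congr rfl fun d _ => ?_
      ring
    simp_rw [e1, sq, Finset.sum_mul_sum, Finset.mul_sum]
    simp_rw [← Finset.sum_product', Finset.univ_product_univ]
    exact Fintype.sum_equiv
      ⟨fun p => (p.2.2.1, p.2.2.2.1, p.2.2.2.2, p.1, p.2.1),
        fun p => (p.2.2.2.1, p.2.2.2.2, p.1, p.2.1, p.2.2.1), fun _ => rfl, fun _ => rfl⟩ _ _
      fun _ => rfl
  rw [this]
  refine Finset.sum_nonneg fun a _ => Finset.sum_nonneg fun b _ => Finset.sum_nonneg fun d _ => ?_
  have := hl a; have := hl b; have := hl d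
  positivity

theorem det_pos {n : ℕ} (b : Basis (Fin n) ℚ V) : 0 < (LinearMap.BilinForm.toMatrix b B).det := by
  obtain ⟨c, l, hl, hc, -⟩ := hB.diag
  have hn : finrank ℚ V = n := by simpa using finrank_eq_card_basis b
  subst hn
  have h1 : LinearMap.BilinForm.toMatrix c B = Matrix.diagonal l := by
    ext i j
    rw [LinearMap.BilinForm.toMatrix_apply, hc, Matrix.diagonal_apply]
  rw [← LinearMap.BilinForm.toMatrix_mul_basis_toMatrix c b B, Matrix.det_mul, Matrix.det_mul,
    Matrix.det_transpose, h1, Matrix.det_diagonal]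
  have h2 : (c.toMatrix b).det ≠ 0 := by
    rw [← Basis.det_apply]; exact (c.isUnit_det b).ne_zero
  have h3 : 0 < ∏ i, l i := Finset.prod_pos fun i _ => hl i
  have := sq_pos_of_ne_zero h2
  nlinarith

theorem cs (x y : V) : B x y ^ 2 ≤ B x x * B y y := by
  by_cases hy : y = 0
  · simp [hy]
  have h1 := hB.pos y hy
  have h2 := hB.nonneg (B y y • x - B x y • y)
  simp only [map_sub, map_smul, LinearMap.sub_apply, LinearMap.smul_apply, smul_eq_mul,
    hB.symm y x] at h2
  nlinarith

end PD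

/-- The dual lattice. -/
def dual (B : LinearMap.BilinForm ℚ V) (L : Submodule ℤ V) : Submodule ℤ V := B.dualSubmodule L

theorem mem_dual {B : LinearMap.BilinForm ℚ V} {L : Submodule ℤ V} {x : V} :
    x ∈ dual B L ↔ ∀ y ∈ L, ∃ n : ℤ, B x y = n := by
  refine forall₂_congr fun y _ => ?_
  rw [Submodule.mem_one]
  exact exists_congr fun n => by simp [eq_comm]

theorem exists_basis (L : Submodule ℤ V) [IsLattice ℚ L] {n : ℕ} (hn : finrank ℚ V = n) :
    ∃ b : Basis (Fin n) ℚ V, L = span ℤ (Set.range b) := by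
  have h : finrank ℤ L = n := by
    rw [← hn]
    unfold finrank
    rw [IsLattice.rank' ℚ L]
  let c := Module.finBasisOfFinrankEq ℤ L h
  refine ⟨c.extendOfIsLattice ℚ, ?_⟩
  have : Set.range (c.extendOfIsLattice ℚ) = L.subtype '' Set.range c := by
    rw [← Set.range_comp]
    congr 1
    ext i
    simp
  rw [this, ← Submodule.map_span, c.span_eq, Submodule.map_top, Submodule.range_subtype]

theorem isLattice_span {ι : Type*} [Finite ι] (b : Basis ι ℚ V) :
    IsLattice ℚ (span ℤ (Set.range b)) :=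
  ⟨Submodule.fg_span (Set.finite_range b), by rw [Submodule.span_span_of_tower, b.span_eq]⟩

theorem isLattice_dual {B : LinearMap.BilinForm ℚ V} (hB : PD B) (L : Submodule ℤ V)
    [IsLattice ℚ L] : IsLattice ℚ (dual B L) := by
  obtain ⟨b, rfl⟩ := exists_basis L rfl
  rw [dual, LinearMap.BilinForm.dualSubmodule_span_of_basis B hB.nd b]
  exact isLattice_span _

theorem dual_dual {B : LinearMap.BilinForm ℚ V} (hB : PD B) (L : Submodule ℤ V)
    [IsLattice ℚ L] : dual B (dual B L) = L := by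
  obtain ⟨b, rfl⟩ := exists_basis L rfl
  exact LinearMap.BilinForm.dualSubmodule_dualSubmodule_of_basis B hB.nd hB.isSymm b

theorem isLattice_between {L L' M : Submodule ℤ V} [IsLattice ℚ L] [IsLattice ℚ M] (h1 : L ≤ L')
    (h2 : L' ≤ M) : IsLattice ℚ L' :=
  IsLattice.of_le_of_isLattice_of_fg ℚ h1 (Submodule.FG.of_le IsLattice.fg h2)

/-- A sublattice containing a multiple of a lattice is a lattice. -/
theorem isLattice_of_smul_mem {L M : Submodule ℤ V} [IsLattice ℚ M] (h2 : L ≤ M) {n : ℤ}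
    (hn : n ≠ 0) (h : ∀ x ∈ M, n • x ∈ L) : IsLattice ℚ L := by
  refine ⟨Submodule.FG.of_le IsLattice.fg h2, ?_⟩
  rw [eq_top_iff, ← IsLattice.span_eq_top (A := ℚ) (M := M), Submodule.span_le]
  intro x hx
  have : x = (n : ℚ)⁻¹ • (n • x) := by
    rw [← Int.cast_smul_eq_zsmul ℚ, smul_smul, inv_mul_cancel₀ (by exact_mod_cast hn), one_smul]
  rw [this]
  exact Submodule.smul_mem _ _ (Submodule.subset_span (h x hx))

/-- The index of one lattice in another. -/
noncomputable def idx (L M : Submodule ℤ V) : ℕ := L.toAddSubgroup.relIndex M.toAddSubgroup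

theorem idx_eq {n : ℕ} (b c : Basis (Fin n) ℚ V)
    (h : span ℤ (Set.range b) ≤ span ℤ (Set.range c)) :
    (idx (span ℤ (Set.range b)) (span ℤ (Set.range c)) : ℚ) = |c.det b| :=
  AddSubgroup.relIndex_eq_abs_det _ _ h b c (span_int_eq_addSubgroupClosure _)
    (span_int_eq_addSubgroupClosure _)

theorem idx_ne_zero {L M : Submodule ℤ V} [IsLattice ℚ L] [IsLattice ℚ M] (h : L ≤ M) :
    idx L M ≠ 0 := by
  obtain ⟨b, rfl⟩ := exists_basis L rfl
  obtain ⟨c, rfl⟩ := exists_basis M rfl
  have := idx_eq b c h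
  intro h0
  rw [h0] at this
  exact (c.isUnit_det b).ne_zero (abs_eq_zero.1 (by exact_mod_cast this.symm))

theorem idx_smul_mem {L M : Submodule ℤ V} {x : V} (hx : x ∈ M) : (idx L M : ℤ) • x ∈ L := by
  rw [natCast_zsmul]
  exact AddSubgroup.nsmul_relIndex_mem L.toAddSubgroup (K := M.toAddSubgroup) hx

theorem idx_eq_one {L M : Submodule ℤ V} : idx L M = 1 ↔ M ≤ L :=
  AddSubgroup.relIndex_eq_one

/-- The discriminant of an integral lattice. -/
noncomputable def disc (B : LinearMap.BilinForm ℚ V) (L : Submodule ℤ V) : ℕ := idx L (dual B L)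

theorem disc_eq {B : LinearMap.BilinForm ℚ V} (hB : PD B) {n : ℕ} (b : Basis (Fin n) ℚ V)
    (h : span ℤ (Set.range b) ≤ dual B (span ℤ (Set.range b))) :
    (disc B (span ℤ (Set.range b)) : ℚ) = (LinearMap.BilinForm.toMatrix b B).det := by
  have e : dual B (span ℤ (Set.range b)) = span ℤ (Set.range (B.dualBasis hB.nd b)) :=
    LinearMap.BilinForm.dualSubmodule_span_of_basis B hB.nd b
  rw [disc, e, idx_eq _ _ (e ▸ h), Basis.det_apply]
  have : (B.dualBasis hB.nd b).toMatrix b = LinearMap.BilinForm.toMatrix b B := by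
    ext i j
    rw [Basis.toMatrix_apply, LinearMap.BilinForm.dualBasis_repr_apply,
      LinearMap.BilinForm.toMatrix_apply, hB.symm]
  rw [this, abs_of_pos (hB.det_pos b)]

theorem disc_ne_zero {B : LinearMap.BilinForm ℚ V} (hB : PD B) {L : Submodule ℤ V}
    [IsLattice ℚ L] (h : L ≤ dual B L) : disc B L ≠ 0 :=
  haveI := isLattice_dual hB L
  idx_ne_zero h

theorem disc_change {B : LinearMap.BilinForm ℚ V} (hB : PD B) {L M : Submodule ℤ V}
    [IsLattice ℚ L] [IsLattice ℚ M] (hLM : L ≤ M) (hL : L ≤ dual B L) {c : ℚ} (hc : 0 < c)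
    (hM : M ≤ dual (c • B) M) :
    (disc (c • B) M : ℚ) * idx L M ^ 2 = c ^ finrank ℚ V * disc B L := by
  obtain ⟨b, rfl⟩ := exists_basis L rfl
  obtain ⟨d, rfl⟩ := exists_basis M rfl
  rw [disc_eq hB b hL, disc_eq (hB.smul hc) d hM, idx_eq b d hLM, sq_abs, map_smul,
    Matrix.det_smul, ← LinearMap.BilinForm.toMatrix_mul_basis_toMatrix d b B, Matrix.det_mul,
    Matrix.det_mul, Matrix.det_transpose, Basis.det_apply, Fintype.card_fin]
  ring

end H41.Ft
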