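/- Linear algebra for the rational representations of degree 23: isometries in odd dimension,
elements of order 23 on small modules, cyclotomic factors of characteristic polynomials. -/
import Cfsg.Agent.H58.WittIndex

set_option autoImplicit false

namespace H41.Ft

open Module Polynomial

section alt
variable {K U : Type*} [Field K] [AddCommGroup U] [Module K U] [FiniteDimensional K U]

/-- An isometry of a non-degenerate symmetric form in odd dimension has `T² x = x` for some `x ≠ 0`. -/
theorem alt_fix (B : LinearMap.BilinForm K U) (hs : ∀ x y, B x y = B y x)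
    (hn : ∀ x, (∀ y, B x y = 0) → x = 0) (T : U →ₗ[K] U) (hT : ∀ x y, B (T x) (T y) = B x y)
    (hodd : Odd (finrank K U)) : ∃ x, x ≠ 0 ∧ T (T x) = x := by
  let ω : LinearMap.BilinForm K U := B.compRight T - B.compLeft T
  have hω : ∀ x y, ω x y = B x (T y) - B (T x) y := fun x y => rfl
  have hA : ω.IsAlt := fun x => by
    show ω x x = 0
    rw [hω, hs, sub_self]
  have hev := H58.even_finrank_sub_ker hA
  have hk : finrank K (LinearMap.ker ω) ≠ 0 := by
    intro h
    rw [h, add_zero] at hev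
    exact (Nat.not_even_iff_odd.2 hodd) hev
  have hne : LinearMap.ker ω ≠ ⊥ := fun h => hk (by rw [h, finrank_bot])
  obtain ⟨x, hx, hx0⟩ := Submodule.exists_mem_ne_zero_of_ne_bot hne
  have hinj : Function.Injective T := by
    rw [← LinearMap.ker_eq_bot, LinearMap.ker_eq_bot']
    intro z hz
    exact hn z fun y => by rw [← hT, hz]; simp
  have hsurj : Function.Surjective T := LinearMap.injective_iff_surjective.1 hinj
  refine ⟨x, hx0, ?_⟩
  have : T (T x) - x = 0 := hn _ fun z => by
    obtain ⟨y, rfl⟩ := hsurj z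
    have h1 : ω x y = 0 := by rw [LinearMap.mem_ker.1 hx]; rfl
    rw [hω] at h1
    rw [map_sub, LinearMap.sub_apply, hT]
    linear_combination -h1
  exact sub_eq_zero.1 this

theorem fix_of_sq_fix (T : U →ₗ[K] U) (hT : T ^ 23 = 1) {x : U} (hx : T (T x) = x) : T x = x := by
  have h : ∀ n : ℕ, (T ^ (2 * n)) x = x := by
    intro n
    induction n with
    | zero => simp
    | succ n ih =>
      rw [show 2 * (n + 1) = 2 * n + 1 + 1 by ring, pow_succ, pow_succ, Module.End.mul_apply,
        Module.End.mul_apply, hx, ih]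
  have h2 := h 12
  rw [show 2 * 12 = 23 + 1 by norm_num, pow_succ, hT, one_mul] at h2
  exact h2

end alt

/-- An isometry of order dividing 23 of a non-degenerate symmetric form over `ZMod q` in dimension
at most 11 is trivial if `q` has order at least 11 modulo 23. -/
theorem triv_of_small {q : ℕ} [Fact q.Prime] (hq23 : Nat.Coprime 23 q)
    (hq : ∀ j, 0 < j → j ≤ 10 → ¬ q ^ j ≡ 1 [MOD 23])
    {U : Type*} [AddCommGroup U] [Module (ZMod q) U] [Finite U] (hr : finrank (ZMod q) U ≤ 11)
    (B : LinearMap.BilinForm (ZMod q) U) (hs : ∀ x y, B x y = B y x)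
    (hn : ∀ x, (∀ y, B x y = 0) → x = 0) (T : U →ₗ[ZMod q] U) (hT : ∀ x y, B (T x) (T y) = B x y)
    (h23 : T ^ 23 = 1) (x : U) : T x = x := by
  classical
  haveI : Fact (Nat.Prime 23) := ⟨by norm_num⟩
  haveI := Fintype.ofFinite U
  let F : Submodule (ZMod q) U := LinearMap.ker (T - 1)
  have hF : ∀ y, y ∈ F ↔ T y = y := fun y => by
    simp [F, LinearMap.mem_ker, sub_eq_zero]
  let f : Function.End U := fun y => T y
  have hf : f ^ 23 ^ 1 = 1 := by
    have h1 : ∀ n : ℕ, f ^ n = ((T ^ n : U →ₗ[ZMod q] U) : U → U) := by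
      intro n
      induction n with
      | zero => rfl
      | succ n ih => rw [pow_succ, pow_succ, ih]; rfl
    rw [pow_one, h1, h23]; rfl
  have hc0 := Equiv.Perm.card_fixedPoints_modEq hf
  have hU : Fintype.card U = q ^ finrank (ZMod q) U := by
    rw [Module.card_eq_pow_finrank (K := ZMod q), ZMod.card]
  have hc : q ^ finrank (ZMod q) U ≡ q ^ finrank (ZMod q) F [MOD 23] := by
    rw [← hU]
    convert hc0 using 1
    have h0 : Fintype.card F = Fintype.card (ZMod q) ^ finrank (ZMod q) F :=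
      Module.card_eq_pow_finrank (K := ZMod q)
    rw [ZMod.card] at h0
    rw [← h0]
    exact Fintype.card_congr (Equiv.subtypeEquivRight fun y => (hF y))
  have hle : finrank (ZMod q) F ≤ finrank (ZMod q) U := Submodule.finrank_le F
  obtain ⟨j, hj⟩ := Nat.exists_eq_add_of_le hle
  have hj1 : q ^ j ≡ 1 [MOD 23] := by
    rw [hj, pow_add] at hc
    refine Nat.ModEq.cancel_left_of_coprime (c := q ^ finrank (ZMod q) F)
      (Nat.Coprime.pow_right _ hq23) ?_
    rwa [mul_one]
  by_cases hj0 : j = 0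
  · have : F = ⊤ := Submodule.eq_top_of_finrank_eq (by omega)
    exact (hF x).1 (this ▸ Submodule.mem_top)
  · have h11 : 11 ≤ j := by
      by_contra h
      exact hq j (by omega) (by omega) hj1
    obtain ⟨y, hy0, hy⟩ := alt_fix B hs hn T hT (by
      rw [show finrank (ZMod q) U = 11 by omega]; decide)
    have hyF : y ∈ F := (hF y).2 (fix_of_sq_fix T h23 hy)
    have : F = ⊥ := Submodule.finrank_eq_zero.1 (by omega)
    rw [this] at hyF
    exact absurd ((Submodule.mem_bot _).1 hyF) hy0

section cyc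
variable {V : Type*} [AddCommGroup V] [Module ℚ V] [FiniteDimensional ℚ V]

theorem cyclotomic_dvd_charpoly (T : V →ₗ[ℚ] V) {p k : ℕ} (hp : p.Prime)
    (h1 : T ^ p ^ (k + 1) = 1) (h2 : T ^ p ^ k ≠ 1) :
    cyclotomic (p ^ (k + 1)) ℚ ∣ T.charpoly := by
  haveI := Fact.mk hp
  have hirr : Irreducible (cyclotomic (p ^ (k + 1)) ℚ) :=
    cyclotomic.irreducible_rat (pow_pos hp.pos _)
  refine dvd_trans ?_ (LinearMap.minpoly_dvd_charpoly T)
  by_contra hnd
  have hcop : IsCoprime (minpoly ℚ T) (cyclotomic (p ^ (k + 1)) ℚ) :=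
    (hirr.coprime_iff_not_dvd.2 hnd).symm
  have hd : minpoly ℚ T ∣ cyclotomic (p ^ (k + 1)) ℚ * (X ^ p ^ k - 1) := by
    rw [cyclotomic_prime_pow_mul_X_pow_sub_one]
    exact minpoly.dvd _ _ (by simp [h1])
  have hd2 := hcop.dvd_of_dvd_mul_left hd
  apply h2
  obtain ⟨c, hc⟩ := hd2
  have := congrArg (aeval T) hc
  rw [map_mul, minpoly.aeval, zero_mul] at this
  simpa [sub_eq_zero] using this

theorem totient_le (T : V →ₗ[ℚ] V) {p k : ℕ} (hp : p.Prime)
    (h1 : T ^ p ^ (k + 1) = 1) (h2 : T ^ p ^ k ≠ 1) : p ^ k * (p - 1) ≤ finrank ℚ V := by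
  have h := natDegree_le_of_dvd (cyclotomic_dvd_charpoly T hp h1 h2) T.charpoly_monic.ne_zero
  rwa [natDegree_cyclotomic, Nat.totient_prime_pow_succ hp, LinearMap.charpoly_natDegree] at h

theorem trace_eq_zero (hV : finrank ℚ V = 23) (T : V →ₗ[ℚ] V) (h1 : T ^ 23 = 1) (h2 : T ≠ 1)
    {x : V} (hx0 : x ≠ 0) (hx : T x = x) : LinearMap.trace ℚ V T = 0 := by
  classical
  haveI : Fact (Nat.Prime 23) := ⟨by norm_num⟩
  have hc : cyclotomic 23 ℚ ∣ T.charpoly := by
    have := cyclotomic_dvd_charpoly T (p := 23) (k := 0) (by norm_num) (by simpa using h1)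
      (by simpa using h2)
    simpa using this
  have hr : (X - C 1 : ℚ[X]) ∣ T.charpoly := by
    rw [dvd_iff_isRoot, ← Module.End.hasEigenvalue_iff_isRoot_charpoly]
    exact Module.End.hasEigenvalue_of_hasEigenvector
      ⟨Module.End.mem_eigenspace_iff.2 (by simpa using hx), hx0⟩
  have hcop : IsCoprime (cyclotomic 23 ℚ) (X - C 1) := by
    refine ((irreducible_X_sub_C (1 : ℚ)).coprime_iff_not_dvd.2 ?_).symm
    rw [dvd_iff_isRoot, IsRoot, eval_one_cyclotomic_prime]
    norm_num
  have hd := hcop.mul_dvd hc hr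
  rw [C_1, cyclotomic_prime_mul_X_sub_one] at hd
  have hm : (X ^ 23 - 1 : ℚ[X]).Monic := by
    simpa using monic_X_pow_sub_C (1 : ℚ) (n := 23) (by norm_num)
  have hdeg : (X ^ 23 - 1 : ℚ[X]).natDegree = 23 := by
    simpa using natDegree_X_pow_sub_C (R := ℚ) (n := 23) (r := 1)
  have he : T.charpoly = X ^ 23 - 1 :=
    eq_of_monic_of_dvd_of_natDegree_le hm T.charpoly_monic hd
      (by rw [hdeg, LinearMap.charpoly_natDegree, hV])
  let b := Module.finBasisOfFinrankEq ℚ V hV
  rw [LinearMap.trace_eq_matrix_trace ℚ b, Matrix.trace_eq_neg_charpoly_coeff,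
    LinearMap.charpoly_toMatrix, he]
  simp [coeff_X_pow, coeff_one]

end cyc

end H41.Ft
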