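/- Faithful irreducible rational representations of degree 23: the commutant, averaging, the
order of the group, elements of order 23. -/
import Cfsg.Agent.H41.FtLat
import Cfsg.Agent.H41.FtLin

set_option autoImplicit false

namespace H41.Ft

open Module Submodule

variable {G V : Type*} [Group G] [Fintype G] [AddCommGroup V] [Module ℚ V] [FiniteDimensional ℚ V]

/-- A faithful irreducible representation of degree 23 with an invariant positive form. -/
structure Rep23 (ρ : Representation ℚ G V) (B : LinearMap.BilinForm ℚ V) : Prop where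
  dim : finrank ℚ V = 23
  inj : ∀ h, ρ h = 1 → h = 1
  irr : ∀ W : Submodule ℚ V, (∀ h, ∀ w ∈ W, ρ h w ∈ W) → W = ⊥ ∨ W = ⊤
  pd : PD B
  inv : ∀ h x y, B (ρ h x) (ρ h y) = B x y

theorem exists_form (ρ : Representation ℚ G V) :
    ∃ B : LinearMap.BilinForm ℚ V, PD B ∧ ∀ h x y, B (ρ h x) (ρ h y) = B x y := by
  classical
  let b := Module.finBasis ℚ V
  let B0 : LinearMap.BilinForm ℚ V := Matrix.toBilin b 1
  have hB0 : ∀ x y, B0 x y = ∑ i, b.repr x i * b.repr y i := by
    intro x y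
    simp [B0, Matrix.toBilin_apply, Matrix.one_apply]
  let B : LinearMap.BilinForm ℚ V := ∑ h : G, B0.comp (ρ h) (ρ h)
  have hB : ∀ x y, B x y = ∑ h : G, B0 (ρ h x) (ρ h y) := by
    intro x y
    simp [B, LinearMap.sum_apply]
  have h0 : ∀ x, 0 ≤ B0 x x := fun x => by
    rw [hB0]; exact Finset.sum_nonneg fun i _ => mul_self_nonneg _
  refine ⟨B, ⟨fun x y => ?_, fun x hx => ?_⟩, fun h x y => ?_⟩
  · simp only [hB, hB0, mul_comm]
  · rw [hB]
    refine Finset.sum_pos' (fun h _ => h0 _) ⟨1, Finset.mem_univ _, ?_⟩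
    rw [map_one, Module.End.one_apply, hB0]
    obtain ⟨i, hi⟩ : ∃ i, b.repr x i ≠ 0 := by
      by_contra hc
      push Not at hc
      exact hx (b.repr.map_eq_zero_iff.1 (Finsupp.ext hc))
    exact Finset.sum_pos' (fun i _ => mul_self_nonneg _)
      ⟨i, Finset.mem_univ _, mul_self_pos.2 hi⟩
  · rw [hB, hB]
    refine Fintype.sum_equiv (Equiv.mulRight h) _ _ fun k => ?_
    simp [map_mul]

theorem exists_inv_lattice (ρ : Representation ℚ G V) :
    ∃ L : Submodule ℤ V, IsLattice ℚ L ∧ ∀ h, ∀ x ∈ L, ρ h x ∈ L := by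
  let b := Module.finBasis ℚ V
  let L : Submodule ℤ V := span ℤ (Set.range fun p : G × Fin (finrank ℚ V) => ρ p.1 (b p.2))
  haveI := isLattice_span b
  refine ⟨L, IsLattice.of_le_of_isLattice_of_fg ℚ (M := span ℤ (Set.range b))
    (span_mono ?_) (Submodule.fg_span (Set.finite_range _)), fun h x hx => ?_⟩
  · rintro _ ⟨i, rfl⟩
    exact ⟨(1, i), by simp⟩
  · induction hx using Submodule.span_induction with
    | mem x hx =>
      obtain ⟨p, rfl⟩ := hx
      exact subset_span ⟨(h * p.1, p.2), by simp [map_mul]⟩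
    | zero => simp
    | add x y _ _ hx hy => rw [map_add]; exact add_mem hx hy
    | smul a x _ hx => rw [map_zsmul]; exact smul_mem _ _ hx

namespace Rep23
variable {ρ : Representation ℚ G V} {B : LinearMap.BilinForm ℚ V} (H : Rep23 ρ B)
include H

theorem smul {c : ℚ} (hc : 0 < c) : Rep23 ρ (c • B) :=
  ⟨H.dim, H.inj, H.irr, H.pd.smul hc, fun h x y => by simp [H.inv]⟩

theorem inv' (h : G) (x y : V) : B (ρ h x) y = B x (ρ h⁻¹ y) := by
  rw [← H.inv h x (ρ h⁻¹ y)]
  simp

theorem no_line {x : V} (hx : ∀ h, ∃ t : ℚ, ρ h x = t • x) : x = 0 := by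
  by_contra h0
  rcases H.irr (span ℚ {x}) (fun h w hw => by
    obtain ⟨a, rfl⟩ := mem_span_singleton.1 hw
    obtain ⟨t, ht⟩ := hx h
    rw [map_smul, ht]
    exact smul_mem _ _ (smul_mem _ _ (mem_span_singleton_self x))) with h | h
  · exact h0 (span_singleton_eq_bot.1 h)
  · have := finrank_span_singleton (K := ℚ) h0
    rw [h, finrank_top, H.dim] at this
    omega

theorem nontrivial : Nontrivial V :=
  Module.nontrivial_of_finrank_pos (R := ℚ) (by rw [H.dim]; norm_num)

theorem sq_fix (h : G) : ∃ x, x ≠ 0 ∧ ρ h (ρ h x) = x :=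
  alt_fix B H.pd.symm (fun x hx => H.pd.eq_zero (hx x)) (ρ h) (H.inv h) (by rw [H.dim]; decide)

theorem exists_eigen : ∃ (h : G) (s : ℚ) (x : V), x ≠ 0 ∧ ρ h x = s • x ∧ ρ h ≠ s • 1 := by
  haveI := H.nontrivial
  obtain ⟨v, hv⟩ := exists_ne (0 : V)
  obtain ⟨h, hh⟩ : ∃ h, ∀ t : ℚ, ρ h v ≠ t • v := by
    by_contra hc
    push Not at hc
    exact hv (H.no_line hc)
  have hs : ∀ s : ℚ, ρ h ≠ s • 1 := fun s e => hh s (by rw [e]; rfl)
  obtain ⟨x, hx0, hx⟩ := H.sq_fix h
  by_cases h1 : ρ h x = x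
  · exact ⟨h, 1, x, hx0, by simpa using h1, hs 1⟩
  · refine ⟨h, -1, ρ h x - x, sub_ne_zero.2 h1, ?_, hs _⟩
    rw [map_sub, hx]; simp

/-- The commutant consists of scalars. -/
theorem scalar (F : V →ₗ[ℚ] V) (hF : ∀ h x, F (ρ h x) = ρ h (F x)) : ∃ c : ℚ, F = c • 1 := by
  haveI := H.nontrivial
  let D : Subalgebra ℚ (Module.End ℚ V) := Subalgebra.centralizer ℚ (Set.range ρ)
  have hD : ∀ f : Module.End ℚ V, f ∈ D ↔ ∀ h x, f (ρ h x) = ρ h (f x) := by
    intro f
    rw [Subalgebra.mem_centralizer_iff]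
    constructor
    · intro hf h x
      exact (LinearMap.congr_fun (hf _ ⟨h, rfl⟩) x).symm
    · rintro hf _ ⟨h, rfl⟩
      exact LinearMap.ext fun x => (hf h x).symm
  haveI : Nontrivial D := ⟨0, 1, fun h => zero_ne_one (congrArg Subtype.val h)⟩
  have hU : ∀ f : D, IsUnit f ∨ f = 0 := by
    intro f
    by_cases hf : f = 0
    · exact Or.inr hf
    left
    have hk : LinearMap.ker f.1 = ⊥ := by
      refine (H.irr _ fun h w hw => ?_).resolve_right fun e => hf (Subtype.ext ?_)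
      · rw [LinearMap.mem_ker] at hw ⊢
        rw [(hD _).1 f.2, hw, map_zero]
      · exact LinearMap.ker_eq_top.1 e
    have hinj := LinearMap.ker_eq_bot.1 hk
    let e : V ≃ₗ[ℚ] V := LinearEquiv.ofInjectiveEndo f.1 hinj
    have he : ∀ x, e x = f.1 x := fun x => rfl
    refine ⟨⟨f, ⟨e.symm.toLinearMap, (hD _).2 fun h x => ?_⟩, Subtype.ext ?_, Subtype.ext ?_⟩, rfl⟩
    · apply e.injective
      simp only [LinearEquiv.coe_coe, LinearEquiv.apply_symm_apply]
      rw [he, (hD _).1 f.2, ← he, LinearEquiv.apply_symm_apply]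
    · exact LinearMap.ext fun x => e.apply_symm_apply x
    · exact LinearMap.ext fun x => e.symm_apply_apply x
  letI : DivisionRing D := DivisionRing.ofIsUnitOrEqZero hU
  obtain ⟨h, s, x, hx0, hx, hne⟩ := H.exists_eigen
  let E : Submodule D V :=
    { carrier := {y | ρ h y = s • y}
      add_mem' := fun {a b} ha hb => by
        simp only [Set.mem_setOf_eq] at ha hb ⊢
        rw [map_add, ha, hb, smul_add]
      zero_mem' := by simp
      smul_mem' := fun f y hy => by
        simp only [Set.mem_setOf_eq] at hy ⊢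
        show ρ h (f.1 y) = s • f.1 y
        rw [← (hD _).1 f.2, hy, map_smul] }
  haveI : Module.Finite D V := Module.Finite.of_restrictScalars_finite ℚ D V
  have h1 := Module.finrank_mul_finrank ℚ D V
  rw [H.dim] at h1
  have hE0 : E ≠ ⊥ := fun e => hx0 ((Submodule.mem_bot D).1 (e ▸ (show x ∈ E from hx)))
  have hE1 : E ≠ ⊤ := fun e => hne (LinearMap.ext fun y => (show y ∈ E from e ▸ mem_top))
  have h2 : 0 < finrank D E := Nat.pos_of_ne_zero fun e => hE0 (Submodule.finrank_eq_zero.1 e)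
  have h3 : finrank D E < finrank D V := Submodule.finrank_lt hE1
  have h4 : finrank ℚ D = 1 := by
    have hp : Nat.Prime (finrank ℚ D * finrank D V) := by rw [h1]; norm_num
    rcases Nat.prime_mul_iff.1 hp with ⟨-, h⟩ | ⟨-, h⟩
    · omega
    · exact h
  obtain ⟨c, hc⟩ := (finrank_eq_one_iff_of_nonzero' (1 : D) one_ne_zero).1 h4 ⟨F, (hD F).2 hF⟩
  exact ⟨c, (congrArg Subtype.val hc).symm⟩

/-- The averaging identity. -/
theorem avg (φ : V →ₗ[ℚ] ℚ) (w x : V) :
    ∑ h : G, φ (ρ h⁻¹ x) • ρ h w = (Fintype.card G * φ w / 23) • x := by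
  let F : V →ₗ[ℚ] V := ∑ h : G, (φ ∘ₗ ρ h⁻¹).smulRight (ρ h w)
  have hF : ∀ y, F y = ∑ h : G, φ (ρ h⁻¹ y) • ρ h w := fun y => by
    simp [F, LinearMap.sum_apply]
  obtain ⟨c, hc⟩ := H.scalar F fun k y => by
    rw [hF, hF, map_sum]
    refine Fintype.sum_equiv (Equiv.mulLeft k⁻¹) _ _ fun h => ?_
    simp [map_mul]
  have ht : LinearMap.trace ℚ V F = Fintype.card G * φ w := by
    simp [F, map_sum, LinearMap.trace_smulRight]
  rw [hc, map_smul, LinearMap.trace_one, H.dim] at ht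
  rw [← hF, hc, ← ht]
  simp

theorem avg_sq (w : V) : ∑ h : G, B (ρ h w) w ^ 2 = Fintype.card G * B w w ^ 2 / 23 := by
  have := congrArg (fun y => B y w) (H.avg (B w) w w)
  simp only [map_sum, map_smul, LinearMap.sum_apply, LinearMap.smul_apply, smul_eq_mul] at this
  rw [show (Fintype.card G * B w w ^ 2 / 23 : ℚ) = Fintype.card G * B w w / 23 * B w w by ring,
    ← this]
  refine Finset.sum_congr rfl fun h _ => ?_
  rw [← H.inv', sq]

theorem eq_of_sq {h : G} {w : V} (e : B (ρ h w) w ^ 2 = B w w ^ 2) : ρ h w = w ∨ ρ h w = -w := by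
  rcases sq_eq_sq_iff_eq_or_eq_neg.1 e with e | e
  · left
    refine sub_eq_zero.1 (H.pd.eq_zero ?_)
    simp only [map_sub, LinearMap.sub_apply, H.inv, H.pd.symm w (ρ h w), e]
    ring
  · right
    refine add_eq_zero_iff_eq_neg.1 (H.pd.eq_zero ?_)
    simp only [map_add, LinearMap.add_apply, H.inv, H.pd.symm w (ρ h w), e]
    ring

/-- If the conjugates of a line are equiangular the index of its stabiliser is determined. -/
theorem index_eq {w : V} (hw : w ≠ 0) (a : ℚ)
    (ha : ∀ h, B (ρ h w) w ^ 2 = B w w ^ 2 ∨ B (ρ h w) w ^ 2 = a * B w w ^ 2) (ha1 : a ≠ 1) :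
    ∃ K : Subgroup G, 23 * (1 + ((K.index : ℚ) - 1) * a) = K.index := by
  classical
  let K : Subgroup G :=
    { carrier := {h | ρ h w = w ∨ ρ h w = -w}
      mul_mem' := by
        rintro x y (hx | hx) (hy | hy) <;> simp [map_mul, hx, hy]
      one_mem' := by simp
      inv_mem' := by
        rintro x (hx | hx)
        · left
          conv_lhs => rw [← hx]
          simp
        · right
          have : ρ x⁻¹ (ρ x w) = w := by simp
          rw [hx, map_neg] at this
          rw [← neg_eq_iff_eq_neg, this] }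
  refine ⟨K, ?_⟩
  have hK : ∀ h, h ∈ K ↔ B (ρ h w) w ^ 2 = B w w ^ 2 := fun h =>
    ⟨by rintro (e | e) <;> simp [e], H.eq_of_sq⟩
  have hp := H.pd.pos w hw
  have h1 := H.avg_sq w
  have h2 : ∑ h : G, B (ρ h w) w ^ 2 =
      ∑ h : G, (a * B w w ^ 2 + if h ∈ K then (1 - a) * B w w ^ 2 else 0) := by
    refine Finset.sum_congr rfl fun h _ => ?_
    split_ifs with hh
    · rw [(hK h).1 hh]; ring
    · rw [(ha h).resolve_left (mt (hK h).2 hh), add_zero]
  rw [h2, Finset.sum_add_distrib, ← Finset.sum_filter, Finset.sum_const, Finset.sum_const,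
    Finset.card_univ, ← Fintype.card_subtype, nsmul_eq_mul, nsmul_eq_mul] at h1
  have h3 : (Fintype.card G : ℚ) = K.index * Fintype.card K := by
    rw [← Nat.card_eq_fintype_card, ← Nat.card_eq_fintype_card, ← K.index_mul_card]
    push_cast; rfl
  have h4 : (0 : ℚ) < Fintype.card K := by exact_mod_cast Fintype.card_pos
  have h5 : (Fintype.card {x // x ∈ K} : ℚ) = Fintype.card K := by congr
  rw [h3] at h1
  have h6 : (0 : ℚ) < Fintype.card K * B w w ^ 2 := by positivity
  refine mul_right_cancel₀ h6.ne' ?_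
  linear_combination 23 * h1

theorem not_orth (hidx : ∀ K : Subgroup G, K.index ≠ 23 ∧ K.index ≠ 24) {w : V} (hw : w ≠ 0)
    (ha : ∀ h, B (ρ h w) w ^ 2 = B w w ^ 2 ∨ B (ρ h w) w = 0) : False := by
  obtain ⟨K, hK⟩ := H.index_eq hw 0 (fun h => (ha h).imp_right fun e => by simp [e]) (by norm_num)
  exact (hidx K).1 (by exact_mod_cast (by linarith : (K.index : ℚ) = 23))

theorem not_simplex (hidx : ∀ K : Subgroup G, K.index ≠ 23 ∧ K.index ≠ 24) {w : V} (hw : w ≠ 0)
    (ha : ∀ h, B (ρ h w) w ^ 2 = B w w ^ 2 ∨ 529 * B (ρ h w) w ^ 2 = B w w ^ 2) : False := by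
  obtain ⟨K, hK⟩ := H.index_eq hw (1 / 529)
    (fun h => (ha h).imp_right fun e => by linarith) (by norm_num)
  exact (hidx K).2 (by exact_mod_cast (by linarith : (K.index : ℚ) = 24))

theorem dvd_card : 23 ∣ Fintype.card G := by
  obtain ⟨L, _, hL⟩ := exists_inv_lattice ρ
  obtain ⟨b, rfl⟩ := exists_basis L H.dim
  have hb : b 0 ∈ span ℤ (Set.range b) := subset_span ⟨0, rfl⟩
  have h1 := H.avg (b.coord 0) (b 0) (b 0)
  have h2 : ∑ h : G, b.coord 0 (ρ h⁻¹ (b 0)) • ρ h (b 0) ∈ span ℤ (Set.range b) := by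
    refine sum_mem fun h _ => ?_
    obtain ⟨n, hn⟩ := (Basis.mem_span_iff_repr_mem ℤ b _).1 (hL h⁻¹ _ hb) 0
    rw [Basis.coord_apply, ← hn]
    simpa [Int.cast_smul_eq_zsmul] using smul_mem _ n (hL h _ hb)
  rw [h1] at h2
  obtain ⟨n, hn⟩ := (Basis.mem_span_iff_repr_mem ℤ b _).1 h2 0
  simp at hn
  have : (Fintype.card G : ℤ) = 23 * n := by
    exact_mod_cast (by rw [hn]; ring : (Fintype.card G : ℚ) = 23 * n)
  exact_mod_cast (Dvd.intro _ this.symm : (23 : ℤ) ∣ Fintype.card G)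

theorem prime_le {p : ℕ} (hp : p.Prime) (hd : p ∣ Fintype.card G) : p ≤ 23 := by
  haveI := Fact.mk hp
  obtain ⟨g, hg⟩ := exists_prime_orderOf_dvd_card p hd
  have h := totient_le (ρ g) (k := 0) hp
    (by rw [zero_add, pow_one, ← map_pow, ← hg, pow_orderOf_eq_one, map_one])
    (by
      rw [pow_zero, pow_one]
      intro e
      rw [H.inj g e, orderOf_one] at hg
      exact hp.one_lt.ne hg)
  rw [H.dim, pow_zero, one_mul] at h
  by_contra hc
  have : p = 24 := by omega
  subst this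
  norm_num at hp

theorem trace_23 {g : G} (h1 : g ^ 23 = 1) (h2 : g ≠ 1) : LinearMap.trace ℚ V (ρ g) = 0 := by
  have e : ρ g ^ 23 = 1 := by rw [← map_pow, h1, map_one]
  obtain ⟨x, hx0, hx⟩ := H.sq_fix g
  exact trace_eq_zero H.dim _ e (fun h => h2 (H.inj g h)) hx0 (fix_of_sq_fix _ e hx)

theorem card_mul_finrank (P : Subgroup G) (hP : ∀ g ∈ P, g ^ 23 = 1) :
    Nat.card P * finrank ℚ (Representation.invariants (ρ.comp P.subtype)) = 23 := by
  classical
  have h0 : (Nat.card P : ℚ) ≠ 0 := by exact_mod_cast Nat.card_pos.ne'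
  letI : Invertible (Nat.card P : ℚ) := invertibleOfNonzero h0
  have h := Representation.card_inv_mul_sum_char_eq_finrank (ρ.comp P.subtype)
  rw [Finset.sum_eq_single (1 : P)] at h
  · rw [Representation.char_one, H.dim] at h
    have : (Nat.card P : ℚ) * finrank ℚ (Representation.invariants (ρ.comp P.subtype)) = 23 := by
      rw [← h]; field_simp; norm_num
    exact_mod_cast this
  · intro g _ hg
    exact H.trace_23 (hP g g.2) fun e => hg (Subtype.ext e)
  · simp

theorem not_sq_dvd : ¬ 23 ^ 2 ∣ Fintype.card G := by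
  intro hd
  haveI : Fact (Nat.Prime 23) := ⟨by norm_num⟩
  obtain ⟨P, hP⟩ := Sylow.exists_subgroup_card_pow_prime 23 (G := G) (n := 2)
    (by rwa [Nat.card_eq_fintype_card])
  have h := H.card_mul_finrank P fun g hg => by
    by_contra hc
    have e : g ^ 23 ^ 2 = 1 := by
      rw [← hP]
      exact congrArg Subtype.val (pow_card_eq_one' (x := (⟨g, hg⟩ : P)))
    have h := totient_le (ρ g) (p := 23) (k := 1) (by norm_num)
      (by rw [← map_pow, e, map_one]) (by rw [← map_pow, pow_one]; exact fun e => hc (H.inj _ e))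
    rw [H.dim] at h
    omega
  rw [hP] at h
  omega

theorem exists_23 : ∃ g : G, g ^ 23 = 1 ∧ ∃ u : V, u ≠ 0 ∧ ∀ x, ρ g x = x ↔ ∃ t : ℚ, x = t • u := by
  haveI : Fact (Nat.Prime 23) := ⟨by norm_num⟩
  obtain ⟨g, hg⟩ := exists_prime_orderOf_dvd_card 23 H.dvd_card
  have hg1 : g ^ 23 = 1 := by rw [← hg, pow_orderOf_eq_one]
  have h := H.card_mul_finrank (Subgroup.zpowers g) (by
    rintro _ ⟨n, rfl⟩
    simp only
    rw [← zpow_natCast, ← zpow_mul, mul_comm, zpow_mul, zpow_natCast, hg1, one_zpow])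
  rw [Nat.card_zpowers, hg] at h
  have h1 : finrank ℚ (Representation.invariants (ρ.comp (Subgroup.zpowers g).subtype)) = 1 := by
    omega
  obtain ⟨u, hu0, hu⟩ := finrank_eq_one_iff'.1 h1
  refine ⟨g, hg1, u, fun e => hu0 (Subtype.ext e), fun x => ⟨fun hx => ?_, ?_⟩⟩
  · have hx' : x ∈ Representation.invariants (ρ.comp (Subgroup.zpowers g).subtype) := by
      rintro ⟨k, hk⟩
      show ρ k x = x
      obtain ⟨n, rfl⟩ := (mem_powers_iff_mem_zpowers.2 hk)
      simp only
      clear hk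
      induction n with
      | zero => simp
      | succ n ih => rw [pow_succ, map_mul, Module.End.mul_apply, hx, ih]
    obtain ⟨c, hc⟩ := hu ⟨x, hx'⟩
    exact ⟨c, (congrArg Subtype.val hc).symm⟩
  · rintro ⟨t, rfl⟩
    rw [map_smul]
    exact congrArg _ (u.2 ⟨g, Subgroup.mem_zpowers g⟩)

end Rep23

end H41.Ft
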