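/- Invariant integral lattices of minimal discriminant: an element of order 23 acts trivially on
the discriminant group. -/
import Cfsg.Agent.H41.FtRep

set_option autoImplicit false

namespace H41.Ft

open Module Submodule

theorem triv_group {q : ℕ} (hqp : q.Prime) (hq23 : Nat.Coprime 23 q)
    (hq : ∀ j, 0 < j → j ≤ 10 → ¬ q ^ j ≡ 1 [MOD 23])
    {A : Type*} [AddCommGroup A] [Finite A] (hc : Nat.card A ^ 2 ≤ q ^ 23) (hqA : ∀ x : A, q • x = 0)
    (β : A →+ A →+ ZMod q) (hs : ∀ x y, β x y = β y x) (hr : ∀ x, (∀ y, β x y = 0) → x = 0)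
    (T : A →+ A) (hT : ∀ x y, β (T x) (T y) = β x y) (h23 : ∀ x, T^[23] x = x) (x : A) :
    T x = x := by
  haveI := Fact.mk hqp
  haveI : NeZero q := ⟨hqp.ne_zero⟩
  letI : Module (ZMod q) A := AddCommGroup.zmodModule (n := q) hqA
  have hr11 : finrank (ZMod q) A ≤ 11 := by
    rw [Module.natCard_eq_pow_finrank (K := ZMod q), Nat.card_zmod, ← pow_mul] at hc
    have := (Nat.pow_le_pow_iff_right hqp.one_lt).1 hc
    omega
  refine triv_of_small hq23 hq hr11
    (LinearMap.mk₂ (ZMod q) (fun a b => β a b) (fun a a' b => by simp)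
      (fun c a b => ZMod.map_smul (β.flip b) c a) (fun a b b' => by simp)
      (fun c a b => ZMod.map_smul (β a) c b)) hs hr (T.toZModLinearMap q) hT ?_ x
  refine LinearMap.ext fun a => ?_
  rw [Module.End.pow_apply]
  exact h23 a

theorem triv_quot {q : ℕ} (hqp : q.Prime) (hq23 : Nat.Coprime 23 q)
    (hq : ∀ j, 0 < j → j ≤ 10 → ¬ q ^ j ≡ 1 [MOD 23])
    {M : Type*} [AddCommGroup M] (N : AddSubgroup M) (hN : N.index ≠ 0)
    (hc : N.index ^ 2 ≤ q ^ 23) (hqN : ∀ x, q • x ∈ N) (β : M →+ M →+ ZMod q)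
    (hs : ∀ x y, β x y = β y x) (hr : ∀ x, x ∈ N ↔ ∀ y, β x y = 0) (T : M →+ M)
    (hT : ∀ x y, β (T x) (T y) = β x y) (h23 : ∀ x, T^[23] x = x) (x : M) : T x - x ∈ N := by
  haveI := Fact.mk hqp
  haveI : NeZero q := ⟨hqp.ne_zero⟩
  have hTN : N ≤ N.comap T := fun y hy => (hr _).2 fun z => by
    rw [← h23 z, Function.iterate_succ_apply', hT]
    exact (hr y).1 hy _
  haveI : Finite (M ⧸ N) := Nat.finite_of_card_ne_zero hN
  let β1 : M ⧸ N →+ M →+ ZMod q := QuotientAddGroup.lift N β fun y hy => by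
    ext z; exact (hr y).1 hy z
  let β2 : M ⧸ N →+ (M ⧸ N) →+ ZMod q := QuotientAddGroup.lift N β1.flip fun y hy => by
    ext z
    show β z y = 0
    rw [hs]; exact (hr y).1 hy z
  have hβ2 : ∀ y z : M, β2 (y : M ⧸ N) (z : M ⧸ N) = β z y := fun y z => rfl
  let T' : (M ⧸ N) →+ (M ⧸ N) := QuotientAddGroup.map N N T hTN
  have hT' : ∀ y : M, T' (y : M ⧸ N) = (T y : M ⧸ N) := fun y => rfl
  have key := triv_group hqp hq23 hq (A := M ⧸ N) hc
    (fun a => by
      induction a using QuotientAddGroup.induction_on with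
      | H a => rw [← QuotientAddGroup.mk_nsmul, QuotientAddGroup.eq_zero_iff]; exact hqN a) β2
    (fun a b => by
      induction a using QuotientAddGroup.induction_on
      induction b using QuotientAddGroup.induction_on
      rw [hβ2, hβ2, hs])
    (fun a ha => by
      induction a using QuotientAddGroup.induction_on with
      | H a =>
        rw [QuotientAddGroup.eq_zero_iff, hr]
        intro y
        rw [hs, ← hβ2]
        exact ha y)
    T'
    (fun a b => by
      induction a using QuotientAddGroup.induction_on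
      induction b using QuotientAddGroup.induction_on
      rw [hT', hT', hβ2, hβ2, hT])
    (fun a => by
      induction a using QuotientAddGroup.induction_on with
      | H a =>
        have : ∀ n : ℕ, T'^[n] (a : M ⧸ N) = (T^[n] a : M) := by
          intro n
          induction n with
          | zero => rfl
          | succ n ih => rw [Function.iterate_succ_apply', ih, hT', Function.iterate_succ_apply']
        rw [this, h23])
    (x : M ⧸ N)
  rw [hT'] at key
  exact QuotientAddGroup.eq_iff_sub_mem.1 key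

theorem small_primes {q : ℕ} (hq : q.Prime) (h : q < 23) :
    Nat.Coprime 23 q ∧ ∀ j, 0 < j → j ≤ 10 → ¬ q ^ j ≡ 1 [MOD 23] := by
  have h2 := hq.two_le
  have h22 : q ≠ 22 := by rintro rfl; norm_num at hq
  refine ⟨?_, fun j h0 h1 => ?_⟩
  · interval_cases q <;> first | exact absurd rfl h22 | norm_num
  · interval_cases q <;> first | exact absurd rfl h22 | (interval_cases j <;> decide)

variable {G V : Type*} [Group G] [Fintype G] [AddCommGroup V] [Module ℚ V] [FiniteDimensional ℚ V]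

/-- An invariant integral lattice. -/
structure Good (ρ : Representation ℚ G V) (B : LinearMap.BilinForm ℚ V) (L : Submodule ℤ V) :
    Prop where
  rep : Rep23 ρ B
  lat : IsLattice ℚ L
  inv : ∀ h, ∀ x ∈ L, ρ h x ∈ L
  int : L ≤ dual B L

/-- An invariant integral lattice of minimal discriminant. -/
structure MinL (ρ : Representation ℚ G V) (B : LinearMap.BilinForm ℚ V) (L : Submodule ℤ V) :
    Prop extends Good ρ B L where
  min : ∀ B' L', Good ρ B' L' → disc B L ≤ disc B' L'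

variable {ρ : Representation ℚ G V} {B : LinearMap.BilinForm ℚ V} {L : Submodule ℤ V}

theorem Rep23.exists_min (H : Rep23 ρ B) : ∃ B' L, MinL ρ B' L := by
  classical
  obtain ⟨L, _, hL⟩ := exists_inv_lattice ρ
  haveI := isLattice_dual H.pd L
  have hm : idx (L ⊓ dual B L) L ≠ 0 := idx_ne_zero inf_le_left
  have h0 : Good ρ ((idx (L ⊓ dual B L) L : ℚ) • B) L :=
    ⟨H.smul (by exact_mod_cast Nat.pos_of_ne_zero hm), ‹_›, hL, fun x hx => mem_dual.2 fun y hy => by
      obtain ⟨n, hn⟩ := mem_dual.1 (idx_smul_mem (L := L ⊓ dual B L) hx).2 y hy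
      refine ⟨n, ?_⟩
      rw [← hn, map_zsmul]
      simp⟩
  have hex : ∃ n, ∃ B' L', Good ρ B' L' ∧ disc B' L' = n := ⟨_, _, _, h0, rfl⟩
  obtain ⟨B', L', h1, h2⟩ := Nat.find_spec hex
  exact ⟨B', L', h1, fun B'' L'' h => h2 ▸ Nat.find_min' hex ⟨B'', L'', h, rfl⟩⟩

theorem Good.dual_inv (H : Good ρ B L) (h : G) {x : V} (hx : x ∈ dual B L) : ρ h x ∈ dual B L :=
  mem_dual.2 fun y hy => by
    rw [H.rep.inv']
    exact mem_dual.1 hx _ (H.inv _ _ hy)

/-- The vectors of the dual lattice that `n` multiplies into the lattice. -/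
def tor (B : LinearMap.BilinForm ℚ V) (L : Submodule ℤ V) (n : ℤ) : Submodule ℤ V :=
  dual B L ⊓ L.comap (n • LinearMap.id)

theorem mem_tor {n : ℤ} {x : V} : x ∈ tor B L n ↔ x ∈ dual B L ∧ n • x ∈ L := Iff.rfl

theorem Good.le_tor (H : Good ρ B L) (n : ℤ) : L ≤ tor B L n :=
  fun _ hx => ⟨H.int hx, smul_mem _ _ hx⟩

theorem Good.tor_inv (H : Good ρ B L) {n : ℤ} (h : G) {x : V} (hx : x ∈ tor B L n) :
    ρ h x ∈ tor B L n :=
  ⟨H.dual_inv h hx.1, by
    have := H.inv h _ (mem_tor.1 hx).2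
    rwa [map_zsmul] at this⟩

theorem Good.tor_lat (H : Good ρ B L) (n : ℤ) : IsLattice ℚ (tor B L n) :=
  haveI := H.lat
  haveI := isLattice_dual H.rep.pd L
  isLattice_between (H.le_tor n) inf_le_left

theorem Good.disc_smul (H : Good ρ B L) {x : V} (hx : x ∈ dual B L) : (disc B L : ℤ) • x ∈ L :=
  idx_smul_mem hx

theorem Good.disc_ne (H : Good ρ B L) : disc B L ≠ 0 :=
  haveI := H.lat
  disc_ne_zero H.rep.pd H.int

namespace MinL
variable (H : MinL ρ B L)
include H

theorem maximal {L' : Submodule ℤ V} (h : L ≤ L') (H' : Good ρ B L') : L' ≤ L := by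
  haveI := H.lat
  haveI := H'.lat
  have h1 := disc_change H.rep.pd h H.int one_pos (by simpa using H'.int)
  rw [one_smul, one_pow, one_mul] at h1
  have h2 : disc B L' * idx L L' ^ 2 = disc B L := by exact_mod_cast h1
  have h3 := H.min B L' H'
  have h4 := Nat.pos_of_ne_zero H'.disc_ne
  have h5 := Nat.pos_of_ne_zero (idx_ne_zero h)
  refine idx_eq_one.1 ?_
  by_contra h6
  have h7 : 2 ^ 2 ≤ idx L L' ^ 2 := Nat.pow_le_pow_left (by omega) 2
  have := Nat.mul_le_mul_left (disc B L') h7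
  omega

theorem tor_sq {n : ℤ} {x : V} (hx : x ∈ dual B L) (h : (n * n) • x ∈ L) : n • x ∈ L := by
  haveI := H.lat
  haveI := isLattice_dual H.rep.pd L
  let L' : Submodule ℤ V := L ⊔ (tor B L (n * n)).map (n • LinearMap.id)
  have hL' : ∀ y, y ∈ L' → ∃ a ∈ L, ∃ b ∈ tor B L (n * n), y = a + n • b := by
    intro y hy
    obtain ⟨a, ha, _, ⟨b, hb, rfl⟩, rfl⟩ := mem_sup.1 hy
    exact ⟨a, ha, b, hb, rfl⟩
  have hL'' : ∀ a ∈ L, ∀ b ∈ tor B L (n * n), a + n • b ∈ L' := fun a ha b hb =>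
    add_mem (mem_sup_left ha) (mem_sup_right ⟨b, hb, rfl⟩)
  have hle : L' ≤ dual B L := by
    intro y hy
    obtain ⟨a, ha, b, hb, rfl⟩ := hL' y hy
    exact add_mem (H.int ha) (smul_mem _ _ hb.1)
  have := H.maximal (L' := L') le_sup_left ⟨H.rep, isLattice_between le_sup_left hle,
    fun h y hy => by
      obtain ⟨a, ha, b, hb, rfl⟩ := hL' y hy
      rw [map_add, map_zsmul]
      exact hL'' _ (H.inv _ _ ha) _ (H.tor_inv _ hb),
    fun y hy => mem_dual.2 fun z hz => by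
      obtain ⟨a, ha, b, hb, rfl⟩ := hL' z hz
      obtain ⟨n1, h1⟩ := mem_dual.1 (hle hy) a ha
      obtain ⟨a', ha', b', hb', rfl⟩ := hL' y hy
      obtain ⟨n2, h2⟩ := mem_dual.1 hb.1 a' ha'
      obtain ⟨n3, h3⟩ := mem_dual.1 hb.1 _ (mem_tor.1 hb').2
      refine ⟨n1 + n * n2 + n3, ?_⟩
      rw [H.rep.pd.symm] at h2 h3
      rw [map_add, h1]
      simp only [map_add, map_zsmul, LinearMap.add_apply, LinearMap.smul_apply, zsmul_eq_mul] at h3 ⊢
      push_cast at h3 ⊢
      rw [h2, ← h3]; ring⟩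
  simpa using this (hL'' 0 (zero_mem _) x ⟨hx, h⟩)

theorem tor_pow {n : ℤ} {x : V} (hx : x ∈ dual B L) (a : ℕ) (h : (n ^ a) • x ∈ L) : n • x ∈ L := by
  induction a using Nat.strong_induction_on with
  | h a ih =>
    match a, h, ih with
    | 0, h, _ => exact smul_mem _ _ (by simpa using h)
    | 1, h, _ => simpa using h
    | a + 2, h, ih =>
      refine ih (a + 1) (by omega) ?_
      have := H.tor_sq (n := n) (smul_mem _ (n ^ a) hx) (by
        rw [smul_smul]; convert h using 2; ring)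
      rw [smul_smul] at this
      convert this using 2; ring

theorem good_tor {q : ℕ} (hq : 0 < q) : Good ρ ((q : ℚ) • B) (tor B L q) :=
  ⟨H.rep.smul (by exact_mod_cast hq), H.tor_lat _, fun h x hx => H.tor_inv h hx,
    fun x hx => mem_dual.2 fun y hy => by
      obtain ⟨n, hn⟩ := mem_dual.1 hx.1 _ (mem_tor.1 hy).2
      exact ⟨n, by rw [← hn, map_zsmul]; simp⟩⟩

theorem idx_tor {q : ℕ} (hq : 0 < q) : idx L (tor B L q) ^ 2 ≤ q ^ 23 := by
  haveI := H.lat
  haveI := H.tor_lat q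
  have h1 := disc_change H.rep.pd (H.le_tor q) H.int (c := q) (by exact_mod_cast hq)
    (H.good_tor hq).int
  rw [H.rep.dim] at h1
  have h2 : disc ((q : ℚ) • B) (tor B L q) * idx L (tor B L q) ^ 2 = q ^ 23 * disc B L := by
    exact_mod_cast h1
  have h3 := H.min _ _ (H.good_tor hq)
  have h4 := Nat.pos_of_ne_zero H.disc_ne
  refine Nat.le_of_mul_le_mul_left ?_ h4
  calc disc B L * idx L (tor B L q) ^ 2 ≤ _ := Nat.mul_le_mul_right _ h3
    _ = _ := by rw [h2, mul_comm]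

theorem tor_triv {q : ℕ} (hq : q.Prime) (hd : ¬ q ∣ Fintype.card G / 23) {x : V}
    (hx : x ∈ tor B L q) : x ∈ L := by
  haveI := H.lat
  by_contra hxL
  obtain ⟨b, hb⟩ := exists_basis L H.rep.dim
  have hmem : ∀ y, y ∈ L ↔ ∀ i, ∃ n : ℤ, b.coord i y = n := by
    intro y
    rw [hb, Basis.mem_span_iff_repr_mem]
    exact forall_congr' fun i => ⟨fun ⟨n, h⟩ => ⟨n, h.symm⟩, fun ⟨n, h⟩ => ⟨n, h.symm⟩⟩
  have hq0 : (q : ℚ) ≠ 0 := by exact_mod_cast hq.ne_zero
  obtain ⟨i, hi⟩ : ∃ i, ¬ ∃ n : ℤ, b.coord i x = n := by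
    by_contra hc
    push Not at hc
    exact hxL ((hmem x).2 hc)
  obtain ⟨m, hm⟩ := (hmem _).1 (mem_tor.1 hx).2 i
  have hqm : ¬ (q : ℤ) ∣ m := by
    rintro ⟨k, rfl⟩
    refine hi ⟨k, mul_left_cancel₀ hq0 ?_⟩
    rw [map_zsmul] at hm
    simpa using hm
  obtain ⟨c, hc⟩ := H.rep.dvd_card
  rw [hc, Nat.mul_div_cancel_left _ (by norm_num)] at hd
  have hg : Good ρ ((q : ℚ)⁻¹ • B) L := by
    refine ⟨H.rep.smul (by have := hq.pos; positivity), H.lat, H.inv,
      fun y hy => mem_dual.2 fun z hz => ?_⟩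
    have h1 := congrArg (fun v => B v z) (H.rep.avg (b.coord i) ((q : ℤ) • x) y)
    simp only [map_sum, map_smul, LinearMap.sum_apply, LinearMap.smul_apply, smul_eq_mul] at h1
    choose n1 h2 using fun h : G => (hmem _).1 (H.inv h⁻¹ y hy) i
    choose n2 h3 using fun h : G => mem_dual.1 (H.dual_inv h hx.1) z hz
    obtain ⟨n, hn⟩ := mem_dual.1 (H.int hy) z hz
    rw [map_zsmul] at hm
    simp only [h2, map_zsmul, LinearMap.smul_apply, h3, hm, hn, hc] at h1
    have h4 : (q : ℤ) * ∑ h, n1 h * n2 h = c * m * n := by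
      have : (q : ℚ) * ∑ h, (n1 h : ℚ) * n2 h = c * m * n := by
        rw [Finset.mul_sum]
        simp only [zsmul_eq_mul] at h1
        push_cast at h1 ⊢
        rw [show (c : ℚ) * m * n = 23 * c * m / 23 * n by ring, ← h1]
        exact Finset.sum_congr rfl fun h _ => by ring
      exact_mod_cast this
    have hp := Nat.prime_iff_prime_int.1 hq
    rcases hp.dvd_or_dvd (Dvd.intro _ h4) with h5 | ⟨k, rfl⟩
    · rcases hp.dvd_or_dvd h5 with h5 | h5
      · exact absurd (by exact_mod_cast h5) hd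
      · exact absurd h5 hqm
    · exact ⟨k, by simp [hn, hq0]⟩
  have h1 := disc_change H.rep.pd le_rfl H.int (c := (q : ℚ)⁻¹) (by have := hq.pos; positivity)
    hg.int
  rw [idx_eq_one.2 le_rfl, H.rep.dim] at h1
  have h2 : (disc B L : ℚ) ≤ disc ((q : ℚ)⁻¹ • B) L := by exact_mod_cast H.min _ _ hg
  have h3 : (0 : ℚ) < disc B L := by exact_mod_cast Nat.pos_of_ne_zero H.disc_ne
  have h4 : ((q : ℚ)⁻¹) ^ 23 < 1 :=
    pow_lt_one₀ (by positivity) (inv_lt_one_of_one_lt₀ (by exact_mod_cast hq.one_lt)) (by norm_num)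
  push_cast at h1
  nlinarith

theorem tor23 {x : V} (hx : x ∈ dual B L) (h : (23 : ℤ) • x ∈ L) : x ∈ L := by
  refine H.tor_triv (q := 23) (by norm_num) (fun hd => H.rep.not_sq_dvd ?_) ⟨hx, h⟩
  obtain ⟨c, hc⟩ := H.rep.dvd_card
  rw [hc, Nat.mul_div_cancel_left _ (by norm_num)] at hd
  rw [hc, sq]
  exact Nat.mul_dvd_mul_left _ hd

theorem split_disc {q : ℕ} (hq : q.Prime) {y : V} (hy : y ∈ dual B L) :
    ∃ m : ℕ, ¬ q ∣ m ∧ (m : ℤ) • y ∈ tor B L q := by
  obtain ⟨a, m, hm, e⟩ := Nat.exists_eq_pow_mul_and_not_dvd H.disc_ne q hq.ne_one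
  refine ⟨m, hm, mem_tor.2 ⟨smul_mem _ _ hy, H.tor_pow (smul_mem _ _ hy) a ?_⟩⟩
  have := H.disc_smul hy
  rw [e] at this
  rw [smul_smul]
  exact_mod_cast this

theorem tor_nondeg {q : ℕ} (hq : q.Prime) {x : V} (hx : x ∈ tor B L q)
    (h : ∀ y ∈ tor B L q, ∃ n : ℤ, B x y = n) : x ∈ L := by
  haveI := H.lat
  rw [← dual_dual H.rep.pd L]
  refine mem_dual.2 fun y hy => ?_
  obtain ⟨m, hm, hmy⟩ := H.split_disc hq hy
  obtain ⟨n1, h1⟩ := h _ hmy
  obtain ⟨n2, h2⟩ := mem_dual.1 hy _ (mem_tor.1 hx).2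
  rw [H.rep.pd.symm] at h2
  obtain ⟨u, v, huv⟩ := Nat.isCoprime_iff_coprime.2 ((Nat.Prime.coprime_iff_not_dvd hq).2 hm)
  have huv' : (u : ℚ) * q + v * m = 1 := by exact_mod_cast huv
  simp only [map_zsmul, LinearMap.smul_apply, zsmul_eq_mul] at h1 h2
  push_cast at h1 h2
  exact ⟨u * n2 + v * n1, by push_cast; rw [← h1, ← h2]; linear_combination (-B x y) * huv'⟩

theorem tor_fix {g : G} (hg : g ^ 23 = 1) {q : ℕ} (hq : q.Prime) {x : V} (hx : x ∈ tor B L q) :
    ρ g x - x ∈ L := by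
  by_cases hd : q ∣ Fintype.card G / 23
  swap
  · have := H.tor_triv hq hd hx
    exact sub_mem (H.inv _ _ this) this
  have h23 : q ≠ 23 := by
    rintro rfl
    obtain ⟨c, hc⟩ := H.rep.dvd_card
    rw [hc, Nat.mul_div_cancel_left _ (by norm_num)] at hd
    exact H.rep.not_sq_dvd (by rw [hc, sq]; exact Nat.mul_dvd_mul_left _ hd)
  have hle := H.rep.prime_le hq (hd.trans (Nat.div_dvd_of_dvd H.rep.dvd_card))
  obtain ⟨h1, h2⟩ := small_primes hq (by omega)
  haveI := H.lat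
  haveI := H.tor_lat q
  have hq0 : (q : ℚ) ≠ 0 := by exact_mod_cast hq.ne_zero
  have hint : ∀ y z : tor B L q, ∃ n : ℤ, (q : ℚ) * B y z = n := fun y z => by
    simpa using mem_dual.1 ((H.good_tor hq.pos).int y.2) z z.2
  choose γ hγ using hint
  have hadd1 : ∀ y y' z, γ (y + y') z = γ y z + γ y' z := fun y y' z => by
    have : (γ (y + y') z : ℚ) = γ y z + γ y' z := by
      rw [← hγ, ← hγ, ← hγ]; simp [mul_add]
    exact_mod_cast this
  have hsymm : ∀ y z, γ y z = γ z y := fun y z => by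
    have : (γ y z : ℚ) = γ z y := by rw [← hγ, ← hγ, H.rep.pd.symm]
    exact_mod_cast this
  let β : tor B L q →+ tor B L q →+ ZMod q :=
    AddMonoidHom.mk' (fun y => AddMonoidHom.mk' (fun z => (γ y z : ZMod q)) fun z z' => by
      rw [hsymm, hadd1, hsymm z, hsymm z']; push_cast; rfl) fun y y' => by
      ext z
      simp [hadd1]
  have hβ : ∀ y z, β y z = (γ y z : ZMod q) := fun y z => rfl
  let T : tor B L q →+ tor B L q :=
    AddMonoidHom.mk' (fun y => ⟨ρ g y, H.tor_inv g y.2⟩) fun y y' => Subtype.ext (by simp)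
  have hT : ∀ y, (T y : V) = ρ g y := fun y => rfl
  refine triv_quot hq h1 h2 (L.toAddSubgroup.addSubgroupOf (tor B L q).toAddSubgroup)
    (idx_ne_zero (H.le_tor q)) (H.idx_tor hq.pos) (fun y => ?_) β (fun y z => by rw [hβ, hβ, hsymm])
    (fun y => ⟨fun hy z => ?_, fun hy => ?_⟩) T (fun y z => ?_) (fun y => ?_) ⟨x, hx⟩
  · have := (mem_tor.1 y.2).2
    rwa [natCast_zsmul] at this
  · obtain ⟨n, hn⟩ := mem_dual.1 z.2.1 y hy
    have : γ y z = q * n := by
      have : (γ y z : ℚ) = q * n := by rw [← hγ, H.rep.pd.symm, hn]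
      exact_mod_cast this
    rw [hβ, this]; simp
  · refine H.tor_nondeg hq y.2 fun z hz => ?_
    obtain ⟨k, hk⟩ := (ZMod.intCast_zmod_eq_zero_iff_dvd _ _).1 (hy ⟨z, hz⟩)
    refine ⟨k, mul_left_cancel₀ hq0 ?_⟩
    have := hγ y ⟨z, hz⟩
    rw [hk] at this
    exact_mod_cast this
  · have : (γ (T y) (T z) : ℚ) = γ y z := by rw [← hγ, ← hγ, hT, hT, H.rep.inv]
    rw [hβ, hβ, show γ (T y) (T z) = γ y z by exact_mod_cast this]
  · have : ∀ n : ℕ, (T^[n] y : V) = ρ (g ^ n) y := by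
      intro n
      induction n with
      | zero => simp
      | succ n ih => rw [Function.iterate_succ_apply', hT, ih, pow_succ', map_mul]; rfl
    exact Subtype.ext (by rw [this, hg]; simp)

theorem dual_fix {g : G} (hg : g ^ 23 = 1) {x : V} (hx : x ∈ dual B L) : ρ g x - x ∈ L := by
  let I : Ideal ℤ := L.comap (LinearMap.toSpanSingleton ℤ V (ρ g x - x))
  have hI : ∀ n : ℤ, n ∈ I ↔ n • (ρ g x - x) ∈ L := fun n => Iff.rfl
  by_contra hc
  have hne : I ≠ ⊤ := fun e => hc (by simpa using (hI 1).1 (e ▸ mem_top))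
  obtain ⟨P, hP, hIP⟩ := Ideal.exists_le_maximal I hne
  have hd : (disc B L : ℤ) ∈ I := (hI _).2 (H.disc_smul (sub_mem (H.dual_inv g hx) hx))
  have hP0 : P ≠ ⊥ := fun e => H.disc_ne (by
    have := hIP hd
    rw [e] at this
    exact_mod_cast (mem_bot ℤ).1 this)
  obtain ⟨p, rfl⟩ := IsPrincipalIdealRing.principal P |>.principal
  have hp : Prime p := (Ideal.span_singleton_prime (by
    rintro rfl; exact hP0 (by simp))).1 hP.isPrime
  obtain ⟨m, hm, hmx⟩ := H.split_disc (Int.prime_iff_natAbs_prime.1 hp) hx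
  have h1 := H.tor_fix hg (Int.prime_iff_natAbs_prime.1 hp) hmx
  rw [map_zsmul, ← smul_sub] at h1
  have h2 := Ideal.mem_span_singleton.1 (hIP ((hI _).2 h1))
  exact hm (by simpa using Int.natAbs_dvd_natAbs.2 h2)

end MinL

end H41.Ft
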