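/- The even sublattice and the structure of its discriminant group. -/
import Cfsg.Agent.H41.FtMin

set_option autoImplicit false

namespace H41.Ft

open Module Submodule

variable {G V : Type*} [Group G] [Fintype G] [AddCommGroup V] [Module ℚ V] [FiniteDimensional ℚ V]
variable {ρ : Representation ℚ G V} {B : LinearMap.BilinForm ℚ V} {L : Submodule ℤ V}

/-- The sum over the powers of `g`. -/
def nrm (ρ : Representation ℚ G V) (g : G) (x : V) : V := ∑ j ∈ Finset.range 23, ρ (g ^ j) x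

theorem nrm_sub {g : G} (hg : g ^ 23 = 1) (x : V) : nrm ρ g (ρ g x - x) = 0 := by
  have := Finset.sum_range_sub (fun j => ρ (g ^ j) x) 23
  simp only [hg, pow_zero, sub_self] at this
  rw [← this, nrm]
  refine Finset.sum_congr rfl fun j _ => ?_
  rw [map_sub, pow_succ, map_mul]; rfl

theorem nrm_fix {g : G} (hg : g ^ 23 = 1) (x : V) : ρ g (nrm ρ g x) = nrm ρ g x := by
  have := nrm_sub (ρ := ρ) hg x
  rw [← sub_eq_zero, ← this, nrm, nrm, map_sum, ← Finset.sum_sub_distrib]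
  refine Finset.sum_congr rfl fun j _ => ?_
  rw [map_sub, ← Module.End.mul_apply, ← Module.End.mul_apply, ← map_mul, ← map_mul, ← pow_succ,
    ← pow_succ']

theorem pow_fix {g : G} {x : V} (hx : ρ g x = x) (j : ℕ) : ρ (g ^ j) x = x := by
  induction j with
  | zero => simp
  | succ j ih => rw [pow_succ, map_mul, Module.End.mul_apply, hx, ih]

theorem pow_sub_mem {M : Submodule ℤ V} {g : G} (hM : ∀ x ∈ M, ρ g x ∈ M) {x : V}
    (hx : ρ g x - x ∈ M) (j : ℕ) : ρ (g ^ j) x - x ∈ M := by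
  induction j with
  | zero => simp
  | succ j ih =>
    have : ρ (g ^ (j + 1)) x - x = ρ g (ρ (g ^ j) x - x) + (ρ g x - x) := by
      rw [pow_succ', map_mul, map_sub, Module.End.mul_apply]; abel
    rw [this]
    exact add_mem (hM _ ih) hx

theorem nrm_sub_mem {M : Submodule ℤ V} {g : G} (hM : ∀ x ∈ M, ρ g x ∈ M) {x : V}
    (hx : ρ g x - x ∈ M) : nrm ρ g x - (23 : ℤ) • x ∈ M := by
  have : nrm ρ g x - (23 : ℤ) • x = ∑ j ∈ Finset.range 23, (ρ (g ^ j) x - x) := by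
    rw [Finset.sum_sub_distrib, Finset.sum_const, Finset.card_range, nrm, ← natCast_zsmul]; rfl
  rw [this]
  exact sum_mem fun j _ => pow_sub_mem hM hx j

theorem fix_of_pow {g : G} (hg : g ^ 23 = 1) {j : ℕ} (h0 : 0 < j) (h1 : j < 23) {x : V}
    (hx : ρ (g ^ j) x = x) : ρ g x = x := by
  have hc : Nat.Coprime j 23 :=
    (Nat.coprime_of_lt_prime h0.ne' h1 (by norm_num)).symm
  obtain ⟨m, -, hm⟩ := Nat.exists_mul_mod_eq_one_of_coprime hc (by norm_num)
  have := pow_fix hx m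
  rw [← pow_mul, ← Nat.div_add_mod (j * m) 23, hm, pow_add, pow_mul, hg, one_pow, one_mul,
    pow_one] at this
  exact this

namespace Rep23
variable (H : Rep23 ρ B)
include H

theorem B_nrm {g : G} {w : V} (hw : ρ g w = w) (x : V) : B (nrm ρ g x) w = 23 * B x w := by
  rw [nrm, map_sum, LinearMap.sum_apply, Finset.sum_congr rfl (g := fun _ => B x w)]
  · simp
  · intro j _
    conv_lhs => rw [← pow_fix hw j]
    rw [H.inv]

theorem sum_sq {g : G} (hg : g ^ 23 = 1) {w : V} (hw0 : w ≠ 0)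
    (hw : ∀ x, ρ g x = x ↔ ∃ t : ℚ, x = t • w) (x : V) :
    ∑ j ∈ Finset.range 23, B (ρ (g ^ j) x - x) (ρ (g ^ j) x - x) =
      46 * (B x x - B x w ^ 2 / B w w) := by
  obtain ⟨t, ht⟩ := (hw _).1 (nrm_fix hg x)
  have h1 := H.B_nrm ((hw w).2 ⟨1, by simp⟩) x
  have hp := H.pd.pos w hw0
  have h2 : B (nrm ρ g x) x = 23 * (B x w ^ 2 / B w w) := by
    rw [ht, map_smul, LinearMap.smul_apply, smul_eq_mul] at h1 ⊢
    rw [H.pd.symm w x]
    field_simp
    linear_combination B x w * h1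
  have h3 : ∀ j, B (ρ (g ^ j) x - x) (ρ (g ^ j) x - x) = 2 * B x x - 2 * B (ρ (g ^ j) x) x := by
    intro j
    simp only [map_sub, LinearMap.sub_apply, H.inv, H.pd.symm x (ρ (g ^ j) x)]
    ring
  simp only [h3, Finset.sum_sub_distrib, Finset.sum_const, Finset.card_range, ← Finset.mul_sum]
  rw [nrm, map_sum, LinearMap.sum_apply] at h2
  rw [h2]
  simp only [nsmul_eq_mul]
  push_cast
  ring

theorem lower {g : G} (hg : g ^ 23 = 1) {w : V} (hw0 : w ≠ 0)
    (hw : ∀ x, ρ g x = x ↔ ∃ t : ℚ, x = t • w) {x : V} (hx : ρ g x ≠ x) (m : ℚ)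
    (hm : ∀ j, ρ (g ^ j) x - x ≠ 0 → m ≤ B (ρ (g ^ j) x - x) (ρ (g ^ j) x - x)) :
    11 * m ≤ 23 * (B x x - B x w ^ 2 / B w w) := by
  have h := H.sum_sq hg hw0 hw x
  rw [Finset.sum_range_succ'] at h
  have h2 : ∑ j ∈ Finset.range 22, m ≤
      ∑ j ∈ Finset.range 22, B (ρ (g ^ (j + 1)) x - x) (ρ (g ^ (j + 1)) x - x) :=
    Finset.sum_le_sum fun j hj => hm _ fun e =>
      hx (fix_of_pow hg (Nat.succ_pos j) (by have := Finset.mem_range.1 hj; omega) (sub_eq_zero.1 e))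
  simp only [pow_zero, map_one, Module.End.one_apply, sub_self, map_zero, add_zero] at h
  rw [h] at h2
  simp at h2
  linarith

end Rep23

/-- The even sublattice. -/
def Good.ev (H : Good ρ B L) : Submodule ℤ V where
  carrier := {x | x ∈ L ∧ ∃ n : ℤ, B x x = 2 * n}
  add_mem' := by
    rintro a b ⟨ha, n, hn⟩ ⟨hb, m, hm⟩
    obtain ⟨k, hk⟩ := mem_dual.1 (H.int ha) b hb
    refine ⟨add_mem ha hb, n + m + k, ?_⟩
    simp only [map_add, LinearMap.add_apply, H.rep.pd.symm b a, hn, hm, hk]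
    push_cast; ring
  zero_mem' := ⟨zero_mem _, 0, by simp⟩
  smul_mem' := by
    rintro c a ⟨ha, n, hn⟩
    refine ⟨smul_mem _ _ ha, c * c * n, ?_⟩
    simp only [map_zsmul, LinearMap.smul_apply, hn, zsmul_eq_mul]
    push_cast; ring

theorem Good.ev_le (H : Good ρ B L) : H.ev ≤ L := fun _ h => h.1

theorem Good.two_mem (H : Good ρ B L) {x : V} (hx : x ∈ L) : (2 : ℤ) • x ∈ H.ev := by
  obtain ⟨k, hk⟩ := mem_dual.1 (H.int hx) x hx
  refine ⟨smul_mem _ _ hx, 2 * k, ?_⟩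
  simp only [map_zsmul, LinearMap.smul_apply, hk, zsmul_eq_mul]
  push_cast; ring

theorem Good.sub_mem_ev (H : Good ρ B L) (h : G) {x : V} (hx : x ∈ L) : ρ h x - x ∈ H.ev := by
  obtain ⟨k, hk⟩ := mem_dual.1 (H.int hx) x hx
  obtain ⟨m, hm⟩ := mem_dual.1 (H.int (H.inv h x hx)) x hx
  refine ⟨sub_mem (H.inv h x hx) hx, k - m, ?_⟩
  simp only [map_sub, LinearMap.sub_apply, H.rep.inv, H.rep.pd.symm x (ρ h x), hk, hm]
  push_cast; ring

theorem Good.good_ev (H : Good ρ B L) : Good ρ B H.ev :=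
  haveI := H.lat
  ⟨H.rep, isLattice_of_smul_mem H.ev_le two_ne_zero fun _ => H.two_mem,
    fun h x hx => ⟨H.inv h x hx.1, by rw [H.rep.inv]; exact hx.2⟩,
    fun x hx => mem_dual.2 fun y hy => mem_dual.1 (H.int hx.1) y hy.1⟩

theorem Good.two_dual (H : Good ρ B L) {x : V} (hx : x ∈ dual B H.ev) : (2 : ℤ) • x ∈ dual B L :=
  mem_dual.2 fun y hy => by
    have := mem_dual.1 hx _ (H.two_mem hy)
    simpa only [map_zsmul, LinearMap.smul_apply] using this

/-- An even invariant lattice on whose discriminant group `g` acts trivially. -/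
structure Pre (ρ : Representation ℚ G V) (B : LinearMap.BilinForm ℚ V) (L : Submodule ℤ V)
    (g : G) : Prop extends Good ρ B L where
  even : ∀ x ∈ L, ∃ n : ℤ, B x x = 2 * n
  g23 : g ^ 23 = 1
  p1 : ∀ x ∈ dual B L, ρ g x - x ∈ L
  p2 : ∀ x ∈ dual B L, (23 : ℤ) • x ∈ L → x ∈ L

theorem mem_of_two {M : Submodule ℤ V} {x : V} (h2 : (2 : ℤ) • x ∈ M) (h23 : (23 : ℤ) • x ∈ M) :
    x ∈ M := by
  have : x = (23 : ℤ) • x - (11 : ℤ) • (2 : ℤ) • x := by module
  rw [this]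
  exact sub_mem h23 (smul_mem _ _ h2)

theorem MinL.pre (H : MinL ρ B L) {g : G} (hg : g ^ 23 = 1) : Pre ρ B H.toGood.ev g := by
  refine ⟨H.good_ev, fun x hx => hx.2, hg, fun x hx => ?_, fun x hx h => ?_⟩
  · have h1 : ρ g x - x ∈ dual B L := mem_dual.2 fun y hy => by
      have := mem_dual.1 hx _ (H.sub_mem_ev g⁻¹ hy)
      rwa [map_sub, ← H.rep.inv', ← LinearMap.sub_apply, ← map_sub] at this
    have h2 := nrm_sub_mem (H.inv g) (H.dual_fix hg h1)
    rw [nrm_sub hg, zero_sub, neg_mem_iff] at h2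
    have h3 := H.tor23 h1 h2
    have h4 := nrm_sub_mem (H.good_ev.inv g) (H.sub_mem_ev g h3)
    rw [nrm_sub hg, zero_sub, neg_mem_iff] at h4
    exact mem_of_two (H.two_mem h3) h4
  · have h1 : x ∈ dual B L := mem_of_two (H.two_dual hx) (H.int h.1)
    exact mem_of_two (H.two_mem (H.tor23 h1 h.1)) h

/-- The structure of the discriminant group. -/
structure Core (ρ : Representation ℚ G V) (B : LinearMap.BilinForm ℚ V) (L : Submodule ℤ V)
    (g : G) (w : V) (D : ℕ) : Prop extends Pre ρ B L g where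
  fix : ∀ x, ρ g x = x ↔ ∃ t : ℚ, x = t • w
  pos : 0 < D
  ww : B w w = 23 / D
  gen : ∀ x, x ∈ dual B L ↔ ∃ n : ℤ, x - n • w ∈ L
  ord : ∀ n : ℤ, n • w ∈ L ↔ (D : ℤ) ∣ n
  cop : ¬ 23 ∣ D

theorem exists_gen (M : Submodule ℤ V) (φ : V →ₗ[ℚ] ℚ) (h : ∀ x ∈ M, ∃ n : ℤ, φ x = n) :
    ∃ w ∈ M, ∀ x ∈ M, ∃ n : ℤ, φ x = n * φ w := by
  let I : Ideal ℤ := (M.map (φ.restrictScalars ℤ)).comap (Algebra.linearMap ℤ ℚ)
  have hI : ∀ n : ℤ, n ∈ I ↔ ∃ x ∈ M, φ x = n := fun n => Iff.rfl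
  obtain ⟨a, ha⟩ := (IsPrincipalIdealRing.principal I).principal
  obtain ⟨w, hw, e⟩ := (hI a).1 (ha ▸ mem_span_singleton_self a)
  refine ⟨w, hw, fun x hx => ?_⟩
  obtain ⟨n, hn⟩ := h x hx
  have : n ∈ I := (hI n).2 ⟨x, hx, hn⟩
  rw [ha] at this
  obtain ⟨k, rfl⟩ := mem_span_singleton.1 this
  exact ⟨k, by rw [hn, e]; simp⟩

theorem Pre.two_le {g : G} (H : Pre ρ B L g) {y : V} (hy : y ∈ L) (h0 : y ≠ 0) : 2 ≤ B y y := by
  obtain ⟨n, hn⟩ := H.even y hy
  have := H.rep.pd.pos y h0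
  rw [hn] at this ⊢
  have : 0 < n := by exact_mod_cast (by linarith : (0 : ℚ) < n)
  exact_mod_cast (by omega : 2 ≤ 2 * n)

theorem Pre.core {g : G} (H : Pre ρ B L g) {u : V} (hu0 : u ≠ 0)
    (hu : ∀ x, ρ g x = x ↔ ∃ t : ℚ, x = t • u) : ∃ w D, Core ρ B L g w D := by
  haveI := H.lat
  have pd := H.rep.pd
  obtain ⟨l, hl, hlu⟩ : ∃ l ∈ L, B u l ≠ 0 := by
    by_contra hc
    push Not at hc
    have : B u = 0 := LinearMap.ext_on (IsLattice.span_eq_top (A := ℚ) (M := L)) hc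
    exact (pd.pos u hu0).ne' (by rw [this]; rfl)
  let C : Submodule ℤ V := dual B L ⊓ LinearMap.ker ((ρ g - 1).restrictScalars ℤ)
  have hC : ∀ x, x ∈ C ↔ x ∈ dual B L ∧ ρ g x = x := fun x => by
    simp [C, sub_eq_zero]
  obtain ⟨w, hw, hw'⟩ := exists_gen C (B.flip l) fun x hx => mem_dual.1 hx.1 l hl
  obtain ⟨hwd, hwg⟩ := (hC w).1 hw
  have hgen : ∀ x ∈ dual B L, ρ g x = x → ∃ n : ℤ, x = n • w := by
    intro x hx hx'
    obtain ⟨n, hn⟩ := hw' x ((hC x).2 ⟨hx, hx'⟩)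
    obtain ⟨t, ht⟩ := (hu (x - n • w)).1 (by rw [map_sub, map_zsmul, hx', hwg])
    have h1 : B (x - n • w) l = 0 := by
      have hn' : B x l = n * B w l := hn
      simp [hn']
    rw [ht, map_smul, LinearMap.smul_apply, smul_eq_mul, mul_eq_zero] at h1
    rw [h1.resolve_right hlu, zero_smul] at ht
    exact ⟨n, sub_eq_zero.1 ht⟩
  have hnL : ∀ x ∈ L, nrm ρ g x ∈ L := fun x hx => sum_mem fun j _ => H.inv _ _ hx
  have hw0 : w ≠ 0 := by
    rintro rfl
    obtain ⟨n, hn⟩ := hgen _ (H.int (hnL l hl)) (nrm_fix H.g23 l)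
    have := H.rep.B_nrm ((hu u).2 ⟨1, by simp⟩) l
    rw [hn, pd.symm l u] at this
    simp [hlu] at this
  have hfix : ∀ x, ρ g x = x ↔ ∃ t : ℚ, x = t • w := by
    obtain ⟨s, hs⟩ := (hu w).1 hwg
    have hs0 : s ≠ 0 := by rintro rfl; exact hw0 (by simpa using hs)
    refine fun x => ⟨fun hx => ?_, ?_⟩
    · obtain ⟨t, rfl⟩ := (hu x).1 hx
      exact ⟨t / s, by rw [hs, smul_smul, div_mul_cancel₀ _ hs0]⟩
    · rintro ⟨t, rfl⟩
      rw [map_smul, hwg]
  have hcop : ∀ x ∈ dual B L, ∃ m : ℕ, ¬ 23 ∣ m ∧ (m : ℤ) • x ∈ L := by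
    intro x hx
    obtain ⟨a, m, hm, e⟩ := Nat.exists_eq_pow_mul_and_not_dvd H.disc_ne 23 (by norm_num)
    refine ⟨m, hm, ?_⟩
    have h1 := H.disc_smul hx
    rw [e] at h1
    clear e
    induction a with
    | zero => simpa using h1
    | succ a ih =>
      refine ih (H.p2 _ (smul_mem _ _ hx) ?_)
      rw [smul_smul]
      convert h1 using 2
      push_cast; ring
  have hgen2 : ∀ x, x ∈ dual B L ↔ ∃ n : ℤ, x - n • w ∈ L := by
    refine fun x => ⟨fun hx => ?_, fun ⟨n, hn⟩ => ?_⟩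
    · obtain ⟨m, hm, hmx⟩ := hcop x hx
      obtain ⟨a, b, hab⟩ := Nat.isCoprime_iff_coprime.2
        ((Nat.Prime.coprime_iff_not_dvd (by norm_num : Nat.Prime 23)).2 hm)
      have h1 := nrm_sub_mem (H.inv g) (H.p1 x hx)
      obtain ⟨n, hn⟩ := hgen (nrm ρ g x) (sum_mem fun j _ => H.dual_inv _ hx) (nrm_fix H.g23 x)
      rw [hn] at h1
      refine ⟨a * n, ?_⟩
      have : x - (a * n) • w = b • (m : ℤ) • x - a • (n • w - (23 : ℤ) • x) := by
        have e : x = (a * 23 + b * m) • x := by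
          rw [show a * 23 + b * m = 1 from by exact_mod_cast hab, one_smul]
        conv_lhs => rw [e]
        module
      rw [this]
      exact sub_mem (smul_mem _ _ hmx) (smul_mem _ _ h1)
    · simpa using add_mem (H.int hn) (smul_mem _ n hwd)
  let J : Ideal ℤ := L.comap (LinearMap.toSpanSingleton ℤ V w)
  obtain ⟨d, hd⟩ := (IsPrincipalIdealRing.principal J).principal
  have hord : ∀ n : ℤ, n • w ∈ L ↔ (d.natAbs : ℤ) ∣ n := fun n => by
    rw [Int.natAbs_dvd, ← Ideal.mem_span_singleton]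
    exact (SetLike.ext_iff.1 hd n)
  generalize d.natAbs = D at hord
  obtain ⟨m, hm, hmw⟩ := hcop w hwd
  have hD : ¬ 23 ∣ D := fun h => hm (h.trans (by exact_mod_cast (hord m).1 hmw))
  have hD0 : 0 < D := Nat.pos_of_ne_zero (by rintro rfl; exact hD (dvd_zero _))
  have hDq : (0 : ℚ) < D := by exact_mod_cast hD0
  obtain ⟨x1, hx1, hx1'⟩ := exists_gen L (B w) (mem_dual.1 hwd)
  have hwl : B w l ≠ 0 := by
    obtain ⟨t, ht⟩ := (hfix u).1 ((hu u).2 ⟨1, by simp⟩)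
    intro e
    exact hlu (by rw [ht]; simp [e])
  have hx0 : B w x1 ≠ 0 := by
    obtain ⟨n, hn⟩ := hx1' l hl
    intro e
    exact hwl (by rw [hn, e, mul_zero])
  obtain ⟨k, hk⟩ := hgen ((B w x1)⁻¹ • w) (mem_dual.2 fun y hy => by
    obtain ⟨n, hn⟩ := hx1' y hy
    exact ⟨n, by rw [map_smul, LinearMap.smul_apply, hn, smul_eq_mul]; field_simp⟩)
    (by rw [map_smul, hwg])
  have hk1 : (k : ℚ) * B w x1 = 1 := by
    rw [← Int.cast_smul_eq_zsmul ℚ] at hk
    rw [← smul_left_injective ℚ hw0 hk]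
    field_simp
  obtain ⟨n, hn⟩ := hgen _ (H.int (hnL _ (smul_mem _ k hx1))) (nrm_fix H.g23 _)
  obtain ⟨n', rfl⟩ := (hord n).1 (hn ▸ hnL _ (smul_mem _ k hx1))
  have h23 := H.rep.B_nrm hwg (k • x1)
  obtain ⟨e, he⟩ := mem_dual.1 hwd _ ((hord D).2 dvd_rfl)
  simp only [hn, map_zsmul, LinearMap.smul_apply, zsmul_eq_mul, pd.symm x1 w, hk1] at h23 he
  push_cast at h23 he
  have hne : n' * e = 23 := by
    exact_mod_cast (by rw [← he]; linear_combination h23 : (n' : ℚ) * e = 23)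
  have he0 : 0 < e := by
    have := mul_pos hDq (pd.pos w hw0)
    rw [he] at this
    exact_mod_cast this
  have he1 : e ≠ 1 := by
    rintro rfl
    have h2 := H.two_le ((hord D).2 dvd_rfl) (by
      rw [← Int.cast_smul_eq_zsmul ℚ]
      exact smul_ne_zero (by exact_mod_cast hD0.ne') hw0)
    simp only [map_zsmul, LinearMap.smul_apply, zsmul_eq_mul] at h2
    push_cast at h2 he
    rw [he] at h2
    refine hw0 (H.rep.no_line fun h => (hfix _).1 ?_)
    by_contra hc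
    have h3 := H.rep.lower H.g23 hw0 hfix hc 2 fun j hj =>
      H.two_le (pow_sub_mem (H.inv g) (H.p1 _ (H.dual_inv h hwd)) j) hj
    rw [H.rep.inv] at h3
    have h4 : 0 ≤ B (ρ h w) w ^ 2 / B w w := div_nonneg (sq_nonneg _) (pd.nonneg w)
    have h5 := pd.pos w hw0
    nlinarith
  have he23 : e = 23 := by
    have h1 : e.natAbs ∣ 23 := Int.natAbs_dvd_natAbs.2 (Dvd.intro_left _ hne)
    rcases (Nat.dvd_prime (by norm_num)).1 h1 with h | h <;> omega
  refine ⟨w, D, H, hfix, hD0, ?_, hgen2, hord, hD⟩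
  rw [he23] at he
  field_simp
  push_cast at he
  linarith

theorem MinL.not_nine (H : MinL ρ B L) {g : G} {w : V} {D : ℕ}
    (C : Core ρ B H.toGood.ev g w D) : ¬ 9 ∣ D := by
  rintro ⟨c, rfl⟩
  have hw : w ∈ dual B H.toGood.ev := (C.gen w).2 ⟨1, by simp⟩
  have h1 := H.tor_sq (n := 3) (smul_mem _ (c : ℤ) (H.two_dual hw)) (H.ev_le (by
    rw [smul_smul, smul_smul]
    exact (C.ord _).2 ⟨2, by push_cast; ring⟩))
  have h2 := H.two_mem h1
  rw [smul_smul, smul_smul, smul_smul] at h2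
  obtain ⟨k, hk⟩ := (C.ord _).1 h2
  have := C.pos
  have hc : (c : ℤ) ≠ 0 := by
    have : c ≠ 0 := by omega
    exact_mod_cast this
  have : (12 : ℤ) = 9 * k := mul_left_cancel₀ hc (by push_cast at hk; linear_combination hk)
  omega

theorem MinL.not_eight (H : MinL ρ B L) {g : G} {w : V} {D : ℕ}
    (C : Core ρ B H.toGood.ev g w D) : ¬ 8 ∣ D := by
  rintro ⟨c, rfl⟩
  have hc0 : 0 < c := by have := C.pos; omega
  have hw : w ∈ dual B H.toGood.ev := (C.gen w).2 ⟨1, by simp⟩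
  have hle : L ≤ H.toGood.ev := by
    intro x hx
    have hx' : x ∈ dual B H.toGood.ev := mem_dual.2 fun y hy => mem_dual.1 (H.int hx) y hy.1
    obtain ⟨n, hn⟩ := (C.gen x).1 hx'
    have h1 : (2 * n) • w ∈ H.toGood.ev := by
      have := sub_mem (H.two_mem hx) (smul_mem _ (2 : ℤ) hn)
      convert this using 1
      module
    obtain ⟨k, hk⟩ := (C.ord _).1 h1
    have h2 : n • w ∈ H.toGood.ev := by
      refine ⟨by simpa using sub_mem hx hn.1, 23 * c * k ^ 2, ?_⟩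
      have : n = 4 * c * k := by push_cast at hk; linarith
      simp only [map_zsmul, LinearMap.smul_apply, zsmul_eq_mul, C.ww, this]
      have : (c : ℚ) ≠ 0 := by exact_mod_cast hc0.ne'
      push_cast
      field_simp
      ring
    simpa using add_mem hn h2
  have hw' : w ∈ dual B L := mem_dual.2 fun y hy => mem_dual.1 hw y (hle hy)
  have h1 := H.tor_sq (n := 2) (smul_mem _ (2 * c : ℤ) hw') (H.ev_le (by
    rw [smul_smul]
    exact (C.ord _).2 ⟨1, by push_cast; ring⟩))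
  rw [smul_smul] at h1
  have := Int.le_of_dvd (by positivity) ((C.ord _).1 (hle h1))
  push_cast at this
  omega

end H41.Ft
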