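/- The order of the discriminant group is 2, 4, 6 or 12 (a linear programming bound). -/
import Cfsg.Agent.H41.FtCore

set_option autoImplicit false

namespace H41.Ft

open Module Submodule

variable {G V : Type*} [Group G] [Fintype G] [AddCommGroup V] [Module ℚ V] [FiniteDimensional ℚ V]
variable {ρ : Representation ℚ G V} {B : LinearMap.BilinForm ℚ V} {L : Submodule ℤ V}

theorem exists_sign (hL : ∀ h, ∀ x ∈ L, ρ h x ∈ L) {v : V}
    (hv : ∀ h, ρ h v - v ∈ L ∨ ρ h v + v ∈ L) (h2 : (2 : ℤ) • v ∉ L) :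
    ∃ ε : G →* ℤˣ, ∀ h, (ε h : ℤ) • ρ h v - v ∈ L := by
  classical
  let e : G → ℤˣ := fun h => if ρ h v - v ∈ L then 1 else -1
  have he : ∀ h, (e h : ℤ) • ρ h v - v ∈ L := by
    intro h
    by_cases hh : ρ h v - v ∈ L
    · simp [e, hh]
    · have := neg_mem ((hv h).resolve_left hh)
      convert this using 1
      simp [e, hh]; abel
  have huniq : ∀ (h : G) (a b : ℤˣ), (a : ℤ) • ρ h v - v ∈ L → (b : ℤ) • ρ h v - v ∈ L → a = b := by
    intro h a b ha hb
    by_contra hab
    have hb' : b = -a := by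
      rcases Int.units_eq_one_or a with rfl | rfl <;> rcases Int.units_eq_one_or b with rfl | rfl <;>
        simp_all
    apply h2
    have := neg_mem (add_mem ha hb)
    convert this using 1
    rw [hb']
    simp only [Units.val_neg]
    module
  refine ⟨MonoidHom.mk' e fun a b => huniq (a * b) _ _ (he _) ?_, he⟩
  have h1 := add_mem (smul_mem _ (e a : ℤ) (hL a _ (he b))) (he a)
  convert h1 using 1
  simp only [map_mul, Module.End.mul_apply, map_sub, map_zsmul, Units.val_mul]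
  module

namespace Rep23
variable (H : Rep23 ρ B)
include H

theorem sum_sign (ε : G →* ℤˣ) (w : V) : ∑ h, (ε h : ℤ) • ρ h w = 0 := by
  refine H.no_line fun k => ⟨((ε k⁻¹ : ℤ) : ℚ), ?_⟩
  rw [Int.cast_smul_eq_zsmul, map_sum, Finset.smul_sum]
  refine Fintype.sum_equiv (Equiv.mulLeft k) _ _ fun h => ?_
  simp only [Equiv.coe_mulLeft, map_mul, Module.End.mul_apply, map_zsmul, smul_smul,
    ← Units.val_mul, map_inv, inv_mul_cancel_left]

theorem cube_sign (ε : G →* ℤˣ) (w : V) : 0 ≤ ∑ h, (((ε h : ℤ) : ℚ) * B (ρ h w) w) ^ 3 := by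
  have h1 := H.pd.cube_nonneg fun h => (ε h : ℤ) • ρ h w
  rw [Finset.sum_comm] at h1
  have h2 : ∀ k : G, ∑ h, B ((ε h : ℤ) • ρ h w) ((ε k : ℤ) • ρ k w) ^ 3 =
      ∑ h, (((ε h : ℤ) : ℚ) * B (ρ h w) w) ^ 3 := by
    intro k
    symm
    refine Fintype.sum_equiv (Equiv.mulLeft k) _ _ fun h => ?_
    have : ((ε k : ℤ) : ℚ) * ((ε k : ℤ) : ℚ) = 1 := by
      rcases Int.units_eq_one_or (ε k) with e | e <;> simp [e]
    simp only [Equiv.coe_mulLeft, map_mul, Module.End.mul_apply, map_zsmul, LinearMap.smul_apply,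
      H.inv, zsmul_eq_mul, Units.val_mul]
    push_cast
    congr 1
    linear_combination (-((ε h : ℤ) : ℚ) * B (ρ h w) w) * this
  simp only [h2, Finset.sum_const, Finset.card_univ, nsmul_eq_mul] at h1
  exact (mul_nonneg_iff_of_pos_left (by exact_mod_cast Fintype.card_pos)).1 h1

end Rep23

namespace Core
variable {g : G} {w : V} {D : ℕ} (H : Core ρ B L g w D)
include H

theorem wd : w ∈ dual B L := (H.gen w).2 ⟨1, by simp⟩

theorem Dq : (0 : ℚ) < D := by exact_mod_cast H.pos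

theorem w0 : w ≠ 0 := by
  rintro rfl
  have := H.ww
  have h := H.Dq
  simp only [map_zero] at this
  have : (0 : ℚ) < 23 / D := by positivity
  linarith

theorem gw : ρ g w = w := (H.fix w).2 ⟨1, by simp⟩

theorem two_dvd : 2 ∣ D := by
  obtain ⟨n, hn⟩ := H.even _ ((H.ord D).2 dvd_rfl)
  simp only [map_zsmul, LinearMap.smul_apply, zsmul_eq_mul, H.ww] at hn
  have h := H.Dq
  have : (23 * D : ℤ) = 2 * n := by
    have : (23 * D : ℚ) = 2 * n := by rw [← hn]; push_cast; field_simp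
    exact_mod_cast this
  omega

theorem kint {x : V} (hx : x ∈ dual B L) : ∃ k : ℤ, B x w = k / D := by
  obtain ⟨k, hk⟩ := mem_dual.1 hx _ ((H.ord D).2 dvd_rfl)
  have h := H.Dq
  refine ⟨k, ?_⟩
  rw [← hk]
  simp only [map_zsmul, zsmul_eq_mul]
  push_cast; field_simp

theorem cls (h : G) : ∃ c : ℤ, ρ h w - c • w ∈ L ∧ (2 * D : ℤ) ∣ c ^ 2 - 1 := by
  obtain ⟨c, hc⟩ := (H.gen _).1 (H.dual_inv h H.wd)
  refine ⟨c, hc, ?_⟩
  obtain ⟨n, hn⟩ := H.even _ hc
  obtain ⟨m, hm⟩ := mem_dual.1 H.wd _ hc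
  have hD := H.Dq
  have h1 := H.rep.inv h w w
  have e : ρ h w = (ρ h w - c • w) + c • w := by abel
  generalize ρ h w - c • w = y at hn hm e
  rw [e] at h1
  simp only [map_add, LinearMap.add_apply, map_zsmul, LinearMap.smul_apply, zsmul_eq_mul, hn,
    H.rep.pd.symm y w, hm, H.ww] at h1
  have h2 : 23 * (c ^ 2 - 1) = 2 * D * (-n - c * m) := by
    have : (23 * (c ^ 2 - 1) : ℚ) = 2 * D * (-n - c * m) := by
      field_simp at h1
      linear_combination h1
    exact_mod_cast this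
  have h3 : IsCoprime (2 * D : ℤ) 23 := by
    refine IsCoprime.mul_left (by norm_num) ?_
    exact_mod_cast Nat.isCoprime_iff_coprime.2
      ((Nat.Prime.coprime_iff_not_dvd (by norm_num : Nat.Prime 23)).2 H.cop).symm
  exact h3.dvd_of_dvd_mul_left (Dvd.intro _ h2.symm)

theorem sub_mem_of_dvd {h : G} {c s a : ℤ} (hc : ρ h w - c • w ∈ L) (hd : (D : ℤ) ∣ a * (c - s)) :
    ρ h (a • w) - s • a • w ∈ L := by
  have := add_mem (smul_mem _ a hc) ((H.ord _).2 hd)
  convert this using 1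
  rw [map_zsmul]
  module

theorem dvd_of_sub_mem {h : G} {e a q k : ℤ} (hD : (D : ℤ) = a * q)
    (hc : e • ρ h (a • w) - a • w ∈ L) (hk : B (ρ h w) w = k / D) : q ∣ e * k - 23 := by
  obtain ⟨n, hn⟩ := mem_dual.1 H.wd _ hc
  rw [H.rep.pd.symm] at hn
  simp only [map_sub, LinearMap.sub_apply, map_zsmul, LinearMap.smul_apply, zsmul_eq_mul, hk,
    H.ww] at hn
  have h0 := H.Dq
  have hD' : (D : ℚ) = a * q := by exact_mod_cast hD
  have ha : (a : ℚ) ≠ 0 := by rintro e; rw [hD', e] at h0; simp at h0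
  refine ⟨n, ?_⟩
  have : (e * k - 23 : ℚ) = q * n := by
    refine mul_left_cancel₀ ha ?_
    field_simp at hn
    rw [hD'] at hn
    linear_combination hn
  exact_mod_cast this

theorem k_odd {h : G} {k : ℤ} (hk : B (ρ h w) w = k / D) : (2 : ℤ) ∣ k - 23 := by
  obtain ⟨a, ha⟩ := H.two_dvd
  obtain ⟨c, hc, hd⟩ := H.cls h
  have hc2 : (2 : ℤ) ∣ c - 1 := by
    have h2 : (2 : ℤ) ∣ (c - 1) * (c + 1) :=
      (Dvd.intro _ rfl).trans (hd.trans (dvd_of_eq (by ring)))
    rcases Int.prime_two.dvd_or_dvd h2 with h | h <;> omega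
  have := H.sub_mem_of_dvd (s := 1) (a := a) hc (by
    obtain ⟨j, hj⟩ := hc2
    exact ⟨j, by rw [hj, ha]; push_cast; ring⟩)
  simpa using H.dvd_of_sub_mem (e := 1) (a := a) (q := 2) (by rw [ha]; push_cast; ring)
    (by simpa using this) hk

theorem k_le {h : G} {k : ℤ} (hk : B (ρ h w) w = k / D) : k ^ 2 ≤ 23 ^ 2 := by
  have h1 := H.rep.pd.cs (ρ h w) w
  rw [H.rep.inv, hk, H.ww] at h1
  have h0 := H.Dq
  have : (k : ℚ) ^ 2 ≤ 23 ^ 2 := by
    rw [div_pow, div_mul_div_comm, ← sq, ← sq, div_le_div_iff_of_pos_right (by positivity)] at h1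
    exact h1
  exact_mod_cast this

theorem cubic (ε : G →* ℤˣ) (k : G → ℤ) (hk : ∀ h, B (ρ h w) w = k h / D) {m n : ℤ}
    (hm : ∀ h, m ∣ ε h * k h - 23) (hs : (24 - m * n) * (24 - m * n + m) + 22 < 0) : False := by
  have h0 := H.Dq
  let t : G → ℤ := fun h => ε h * k h
  have ht : ∀ h, ((ε h : ℤ) : ℚ) * B (ρ h w) w = t h / D := fun h => by
    rw [hk]; simp only [t]; push_cast; ring
  have ht2 : ∀ h, t h ^ 2 = k h ^ 2 := fun h => by
    rcases Int.units_eq_one_or (ε h) with e | e <;> simp [t, e]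
  have s1 : ∑ h, t h = 0 := by
    have := congrArg (fun y => B y w) (H.rep.sum_sign ε w)
    simp only [map_sum, LinearMap.sum_apply, map_zsmul, LinearMap.smul_apply, zsmul_eq_mul, ht,
      map_zero, LinearMap.zero_apply, ← Finset.sum_div, div_eq_zero_iff, h0.ne', or_false] at this
    exact_mod_cast this
  have s2 : ∑ h, t h ^ 2 = 23 * Fintype.card G := by
    have := H.rep.avg_sq w
    simp only [hk, H.ww, div_pow, ← Finset.sum_div] at this
    field_simp at this
    simp only [ht2]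
    exact_mod_cast (by rw [this, mul_comm] : ∑ h, (k h : ℚ) ^ 2 = 23 * Fintype.card G)
  have s3 : 0 ≤ ∑ h, t h ^ 3 := by
    have := H.rep.cube_sign ε w
    simp only [ht, div_pow, ← Finset.sum_div] at this
    have := (div_nonneg_iff.1 this).resolve_right fun h => absurd h.2 (not_le.2 (by positivity))
    exact_mod_cast this.1
  have s4 : ∑ h, (t h - 23) * ((t h - (23 - m * n)) * (t h - (23 - m * n) - m)) ≤ 0 := by
    refine Finset.sum_nonpos fun h _ => mul_nonpos_of_nonpos_of_nonneg ?_ ?_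
    · have := H.k_le (hk h)
      rw [← ht2] at this
      nlinarith
    · obtain ⟨j, hj⟩ := hm h
      have e : t h = 23 + m * j := by simp only [t]; linarith
      have : 0 ≤ (j + n) * (j + n - 1) := by
        rcases le_or_gt (j + n) 0 with h | h
        · exact mul_nonneg_of_nonpos_of_nonpos h (by omega)
        · exact mul_nonneg h.le (by omega)
      rw [e, show (23 + m * j - (23 - m * n)) * (23 + m * j - (23 - m * n) - m) =
        m ^ 2 * ((j + n) * (j + n - 1)) by ring]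
      positivity
  have s5 : ∑ h, (t h - 23) * ((t h - (23 - m * n)) * (t h - (23 - m * n) - m)) =
      ∑ h, t h ^ 3 - (23 + 2 * (23 - m * n) + m) * ∑ h, t h ^ 2 +
        (23 * (2 * (23 - m * n) + m) + (23 - m * n) * (23 - m * n + m)) * ∑ h, t h -
        Fintype.card G * (23 * (23 - m * n) * (23 - m * n + m)) := by
    rw [Finset.mul_sum, Finset.mul_sum, ← Finset.sum_sub_distrib, ← Finset.sum_add_distrib,
      ← Finset.card_univ, ← nsmul_eq_mul, ← Finset.sum_const, ← Finset.sum_sub_distrib]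
    exact Finset.sum_congr rfl fun h _ => by ring
  rw [s5, s1, s2] at s4
  have hG : (0 : ℤ) < Fintype.card G := by exact_mod_cast Fintype.card_pos
  nlinarith

theorem prime_dvd {q : ℕ} (hq : q.Prime) (hd : q ∣ D) : q ≤ 3 := by
  by_contra hc
  have h2 : q ≠ 2 := by omega
  have hq' := Nat.prime_iff_prime_int.1 hq
  obtain ⟨a, ha⟩ := hd
  have ha0 : 0 < a := Nat.pos_of_ne_zero (by rintro rfl; have := H.pos; omega)
  obtain ⟨ε, hε⟩ := exists_sign H.inv (v := (a : ℤ) • w) (fun h => by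
    obtain ⟨c, hc, hd⟩ := H.cls h
    have h3 : (q : ℤ) ∣ (c - 1) * (c + 1) :=
      (show (q : ℤ) ∣ 2 * D from ⟨2 * a, by rw [ha]; push_cast; ring⟩).trans
        (hd.trans (dvd_of_eq (by ring)))
    rcases hq'.dvd_or_dvd h3 with ⟨j, hj⟩ | ⟨j, hj⟩
    · left
      simpa using H.sub_mem_of_dvd (s := 1) (a := a) hc ⟨j, by rw [hj, ha]; push_cast; ring⟩
    · right
      simpa using H.sub_mem_of_dvd (s := -1) (a := a) hc
        ⟨j, by rw [sub_neg_eq_add, hj, ha]; push_cast; ring⟩) (by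
    rw [smul_smul, H.ord, ha]
    intro h
    have := Int.le_of_dvd (by positivity) h
    push_cast at this
    have : (q : ℤ) ≤ 2 := le_of_mul_le_mul_right this (by exact_mod_cast ha0)
    omega)
  choose k hk using fun h => H.kint (H.dual_inv h H.wd)
  have hm : ∀ h, (2 * q : ℤ) ∣ ε h * k h - 23 := by
    intro h
    have h3 := H.dvd_of_sub_mem (a := a) (q := q) (by rw [ha]; push_cast; ring) (hε h) (hk h)
    have h4 : (2 : ℤ) ∣ ε h * k h - 23 := by
      have := H.k_odd (hk h)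
      rcases Int.units_eq_one_or (ε h) with e | e <;> simp only [e, Units.val_one, Units.val_neg] <;>
        omega
    refine IsCoprime.mul_dvd ?_ h4 h3
    exact_mod_cast Nat.isCoprime_iff_coprime.2 ((Nat.coprime_primes Nat.prime_two hq).2 h2.symm)
  by_cases h13 : 13 ≤ q
  · refine H.cubic ε k hk (n := 1) hm ?_
    have : (13 : ℤ) ≤ q := by exact_mod_cast h13
    nlinarith
  · have : q = 5 ∨ q = 7 ∨ q = 11 := by
      have : q < 13 := by omega
      interval_cases q <;> first | omega | norm_num at hq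
    rcases this with rfl | rfl | rfl
    · exact H.cubic ε k hk (n := 3) hm (by norm_num)
    · exact H.cubic ε k hk (n := 2) hm (by norm_num)
    · exact H.cubic ε k hk (n := 2) hm (by norm_num)

theorem cases (h8 : ¬ 8 ∣ D) (h9 : ¬ 9 ∣ D) : D = 2 ∨ D = 4 ∨ D = 6 ∨ D = 12 := by
  obtain ⟨a, m, hm, e⟩ := Nat.exists_eq_pow_mul_and_not_dvd H.pos.ne' 2 (by norm_num)
  have hm0 : m ≠ 0 := by rintro rfl; simp at hm
  obtain ⟨b, r, hr, e'⟩ := Nat.exists_eq_pow_mul_and_not_dvd hm0 3 (by norm_num)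
  have hr1 : r = 1 := by
    by_contra h
    obtain ⟨q, hq, hqr⟩ := Nat.exists_prime_and_dvd h
    have h1 : q ∣ m := hqr.trans (Dvd.intro_left _ e'.symm)
    have h2 := H.prime_dvd hq (h1.trans (Dvd.intro_left _ e.symm))
    have h3 := hq.two_le
    have : q = 2 ∨ q = 3 := by omega
    rcases this with rfl | rfl
    · exact hm h1
    · exact hr hqr
  rw [hr1, mul_one] at e'
  subst e'
  have ha : a < 3 := by
    by_contra h
    exact h8 (e ▸ (pow_dvd_pow 2 (by omega : 3 ≤ a)).trans (Dvd.intro _ rfl))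
  have hb : b < 2 := by
    by_contra h
    exact h9 (e ▸ (pow_dvd_pow 3 (by omega : 2 ≤ b)).trans (Dvd.intro_left _ rfl))
  have h2 := H.two_dvd
  interval_cases a <;> interval_cases b <;> omega

end Core

end H41.Ft
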