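/- Gluing a lattice of rank 23 to a line: the Leech lattice. -/
import Cfsg.Agent.H41.FtLat
import Cfsg.Agent.S1632
import Cfsg.Agent.S0406
import Cfsg.Prelude.Def_Spor_Conway

set_option autoImplicit false

namespace H41.Ft

open Module Submodule Cfsg Matrix

theorem leech_iso {W : Type*} [AddCommGroup W] [Module ℚ W] [FiniteDimensional ℚ W]
    (hW : finrank ℚ W = 24) {B : LinearMap.BilinForm ℚ W} (hB : PD B) (Λ : Submodule ℤ W)
    [IsLattice ℚ Λ] (hint : Λ ≤ dual B Λ) (hev : ∀ x ∈ Λ, ∃ n : ℤ, B x x = 2 * n)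
    (hd : dual B Λ ≤ Λ) (hr : ∀ x ∈ Λ, B x x ≠ 2) :
    ∃ f : Λ ≃+ leechLattice, ∀ x : Λ,
      (sqNorm ((f x : leechLattice) : GolayPt → ℤ) : ℚ) = 8 * B x x := by
  obtain ⟨b, rfl⟩ := exists_basis Λ hW
  have hb : ∀ i, b i ∈ span ℤ (Set.range b) := fun i => subset_span ⟨i, rfl⟩
  choose A hA using fun i j => mem_dual.1 (hint (hb i)) _ (hb j)
  let A' : Matrix (Fin 24) (Fin 24) ℤ := Matrix.of A
  let e : (Fin 24 → ℤ) ≃ₗ[ℤ] span ℤ (Set.range b) := (b.restrictScalars ℤ).equivFun.symm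
  have he : ∀ x, (e x : W) = ∑ i, x i • b i := fun x => by
    simp [e, Basis.equivFun_symm_apply]
  have hq : ∀ x, ((x ⬝ᵥ (A' *ᵥ x) : ℤ) : ℚ) = B (e x) (e x) := fun x => by
    rw [he]
    simp only [map_sum, map_zsmul, LinearMap.sum_apply, LinearMap.smul_apply, zsmul_eq_mul, hA,
      dotProduct, mulVec, A', of_apply, Finset.mul_sum]
    push_cast
    rw [Finset.sum_comm]
    exact Finset.sum_congr rfl fun i _ => Finset.sum_congr rfl fun j _ => by ring
  have hsymm : A'.IsSymm := by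
    ext i j
    have : (A j i : ℚ) = A i j := by rw [← hA, ← hA, hB.symm]
    exact_mod_cast this
  have hpos : ∀ x : Fin 24 → ℤ, x ≠ 0 → 0 < x ⬝ᵥ (A' *ᵥ x) := fun x hx => by
    have := hB.pos (e x) fun h => hx (e.map_eq_zero_iff.1 (Subtype.ext h))
    rw [← hq] at this
    exact_mod_cast this
  have heven : ∀ x : Fin 24 → ℤ, (2 : ℤ) ∣ x ⬝ᵥ (A' *ᵥ x) := fun x => by
    obtain ⟨n, hn⟩ := hev _ (e x).2
    rw [← hq] at hn
    exact ⟨n, by exact_mod_cast hn⟩
  have h2 : ∀ x : Fin 24 → ℤ, x ⬝ᵥ (A' *ᵥ x) ≠ 2 := fun x hx =>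
    hr _ (e x).2 (by rw [← hq, hx]; norm_num)
  have hdet : A'.det = 1 := by
    have h1 := disc_eq hB b hint
    rw [disc, idx_eq_one.2 hd] at h1
    have h3 : LinearMap.BilinForm.toMatrix b B = (Int.castRingHom ℚ).mapMatrix A' := by
      ext i j
      simp [LinearMap.BilinForm.toMatrix_apply, hA, A']
    rw [h3, ← RingHom.map_det, eq_intCast] at h1
    exact_mod_cast h1.symm
  obtain ⟨c4, c6, c8⟩ := Cfsg.Agent.S1632.result A' hsymm hpos heven hdet h2
  obtain ⟨f, hf⟩ := Cfsg.Agent.S0406.result A' hsymm hpos heven h2 c4 c6 c8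
  refine ⟨e.symm.toAddEquiv.trans f, fun x => ?_⟩
  have := hf (e.symm x)
  rw [AddEquiv.trans_apply]
  erw [this]
  push_cast
  rw [hq, e.apply_symm_apply]

variable {V : Type*} [AddCommGroup V] [Module ℚ V] [FiniteDimensional ℚ V]

/-- The orthogonal sum with a line. -/
def sumForm (B : LinearMap.BilinForm ℚ V) (E : ℚ) : LinearMap.BilinForm ℚ (V × ℚ) :=
  B.comp (LinearMap.fst ℚ V ℚ) (LinearMap.fst ℚ V ℚ) +
    E • LinearMap.BilinForm.comp (LinearMap.mul ℚ ℚ) (LinearMap.snd ℚ V ℚ) (LinearMap.snd ℚ V ℚ)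

theorem sumForm_apply (B : LinearMap.BilinForm ℚ V) (E : ℚ) (p q : V × ℚ) :
    sumForm B E p q = B p.1 q.1 + E * (p.2 * q.2) := rfl

theorem PD.sumForm {B : LinearMap.BilinForm ℚ V} (hB : PD B) {E : ℚ} (hE : 0 < E) :
    PD (sumForm B E) := by
  refine ⟨fun p q => by rw [sumForm_apply, sumForm_apply, hB.symm, mul_comm p.2], fun p hp => ?_⟩
  rw [sumForm_apply]
  by_cases h : p.1 = 0
  · have : p.2 ≠ 0 := fun e => hp (Prod.ext h e)
    have := mul_pos hE (mul_self_pos.2 this)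
    simpa [h] using this
  · have := hB.pos _ h
    have := mul_nonneg hE.le (mul_self_nonneg p.2)
    linarith

/-- The glued lattice. -/
def glue (M : Submodule ℤ V) (w : V) (E : ℕ) : Submodule ℤ (V × ℚ) where
  carrier := {p | ∃ j : ℤ, p.1 - j • w ∈ M ∧ p.2 = j / E}
  add_mem' := by
    rintro a b ⟨i, hi, hi'⟩ ⟨j, hj, hj'⟩
    refine ⟨i + j, ?_, by simp [hi', hj', add_div]⟩
    convert add_mem hi hj using 1
    simp only [Prod.fst_add]; module
  zero_mem' := ⟨0, by simp, by simp⟩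
  smul_mem' := by
    rintro c a ⟨i, hi, hi'⟩
    refine ⟨c * i, ?_, by simp [hi', mul_div_assoc]⟩
    convert smul_mem _ c hi using 1
    simp only [Prod.smul_fst]; module

theorem v_mem_glue {M : Submodule ℤ V} {w : V} {E : ℕ} (hE : 0 < E) (hw : (E : ℤ) • w ∈ M) :
    ((0 : V), (1 : ℚ)) ∈ glue M w E :=
  ⟨E, by simpa using hw, by
    have : (E : ℚ) ≠ 0 := by exact_mod_cast hE.ne'
    simp [this]⟩

theorem glue_leech (hV : finrank ℚ V = 23) {B : LinearMap.BilinForm ℚ V} (hB : PD B)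
    (M : Submodule ℤ V) [IsLattice ℚ M] (hint : M ≤ dual B M)
    (hev : ∀ x ∈ M, ∃ n : ℤ, B x x = 2 * n) {w : V} (hw : w ∈ dual B M) {E : ℕ} (hE : 0 < E)
    (hEw : (E : ℤ) • w ∈ M) (hgen : ∀ x ∈ dual B M, ∃ n : ℤ, x - n • w ∈ M) {m : ℤ}
    (hm : B w w + 1 / E = 2 * m)
    (hr : ∀ (x : V) (j : ℤ), x - j • w ∈ M → B x x + j ^ 2 / E ≠ 2) :
    ∃ f : glue M w E ≃+ leechLattice, ∀ x : glue M w E,
      (sqNorm ((f x : leechLattice) : GolayPt → ℤ) : ℚ) = 8 * sumForm B E x x := by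
  have hE' : (0 : ℚ) < E := by exact_mod_cast hE
  haveI := isLattice_dual hB M
  have hM : ∀ x ∈ M, (x, (0 : ℚ)) ∈ glue M w E := fun x hx => ⟨0, by simpa using hx, by simp⟩
  have hv := v_mem_glue hE hEw
  have hw' : (w, (1 / E : ℚ)) ∈ glue M w E := ⟨1, by simp, by simp⟩
  haveI : IsLattice ℚ (glue M w E) := by
    refine ⟨Submodule.FG.of_le (S := glue M w E) (T := (dual B M).prod (span ℤ {(1 / E : ℚ)}))
      (IsLattice.fg.prod (fg_span_singleton _)) ?_, ?_⟩
    · rintro p ⟨j, hj, hj'⟩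
      refine ⟨by simpa using add_mem (hint hj) (smul_mem _ j hw), mem_span_singleton.2 ⟨j, ?_⟩⟩
      simp [hj', div_eq_mul_inv]
    · rw [eq_top_iff]
      rintro ⟨x, s⟩ -
      have h1 : (x, (0 : ℚ)) ∈ span ℚ (glue M w E : Set (V × ℚ)) := by
        have hx : x ∈ span ℚ (M : Set V) := by rw [IsLattice.span_eq_top]; trivial
        have := Submodule.mem_map_of_mem (f := LinearMap.inl ℚ V ℚ) hx
        rw [Submodule.map_span] at this
        refine span_mono ?_ this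
        rintro _ ⟨y, hy, rfl⟩
        exact hM y hy
      simpa using add_mem h1 (smul_mem _ s (subset_span hv))
  have hdec : ∀ p ∈ glue M w E, ∃ x ∈ M, ∃ j : ℤ, p = (x + j • w, (j / E : ℚ)) := by
    rintro p ⟨j, hj, hj'⟩
    exact ⟨_, hj, j, Prod.ext (by simp) hj'⟩
  have hform : ∀ (x y : V) (i j : ℤ), sumForm B E (x + i • w, (i / E : ℚ)) (y + j • w, (j / E : ℚ)) =
      B x y + j * B w x + i * B w y + i * j * (2 * m) := by
    intro x y i j
    rw [sumForm_apply, ← hm]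
    simp only [map_add, LinearMap.add_apply, map_zsmul, LinearMap.smul_apply, zsmul_eq_mul,
      hB.symm x w]
    field_simp
    ring
  refine leech_iso (by simp [hV]) (hB.sumForm hE') _ (fun p hp => mem_dual.2 fun q hq => ?_)
    (fun p hp => ?_) (fun p hp => ?_) (fun p hp => ?_)
  · obtain ⟨x, hx, i, rfl⟩ := hdec p hp
    obtain ⟨y, hy, j, rfl⟩ := hdec q hq
    obtain ⟨a, ha⟩ := mem_dual.1 (hint hx) y hy
    obtain ⟨b, hb⟩ := mem_dual.1 hw x hx
    obtain ⟨c, hc⟩ := mem_dual.1 hw y hy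
    exact ⟨a + j * b + i * c + i * j * (2 * m), by rw [hform, ha, hb, hc]; push_cast; ring⟩
  · obtain ⟨x, hx, i, rfl⟩ := hdec p hp
    obtain ⟨a, ha⟩ := hev x hx
    obtain ⟨b, hb⟩ := mem_dual.1 hw x hx
    exact ⟨a + i * b + i * i * m, by rw [hform, ha, hb]; push_cast; ring⟩
  · obtain ⟨x, s⟩ := p
    have hx : x ∈ dual B M := mem_dual.2 fun y hy => by
      simpa [sumForm_apply] using mem_dual.1 hp _ (hM y hy)
    obtain ⟨n, hn⟩ := hgen x hx
    obtain ⟨a, ha⟩ := mem_dual.1 hp _ hw'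
    obtain ⟨b, hb⟩ := mem_dual.1 hw _ hn
    rw [sumForm_apply] at ha
    simp only [map_sub, map_zsmul, zsmul_eq_mul, hB.symm w x] at ha hb
    refine ⟨n + E * (a - b - 2 * m * n), ?_, ?_⟩
    · convert sub_mem hn (smul_mem _ (a - b - 2 * m * n) hEw) using 1
      module
    · show s = _
      have h1 : s = a - B x w := by rw [← ha]; field_simp; ring
      have h2 : B w w = 2 * m - 1 / E := by linarith
      rw [h1, show B x w = b + n * B w w by linarith, h2]
      push_cast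
      field_simp
      ring
  · obtain ⟨j, hj, hj'⟩ := hp
    have := hr _ j hj
    rw [sumForm_apply, hj']
    convert this using 2
    field_simp

theorem embed {G Λ : Type*} [Group G] [AddCommGroup Λ] (N : Λ → ℚ) (f : Λ ≃+ leechLattice)
    (hf : ∀ x, (sqNorm ((f x : leechLattice) : GolayPt → ℤ) : ℚ) = 8 * N x)
    (τ : G → Λ →+ Λ) (h1 : ∀ x, τ 1 x = x) (hm : ∀ a b x, τ (a * b) x = τ a (τ b x))
    (hN : ∀ h x, N (τ h x) = N x) {v : Λ} (hv : ∀ h, τ h v = v) {u : leechLattice} (t : Co0)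
    (ht : t • f v = u) :
    ∃ ψ : G →* (Co0 ⊓ MulAction.stabilizer (Equiv.Perm leechLattice) u : Subgroup _),
      ∀ h, ψ h = 1 → ∀ x, τ h x = x := by
  let F : G →* Function.End leechLattice :=
    { toFun := fun h y => f (τ h (f.symm y))
      map_one' := funext fun y => by simp [h1]; rfl
      map_mul' := fun a b => funext fun y => by
        show f (τ (a * b) (f.symm y)) = f (τ a (f.symm (f (τ b (f.symm y)))))
        rw [hm, f.symm_apply_apply] }
  let ψ0 : G →* Equiv.Perm leechLattice := F.toHomPerm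
  have hψ0 : ∀ h y, ψ0 h y = f (τ h (f.symm y)) := fun h y => rfl
  have hco : ∀ h, ψ0 h ∈ Co0 := fun h => ⟨fun a b => by simp [hψ0], fun a => by
    have : (sqNorm ((ψ0 h a : leechLattice) : GolayPt → ℤ) : ℚ) = sqNorm (a : GolayPt → ℤ) := by
      rw [hψ0, hf, hN, ← hf, f.apply_symm_apply]
    exact_mod_cast this⟩
  let ψ1 : G →* Equiv.Perm leechLattice := (MulAut.conj t.1).toMonoidHom.comp ψ0
  have hψ1 : ∀ h, ψ1 h = t.1 * ψ0 h * t.1⁻¹ := fun h => rfl
  refine ⟨ψ1.codRestrict _ fun h => ⟨?_, ?_⟩, fun h hh x => ?_⟩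
  · rw [hψ1]
    exact Co0.mul_mem (Co0.mul_mem t.2 (hco h)) (Co0.inv_mem t.2)
  · have ht' : t.1 (f v) = u := ht
    show ψ1 h u = u
    rw [hψ1, ← ht']
    simp [hψ0, hv]
  · have e : t.1 * ψ0 h * t.1⁻¹ = 1 := congrArg Subtype.val hh
    have e' : ψ0 h = 1 := by
      rw [mul_inv_eq_one, mul_eq_left] at e
      exact e
    have := hψ0 h (f x)
    rw [e', f.symm_apply_apply] at this
    exact (f.injective this).symm

end H41.Ft
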