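/- The case where the vectors orthogonal to the fixed line contain a root. -/
import Cfsg.Agent.H41.FtCubic

set_option autoImplicit false

namespace H41.Ft

open Module Submodule

variable {G V : Type*} [Group G] [Fintype G] [AddCommGroup V] [Module ℚ V] [FiniteDimensional ℚ V]
variable {ρ : Representation ℚ G V} {B : LinearMap.BilinForm ℚ V} {L : Submodule ℤ V}

theorem int_norm (m : ℕ → ℤ) :
    ∃ N : ℤ, N = 23 * ∑ j ∈ Finset.range 23, m j ^ 2 - (∑ j ∈ Finset.range 23, m j) ^ 2 ∧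
      (N = 0 ∨ N = 22 ∨ N = 42 ∨ 46 ≤ N) := by
  refine ⟨_, rfl, ?_⟩
  set s := ∑ j ∈ Finset.range 23, m j with hs
  let q := s / 23
  have h1 : ∀ j, ∃ t : ℤ, 0 ≤ t ∧ (m j - q) ^ 2 - (m j - q) = 2 * t := fun j => by
    obtain ⟨t, ht⟩ := Int.even_mul_pred_self (m j - q)
    refine ⟨t, ?_, by linear_combination ht⟩
    have : 0 ≤ (m j - q) * (m j - q - 1) := by
      rcases le_or_gt (m j - q) 0 with h | h
      · exact mul_nonneg_of_nonpos_of_nonpos h (by omega)
      · exact mul_nonneg h.le (by omega)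
    omega
  choose t ht0 ht using h1
  have h2 : ∑ j ∈ Finset.range 23, m j ^ 2 =
      2 * ∑ j ∈ Finset.range 23, t j + (2 * q + 1) * s - 23 * (q ^ 2 + q) := by
    rw [hs, Finset.mul_sum, Finset.mul_sum, ← Finset.sum_add_distrib,
      show 23 * (q ^ 2 + q) = ∑ j ∈ Finset.range 23, (q ^ 2 + q) by simp, ← Finset.sum_sub_distrib]
    exact Finset.sum_congr rfl fun j _ => by linear_combination ht j
  have h3 : 0 ≤ ∑ j ∈ Finset.range 23, t j := Finset.sum_nonneg fun j _ => ht0 j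
  rw [h2]
  generalize ∑ j ∈ Finset.range 23, t j = T at h3
  have h4 : s = 23 * q + s % 23 := (Int.mul_ediv_add_emod s 23).symm
  have h5 : 0 ≤ s % 23 := Int.emod_nonneg _ (by norm_num)
  have h6 : s % 23 < 23 := Int.emod_lt_of_pos _ (by norm_num)
  generalize s % 23 = r at h4 h5 h6
  have h7 : 23 * (2 * T + (2 * q + 1) * s - 23 * (q ^ 2 + q)) - s ^ 2 = 46 * T + 23 * r - r ^ 2 := by
    rw [h4]; ring
  rw [h7]
  interval_cases r <;> omega

namespace Core
variable {g : G} {w : V} {D : ℕ} (H : Core ρ B L g w D)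
include H

theorem pow {j : ℕ} (h0 : 0 < j) (h1 : j < 23) : Core ρ B L (g ^ j) w D :=
  { H with
    g23 := by rw [← pow_mul, mul_comm, pow_mul, H.g23, one_pow]
    p1 := fun x hx => pow_sub_mem (H.inv g) (H.p1 x hx) j
    fix := fun x => ⟨fun hx => (H.fix x).1 (fix_of_pow H.g23 h0 h1 hx),
      fun hx => pow_fix ((H.fix x).2 hx) j⟩ }

theorem B_pow (x : V) (j : ℕ) : B (ρ (g ^ j) x) w = B x w := by
  conv_lhs => rw [← pow_fix H.gw j]
  rw [H.rep.inv]

theorem eq_zero_of_fix {x : V} (hx : ρ g x = x) (h : B x w = 0) : x = 0 := by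
  obtain ⟨t, rfl⟩ := (H.fix x).1 hx
  have := H.rep.pd.pos w H.w0
  rw [map_smul, LinearMap.smul_apply, smul_eq_mul, mul_eq_zero] at h
  rw [h.resolve_right this.ne', zero_smul]

theorem nrm_eq_zero {x : V} (h : B x w = 0) : nrm ρ g x = 0 :=
  H.eq_zero_of_fix (nrm_fix H.g23 x) (by rw [H.rep.B_nrm H.gw, h, mul_zero])

theorem exists_good_root {r : V} (hr : r ∈ L) (h2 : B r r = 2) (hw : B r w = 0) :
    ∃ r ∈ L, B r r = 2 ∧ B r w = 0 ∧ ∀ n : ℕ, B (ρ (g ^ n) r) r ≠ 1 := by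
  by_contra hc
  push Not at hc
  let R : Subring (Module.End ℚ V) :=
    { carrier := {f | ∀ x ∈ L, f x ∈ L}
      mul_mem' := fun ha hb x hx => ha _ (hb x hx)
      one_mem' := fun x hx => hx
      add_mem' := fun ha hb x hx => add_mem (ha x hx) (hb x hx)
      zero_mem' := fun x hx => zero_mem _
      neg_mem' := fun ha x hx => neg_mem (ha x hx) }
  let T : R := ⟨ρ g, H.inv g⟩
  have hT : ∀ n : ℕ, (T ^ n).1 = ρ (g ^ n) := fun n => by rw [map_pow]; rfl
  have key : ∀ m : ℕ, ∃ z ∈ L, B (((T - 1) ^ m).1 z) (((T - 1) ^ m).1 z) = 2 ∧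
      B (((T - 1) ^ m).1 z) w = 0 := by
    intro m
    induction m with
    | zero => exact ⟨r, hr, h2, hw⟩
    | succ m ih =>
      obtain ⟨z, hz, h1, h3⟩ := ih
      obtain ⟨n, hn⟩ := hc _ (((T - 1) ^ m).2 z hz) h1 h3
      have e : ((T - 1) ^ (m + 1)).1 ((∑ i ∈ Finset.range n, T ^ i).1 z) =
          ρ (g ^ n) (((T - 1) ^ m).1 z) - ((T - 1) ^ m).1 z := by
        have : (T - 1) ^ (m + 1) * ∑ i ∈ Finset.range n, T ^ i = (T ^ n - 1) * (T - 1) ^ m := by
          rw [pow_succ, mul_assoc, mul_geom_sum]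
          exact (((Commute.refl T).sub_left (Commute.one_left T)).pow_pow m n).sub_right
            (Commute.one_right _)
        have := congrArg (fun f : R => f.1 z) this
        rw [← hT]
        exact this
      refine ⟨_, (∑ i ∈ Finset.range n, T ^ i).2 z hz, ?_, ?_⟩
      · rw [e]
        simp only [map_sub, LinearMap.sub_apply, H.rep.inv, hn, h1, H.rep.pd.symm _ (ρ (g ^ n) _)]
        norm_num
      · rw [e, map_sub, LinearMap.sub_apply, H.B_pow, sub_self]
  obtain ⟨z, hz, h1, -⟩ := key 23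
  obtain ⟨f, hf⟩ := (Commute.neg_one_right T).exists_add_pow_prime_eq (p := 23) (by norm_num)
  have hT1 : T ^ 23 = 1 := Subtype.ext (by rw [hT, H.g23, map_one]; rfl)
  have e : (T - 1) ^ 23 = (23 : ℤ) • (T * -1 * f) := by
    rw [sub_eq_add_neg, hf, hT1, zsmul_eq_mul]
    norm_num [mul_assoc]
  have e2 : ((T - 1) ^ 23).1 z = (23 : ℤ) • (T * -1 * f).1 z := by rw [e]; rfl
  obtain ⟨n, hn⟩ := H.even _ ((T * -1 * f).2 z hz)
  rw [e2] at h1
  simp only [map_zsmul, LinearMap.smul_apply, zsmul_eq_mul, hn] at h1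
  have : (23 * (23 * (2 * n)) : ℤ) = 2 := by exact_mod_cast h1
  omega

theorem c_le {r : V} (hr : r ∈ L) (h2 : B r r = 2) (hw : B r w = 0)
    (h1 : ∀ n : ℕ, B (ρ (g ^ n) r) r ≠ 1) {j : ℕ} (h0 : 0 < j) (h23 : j < 23) :
    B (ρ (g ^ j) r) r = 0 ∨ B (ρ (g ^ j) r) r = -1 := by
  have hr0 : r ≠ 0 := by rintro rfl; simp at h2
  obtain ⟨c, hc⟩ := mem_dual.1 (H.int (H.inv (g ^ j) r hr)) r hr
  have hne : B (ρ (g ^ j) r) r ^ 2 ≠ B r r ^ 2 := by
    intro e
    refine hr0 ((H.pow h0 h23).eq_zero_of_fix ?_ hw)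
    rcases H.rep.eq_of_sq e with e | e
    · exact e
    · exact fix_of_sq_fix _ (by rw [← map_pow, (H.pow h0 h23).g23, map_one])
        (by rw [e, map_neg, e, neg_neg])
  have h3 := H.rep.pd.cs (ρ (g ^ j) r) r
  have h4 := h1 j
  rw [H.rep.inv] at h3
  rw [hc, h2] at *
  have h5 : c ^ 2 ≤ 2 * 2 := by exact_mod_cast h3
  have h6 : c ^ 2 ≠ 2 ^ 2 := by exact_mod_cast hne
  have h7 : c ≠ 1 := by exact_mod_cast h4
  have : -2 ≤ c := by nlinarith
  have : c ≤ 2 := by nlinarith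
  interval_cases c <;> simp_all

theorem sum_c {x : V} (hw : B x w = 0) (z : V) : ∑ j ∈ Finset.range 23, B (ρ (g ^ j) x) z = 0 := by
  have := congrArg (fun y => B y z) (H.nrm_eq_zero hw)
  simpa [nrm] using this

theorem exists_cycle {r : V} (hr : r ∈ L) (h2 : B r r = 2) (hw : B r w = 0) :
    ∃ g', Core ρ B L g' w D ∧ ∃ r ∈ L, B r r = 2 ∧ B r w = 0 ∧ B (ρ g' r) r = -1 ∧
      ∀ j, 2 ≤ j → j ≤ 21 → B (ρ (g' ^ j) r) r = 0 := by
  obtain ⟨r, hr, h2, hw, h1⟩ := H.exists_good_root hr h2 hw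
  obtain ⟨j, h0, h23, hj⟩ : ∃ j, 0 < j ∧ j < 23 ∧ B (ρ (g ^ j) r) r = -1 := by
    by_contra hc
    push Not at hc
    have := H.sum_c hw r
    rw [Finset.sum_range_succ', Finset.sum_eq_zero fun j hj => (H.c_le hr h2 hw h1 (Nat.succ_pos j)
      (by have := Finset.mem_range.1 hj; omega)).resolve_right
      (hc _ (Nat.succ_pos j) (by have := Finset.mem_range.1 hj; omega))] at this
    simp [h2] at this
  have H' := H.pow h0 h23
  have h1' : ∀ n : ℕ, B (ρ ((g ^ j) ^ n) r) r ≠ 1 := fun n => by rw [← pow_mul]; exact h1 _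
  generalize g ^ j = k at H' h1' hj
  refine ⟨k, H', r, hr, h2, hw, hj, fun i hi1 hi2 => ?_⟩
  have hs := H'.sum_c hw r
  have h22 : B (ρ (k ^ 22) r) r = -1 := by
    rw [← H.rep.inv k, ← Module.End.mul_apply, ← map_mul, ← pow_succ', H'.g23, map_one,
      H.rep.pd.symm]
    exact hj
  rw [Finset.sum_range_succ, Finset.sum_range_succ', Finset.sum_range_succ', h22] at hs
  simp only [zero_add, pow_one, hj, pow_zero, map_one, Module.End.one_apply, h2] at hs
  have hs' : ∑ i ∈ Finset.range 20, B (ρ (k ^ (i + 1 + 1)) r) r = 0 := by linarith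
  rw [Finset.sum_eq_zero_iff_of_nonpos fun i hi => by
    have := Finset.mem_range.1 hi
    rcases H'.c_le hr h2 hw h1' (j := i + 1 + 1) (by omega) (by omega) with e | e <;> rw [e] <;>
      norm_num] at hs'
  have := hs' (i - 2) (Finset.mem_range.2 (by omega))
  rwa [show i - 2 + 1 + 1 = i by omega] at this

theorem exists_simplex {r : V} (hr : r ∈ L) (h2 : B r r = 2) (hw : B r w = 0)
    (h1 : B (ρ g r) r = -1) (h0 : ∀ j, 2 ≤ j → j ≤ 21 → B (ρ (g ^ j) r) r = 0) :
    ∃ y, ρ g y - y ∈ L ∧ B y w = 0 ∧ B y y = 22 / 23 ∧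
      ∀ j, 0 < j → j < 23 → B (ρ (g ^ j) y) y = -1 / 23 := by
  let F : V →ₗ[ℚ] V := ρ g - 1 + (B.flip w).smulRight w
  have hF : ∀ x, F x = ρ g x - x + B x w • w := fun x => rfl
  have hFw : ∀ x, B (F x) w = B x w * B w w := fun x => by
    have := H.B_pow x 1
    rw [pow_one] at this
    simp [hF, this]
  have hp := H.rep.pd.pos w H.w0
  have hinj : Function.Injective F := by
    rw [← LinearMap.ker_eq_bot, LinearMap.ker_eq_bot']
    intro x hx
    have e := hFw x
    rw [hx, map_zero, LinearMap.zero_apply, eq_comm, mul_eq_zero] at e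
    have e' := e.resolve_right hp.ne'
    rw [hF, e', zero_smul, add_zero, sub_eq_zero] at hx
    exact H.eq_zero_of_fix hx e'
  obtain ⟨y, hy⟩ := LinearMap.injective_iff_surjective.1 hinj r
  have e := hFw y
  rw [hy, hw, eq_comm, mul_eq_zero] at e
  have hyw := e.resolve_right hp.ne'
  rw [hF, hyw, zero_smul, add_zero] at hy
  let a : ℕ → ℚ := fun j => B (ρ (g ^ j) y) y
  have hc : ∀ j, B (ρ (g ^ (j + 1)) r) r = 2 * a (j + 1) - a (j + 2) - a j := by
    intro j
    have e1 : ρ (g ^ (j + 1)) (ρ g y) = ρ (g ^ (j + 2)) y := by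
      rw [← Module.End.mul_apply, ← map_mul, ← pow_succ]
    have e2 : ∀ i, B (ρ (g ^ (i + 1)) y) (ρ g y) = a i := fun i => by
      rw [pow_succ', map_mul, Module.End.mul_apply, H.rep.inv]
    rw [← hy]
    simp only [map_sub, LinearMap.sub_apply, e1, e2, a]
    ring
  have ha0 : a 0 = B y y := by simp [a]
  have ha1 : a 1 = a 0 - 1 := by
    rw [← hy] at h2
    simp only [map_sub, LinearMap.sub_apply, H.rep.inv, H.rep.pd.symm y (ρ g y)] at h2
    simp only [a, pow_one, pow_zero, map_one, Module.End.one_apply]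
    linarith
  have ha : ∀ j, j ≤ 20 → a (j + 1) = a 1 ∧ a (j + 2) = a 1 := by
    intro j
    induction j with
    | zero =>
      have := hc 0
      rw [zero_add, pow_one, h1] at this
      exact fun _ => ⟨rfl, by linarith⟩
    | succ j ih =>
      intro hj
      obtain ⟨i1, i2⟩ := ih (by omega)
      have := hc (j + 1)
      rw [h0 _ (by omega) (by omega)] at this
      exact ⟨i2, by linarith⟩
  have ha' : ∀ j, 0 < j → j < 23 → a j = a 1 := by
    intro j h0 h1
    by_cases h : j = 22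
    · rw [h]; exact (ha 20 le_rfl).2
    · have := (ha (j - 1) (by omega)).1
      rwa [show j - 1 + 1 = j by omega] at this
  have hs : ∑ j ∈ Finset.range 23, a j = 0 := H.sum_c hyw y
  rw [Finset.sum_range_succ', Finset.sum_congr rfl fun j hj => ha' (j + 1) (Nat.succ_pos j)
    (by have := Finset.mem_range.1 hj; omega)] at hs
  simp only [Finset.sum_const, Finset.card_range, nsmul_eq_mul] at hs
  push_cast at hs
  refine ⟨y, hy ▸ hr, hyw, by rw [← ha0]; linarith, fun j h0 h1 => ?_⟩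
  show a j = _
  rw [ha' j h0 h1]; linarith

end Core

end H41.Ft
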