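/- The case where the vectors orthogonal to the fixed line contain a root (conclusion). -/
import Cfsg.Agent.H41.FtRoot

set_option autoImplicit false

namespace H41.Ft

open Module Submodule

variable {G V : Type*} [Group G] [Fintype G] [AddCommGroup V] [Module ℚ V] [FiniteDimensional ℚ V]
variable {ρ : Representation ℚ G V} {B : LinearMap.BilinForm ℚ V} {L : Submodule ℤ V}

/-- A regular simplex permuted by `g`. -/
structure Simplex (ρ : Representation ℚ G V) (B : LinearMap.BilinForm ℚ V) (L : Submodule ℤ V)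
    (g : G) (w : V) (D : ℕ) (y : V) : Prop extends Core ρ B L g w D where
  mem : ρ g y - y ∈ L
  yw : B y w = 0
  yy : B y y = 22 / 23
  yj : ∀ j, 0 < j → j < 23 → B (ρ (g ^ j) y) y = -1 / 23

theorem Core.simplex {g : G} {w : V} {D : ℕ} (H : Core ρ B L g w D) {r : V} (hr : r ∈ L)
    (h2 : B r r = 2) (hw : B r w = 0) : ∃ g' y, Simplex ρ B L g' w D y := by
  obtain ⟨k, H', r, hr, h2, hw, h1, h0⟩ := H.exists_cycle hr h2 hw
  obtain ⟨y, a, b, c, d⟩ := H'.exists_simplex hr h2 hw h1 h0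
  exact ⟨k, y, H', a, b, c, d⟩

theorem Core.exists_root {g : G} {w : V} {D : ℕ} (H : Core ρ B L g w D) {r : V} (hr : r ∈ L)
    (h2 : B r r = 2) : ∃ r ∈ L, B r r = 2 ∧ B r w ≠ 0 := by
  by_contra hc
  push Not at hc
  have hr0 : r ≠ 0 := by rintro rfl; simp at h2
  refine hr0 (H.rep.pd.eq_zero ?_)
  rcases H.rep.irr (span ℚ (Set.range fun h => ρ h r)) (fun h x hx => by
    induction hx using Submodule.span_induction with
    | mem x hx =>
      obtain ⟨k, rfl⟩ := hx
      exact subset_span ⟨h * k, by simp [map_mul]⟩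
    | zero => simp
    | add x y _ _ hx hy => rw [map_add]; exact add_mem hx hy
    | smul a x _ hx => rw [map_smul]; exact smul_mem _ _ hx) with e | e
  · have : r ∈ span ℚ (Set.range fun h => ρ h r) := subset_span ⟨1, by simp⟩
    rw [e, mem_bot] at this
    exact absurd this hr0
  · have : B.flip w = 0 := LinearMap.ext_on e (by
      rintro _ ⟨k, rfl⟩
      exact hc _ (H.inv k r hr) (by rw [H.rep.inv, h2]))
    exact absurd (LinearMap.congr_fun this w) (H.rep.pd.pos w H.w0).ne'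

namespace Simplex
variable {g : G} {w : V} {D : ℕ} {y : V} (H : Simplex ρ B L g w D y)
include H

theorem gram {i j : ℕ} (hi : i < 23) (hj : j < 23) :
    B (ρ (g ^ i) y) (ρ (g ^ j) y) = (if i = j then 1 else 0) - 1 / 23 := by
  wlog h : j ≤ i generalizing i j
  · rw [H.rep.pd.symm, this hj hi (by omega)]
    simp only [eq_comm]
  obtain ⟨k, rfl⟩ := Nat.exists_eq_add_of_le h
  rw [pow_add, map_mul, Module.End.mul_apply, H.rep.inv]
  by_cases hk : k = 0
  · simp [hk, H.yy]; norm_num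
  · rw [H.yj k (by omega) (by omega), if_neg (by omega)]; norm_num

theorem parseval (z : V) :
    B z z = ∑ j ∈ Finset.range 23, B z (ρ (g ^ j) y) ^ 2 + D / 23 * B z w ^ 2 := by
  have hD := H.Dq
  let v : Fin 23 → V := fun j => ρ (g ^ (j : ℕ)) y
  have hv : ∀ i j, B (v i) (v j) = (if i = j then 1 else 0) - 1 / 23 := fun i j => by
    simp only [v, H.gram i.2 j.2, Fin.ext_iff]
  have hvw : ∀ i, B (v i) w = 0 := fun i => by simp only [v, H.B_pow, H.yw]
  have hsum : ∑ i, v i = 0 := by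
    have := H.nrm_eq_zero H.yw
    rwa [nrm, Finset.sum_range] at this
  have hli : LinearIndependent ℚ fun i => v i + w := by
    rw [Fintype.linearIndependent_iff]
    intro a ha i
    have h1 := congrArg (fun x => B x w) ha
    simp only [map_sum, map_smul, map_add, LinearMap.sum_apply, LinearMap.smul_apply,
      LinearMap.add_apply, hvw, zero_add, smul_eq_mul, ← Finset.sum_mul, map_zero,
      LinearMap.zero_apply, mul_eq_zero, (H.rep.pd.pos w H.w0).ne', or_false] at h1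
    have h2 := congrArg (fun x => B x (v i)) ha
    simp only [map_sum, map_smul, map_add, LinearMap.sum_apply, LinearMap.smul_apply,
      LinearMap.add_apply, hv, H.rep.pd.symm w, hvw, add_zero, smul_eq_mul, mul_sub,
      Finset.sum_sub_distrib, ← Finset.sum_mul, h1, map_zero, LinearMap.zero_apply] at h2
    simpa using h2
  let b := basisOfLinearIndependentOfCardEqFinrank hli (by simp [H.rep.dim])
  let P : V →ₗ[ℚ] V := ∑ j, (B.flip (v j)).smulRight (v j) + ((D / 23 : ℚ) • B.flip w).smulRight w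
  have hP : ∀ x, P x = ∑ j, B x (v j) • v j + (D / 23 * B x w) • w := fun x => by
    simp [P, LinearMap.sum_apply]
  have : P = LinearMap.id := b.ext fun i => by
    rw [hP, show b i = v i + w by simp [b], LinearMap.id_apply]
    simp only [map_add, LinearMap.add_apply, hv, H.rep.pd.symm w (v _), hvw, add_zero, zero_add,
      H.ww, sub_smul, Finset.sum_sub_distrib, ← Finset.smul_sum, hsum, smul_zero, sub_zero]
    rw [show (D / 23 * (23 / D) : ℚ) = 1 by field_simp]
    simp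
  have h := hP z
  rw [this, LinearMap.id_apply] at h
  conv_lhs => enter [2]; rw [h]
  simp only [map_add, map_sum, map_smul, smul_eq_mul, Finset.sum_range, v]
  congr 1
  · exact Finset.sum_congr rfl fun j _ => by ring
  · ring

theorem coords {z : V} (hz : ∀ j, j < 23 → ∃ m : ℤ, B z (ρ (g ^ j) y - y) = m) :
    ∃ s N : ℤ, B z y = -s / 23 ∧ 23 * B z z = N + D * B z w ^ 2 ∧ 23 ∣ N + s ^ 2 ∧
      (N = 0 ∨ N = 22 ∨ N = 42 ∨ 46 ≤ N) := by
  choose! m hm using hz
  obtain ⟨N, hN, h⟩ := int_norm m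
  have h1 : ∀ j ∈ Finset.range 23, B z (ρ (g ^ j) y) = B z y + m j := fun j hj => by
    rw [← hm j (Finset.mem_range.1 hj), map_sub]; ring
  have h2 := H.sum_c H.yw z
  simp only [H.rep.pd.symm _ z] at h2
  rw [Finset.sum_congr rfl h1, Finset.sum_add_distrib] at h2
  simp only [Finset.sum_const, Finset.card_range, nsmul_eq_mul] at h2
  have h3 : B z y = -(∑ j ∈ Finset.range 23, m j : ℤ) / 23 := by
    push_cast at h2 ⊢
    linarith
  refine ⟨_, N, h3, ?_, ⟨_, by rw [hN, sub_add_cancel]⟩, h⟩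
  rw [H.parseval, Finset.sum_congr rfl fun j hj => by rw [h1 j hj, add_sq], Finset.sum_add_distrib,
    Finset.sum_add_distrib, ← Finset.mul_sum, hN]
  simp only [Finset.sum_const, Finset.card_range, nsmul_eq_mul]
  push_cast at h3 ⊢
  rw [h3]
  ring

theorem s_mem (j : ℕ) : ρ (g ^ j) y - y ∈ L := pow_sub_mem (H.inv g) H.mem j

theorem coords_dual {z : V} (hz : z ∈ dual B L) :
    ∃ s N : ℤ, B z y = -s / 23 ∧ 23 * B z z = N + D * B z w ^ 2 ∧ 23 ∣ N + s ^ 2 ∧
      (N = 0 ∨ N = 22 ∨ N = 42 ∨ 46 ≤ N) :=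
  H.coords fun j _ => mem_dual.1 hz _ (H.s_mem j)

theorem root_cases (hD : D = 2 ∨ D = 4 ∨ D = 6 ∨ D = 12) {r : V} (hr : r ∈ L) (h2 : B r r = 2) :
    B r w = 0 ∨ (D = 6 ∧ (B r w = 2 ∨ B r w = -2)) ∨ (D = 4 ∧ (B r w = 1 ∨ B r w = -1)) := by
  obtain ⟨s, N, -, h1, -, h3⟩ := H.coords_dual (H.int hr)
  obtain ⟨i, hi⟩ := mem_dual.1 H.wd r hr
  rw [H.rep.pd.symm] at hi
  rw [hi, h2] at h1
  have h4 : 46 = N + D * i ^ 2 := by exact_mod_cast (by linarith : (46 : ℚ) = N + D * i ^ 2)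
  rw [hi]
  have h5 : i ^ 2 ≤ 23 := by rcases hD with rfl | rfl | rfl | rfl <;> push_cast at h4 <;> omega
  have : -5 < i := by nlinarith
  have : i < 5 := by nlinarith
  rcases hD with rfl | rfl | rfl | rfl <;> interval_cases i <;> simp <;> omega

theorem six (hidx : ∀ K : Subgroup G, K.index ≠ 23 ∧ K.index ≠ 24) (hD : D = 6) : False := by
  subst hD
  refine H.rep.not_simplex hidx H.w0 fun h => ?_
  obtain ⟨s, N, -, h1, -, h3⟩ := H.coords (z := (1 / 2 : ℚ) • ρ h w) fun j hj => by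
    rw [map_smul, LinearMap.smul_apply, H.rep.inv', H.rep.pd.symm]
    by_cases h0 : j = 0
    · exact ⟨0, by simp [h0]⟩
    have h2 : B (ρ h⁻¹ (ρ (g ^ j) y - y)) (ρ h⁻¹ (ρ (g ^ j) y - y)) = 2 := by
      rw [H.rep.inv]
      simp only [map_sub, LinearMap.sub_apply, H.rep.inv, H.rep.pd.symm y (ρ (g ^ j) y), H.yy,
        H.yj j (by omega) hj]
      norm_num
    rcases H.root_cases (by norm_num) (H.inv _ _ (H.s_mem j)) h2 with e | ⟨-, e | e⟩ | ⟨e, -⟩
    · exact ⟨0, by rw [e]; norm_num⟩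
    · exact ⟨1, by rw [e]; norm_num⟩
    · exact ⟨-1, by rw [e]; norm_num⟩
    · norm_num at e
  obtain ⟨k, hk⟩ := H.kint (H.dual_inv h H.wd)
  simp only [map_smul, LinearMap.smul_apply, smul_eq_mul, H.rep.inv, hk, H.ww] at h1 ⊢
  have h4 : 529 = 24 * N + k ^ 2 := by
    exact_mod_cast (by push_cast at h1; linarith : (529 : ℚ) = 24 * N + k ^ 2)
  have h5 := sq_nonneg k
  have : k ^ 2 = 529 ∨ k ^ 2 = 1 := by omega
  rcases this with e | e
  · left
    have : (k : ℚ) ^ 2 = 529 := by exact_mod_cast e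
    rw [div_pow, this]; norm_num
  · right
    have : (k : ℚ) ^ 2 = 1 := by exact_mod_cast e
    rw [div_pow, this]; norm_num

theorem four (hidx : ∀ K : Subgroup G, K.index ≠ 23 ∧ K.index ≠ 24) (hD : D = 4) {r : V}
    (hr : r ∈ L) (h2 : B r r = 2) (h1 : B r w = 1) : False := by
  subst hD
  obtain ⟨s, N, hs, hN, hd, -⟩ := H.coords_dual (H.int hr)
  rw [h1, h2] at hN
  have hN' : N = 42 := by exact_mod_cast (by push_cast at hN; linarith : (N : ℚ) = 42)
  subst hN'
  obtain ⟨n, t, ht, hnt⟩ : ∃ n t : ℤ, (t = 2 ∨ t = -2) ∧ s + 23 * n = t := by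
    have : (23 : ℤ) ∣ (s - 2) * (s + 2) := by
      obtain ⟨c, hc⟩ := hd
      exact ⟨c - 2, by linear_combination hc⟩
    rcases (by norm_num : Prime (23 : ℤ)).dvd_or_dvd this with ⟨c, hc⟩ | ⟨c, hc⟩
    · exact ⟨-c, 2, Or.inl rfl, by linarith⟩
    · exact ⟨-c, -2, Or.inr rfl, by linarith⟩
  have ht2 : (t : ℚ) ^ 2 = 4 := by rcases ht with rfl | rfl <;> norm_num
  let x : V := y + (t / 23 : ℚ) • w
  have hx : ∀ z, B z x = B z y + t / 23 * B z w := fun z => by simp [x]
  have hxr : B r x = n := by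
    rw [hx, hs, h1, ← hnt]; push_cast; ring
  have hxd : x ∈ dual B L := mem_dual.2 fun l hl => by
    obtain ⟨i, hi⟩ := mem_dual.1 H.wd l hl
    have hl1 : l - i • r ∈ L := sub_mem hl (smul_mem _ _ hr)
    have hw1 : B (l - i • r) w = 0 := by
      rw [H.rep.pd.symm] at hi
      simp [hi, h1]
    obtain ⟨s1, N1, hs1, hN1, hd1, -⟩ := H.coords_dual (H.int hl1)
    obtain ⟨e, he⟩ := H.even _ hl1
    rw [hw1, he] at hN1
    have h3 : N1 = 46 * e := by exact_mod_cast (by linarith : (N1 : ℚ) = 46 * e)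
    obtain ⟨c, hc⟩ : (23 : ℤ) ∣ s1 :=
      (by norm_num : Prime (23 : ℤ)).dvd_of_dvd_pow (n := 2)
        ((dvd_add_right ⟨2 * e, by rw [h3]; ring⟩).1 hd1)
    have h4 := hx (l - i • r)
    rw [hs1, hw1, hc] at h4
    refine ⟨i * n - c, ?_⟩
    simp only [map_sub, LinearMap.sub_apply, map_zsmul, LinearMap.smul_apply, zsmul_eq_mul,
      hxr] at h4
    rw [H.rep.pd.symm]
    push_cast at h4 ⊢
    linarith
  have hxw : B x w = t / 4 := by
    rw [H.rep.pd.symm, hx, H.rep.pd.symm w y, H.yw, H.ww]; push_cast; ring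
  have hxx : B x x = 1 := by
    rw [hx, hxw, H.rep.pd.symm, hx, H.yy, H.yw]
    linear_combination (1 / 92 : ℚ) * ht2
  obtain ⟨c, hc⟩ := (H.gen x).1 hxd
  have hc2 : (2 : ℤ) ∣ c := by
    obtain ⟨m, hm⟩ := mem_dual.1 H.wd _ hc
    rw [H.rep.pd.symm] at hm
    simp only [map_sub, LinearMap.sub_apply, map_zsmul, LinearMap.smul_apply, zsmul_eq_mul, hxw,
      H.ww] at hm
    have : t - 23 * c = 4 * m := by
      exact_mod_cast (by push_cast at hm; linarith : (t - 23 * c : ℚ) = 4 * m)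
    omega
  refine H.rep.not_orth hidx (w := x) (by rintro e; rw [e] at hxx; simp at hxx) fun h => ?_
  obtain ⟨c', hc', hd'⟩ := H.cls h
  have h3 : (2 : ℤ) ∣ c' - 1 := by
    have h2 : (2 : ℤ) ∣ (c' - 1) * (c' + 1) :=
      (Dvd.intro _ rfl).trans (hd'.trans (dvd_of_eq (by ring)))
    rcases Int.prime_two.dvd_or_dvd h2 with h | h <;> omega
  have h4 := H.sub_mem_of_dvd (s := 1) (a := c) hc' (mul_dvd_mul hc2 h3)
  have h5 : ρ h x - x ∈ L := by
    have := add_mem (sub_mem (H.inv h _ hc) hc) h4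
    convert this using 1
    rw [map_sub]; module
  obtain ⟨m, hm⟩ := mem_dual.1 hxd _ h5
  rw [map_sub, hxx, H.rep.pd.symm] at hm
  have h6 := H.rep.pd.cs (ρ h x) x
  rw [H.rep.inv, hxx, show B (ρ h x) x = (m + 1 : ℤ) by push_cast; linarith] at *
  have h7 : (m + 1) ^ 2 ≤ 1 * 1 := by exact_mod_cast h6
  generalize m + 1 = k at *
  have : -1 ≤ k := by nlinarith
  have : k ≤ 1 := by nlinarith
  interval_cases k <;> simp

end Simplex

theorem Core.no_root {g : G} {w : V} {D : ℕ} (H : Core ρ B L g w D)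
    (hidx : ∀ K : Subgroup G, K.index ≠ 23 ∧ K.index ≠ 24) (hD : D = 2 ∨ D = 4 ∨ D = 6 ∨ D = 12)
    {r : V} (hr : r ∈ L) (hw : B r w = 0) : B r r ≠ 2 := by
  intro h2
  obtain ⟨k, y, S⟩ := H.simplex hr h2 hw
  obtain ⟨r', hr', h2', hw'⟩ := H.exists_root hr h2
  rcases S.root_cases hD hr' h2' with e | ⟨e, -⟩ | ⟨e, h | h⟩
  · exact hw' e
  · exact S.six hidx e
  · exact S.four hidx e hr' h2' h
  · exact S.four hidx e (neg_mem hr') (by simpa using h2') (by simp [h])

end H41.Ft
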