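/- Rational representations of degree 23: the four cases. -/
import Cfsg.Agent.H41.FtRoot2
import Cfsg.Agent.H41.FtGlue
import Cfsg.Agent.S0400
import Cfsg.Agent.S0401
import Cfsg.Agent.S1569
import Cfsg.Agent.S5592

set_option autoImplicit false

namespace H41.Ft

open Module Submodule Cfsg

variable {G V : Type*} [Group G] [Fintype G] [AddCommGroup V] [Module ℚ V] [FiniteDimensional ℚ V]
variable {ρ : Representation ℚ G V} {B : LinearMap.BilinForm ℚ V} {L : Submodule ℤ V}

theorem sqNorm_sub (x y : GolayPt → ℤ) : sqNorm (x - y) = sqNorm x + sqNorm y - 2 * dotInt x y := by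
  simp only [sqNorm, dotInt, Finset.mul_sum, ← Finset.sum_add_distrib, ← Finset.sum_sub_distrib]
  exact Finset.sum_congr rfl fun i _ => by simp only [Pi.sub_apply]; ring

theorem sqNorm_two (x : GolayPt → ℤ) : sqNorm (2 • x) = 4 * sqNorm x := by
  simp only [sqNorm, Finset.mul_sum]
  exact Finset.sum_congr rfl fun i _ => by simp only [Pi.smul_apply, nsmul_eq_mul]; push_cast; ring

theorem exists_half {x : GolayPt → ℤ} (hx : x ∈ leechLattice) (h : sqNorm x = 64) :
    ∃ z ∈ leechLattice, sqNorm z = 32 ∧ sqNorm (x - 2 • z) = 64 := by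
  have h48 := Cfsg.Agent.S1569.result x hx h
  obtain ⟨y, hy, hy'⟩ : ∃ y ∈ cross x, y ∉ ({x, -x} : Set (GolayPt → ℤ)) := by
    by_contra hc
    push Not at hc
    have := Set.ncard_le_ncard hc (Set.toFinite _)
    have h2 := Set.ncard_insert_le x {-x}
    rw [Set.ncard_singleton] at h2
    omega
  obtain ⟨h1, h2, z, hz, e⟩ := hy
  simp only [Set.mem_insert_iff, Set.mem_singleton_iff, not_or] at hy'
  rcases Cfsg.Agent.S5592.result x y hx h1 (Ne.symm hy'.1) h.le (by rw [h2, h]) ⟨z, hz, e⟩ with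
    h3 | ⟨-, h4, h5⟩
  · exact absurd (by rw [h3, neg_neg]) hy'.2
  · refine ⟨z, hz, ?_, by rw [← e, sub_sub_cancel, h4]⟩
    have := sqNorm_sub x y
    rw [e, sqNorm_two, h, h4, h5] at this
    omega

namespace Core
variable {g : G} {w : V} {D : ℕ} (H : Core ρ B L g w D)
  (hr : ∀ r ∈ L, B r w = 0 → B r r ≠ 2)
include H hr

theorem dich {x : V} (t : ℚ) (hx : x - t • w ∈ L) :
    23 * B x x = D * B x w ^ 2 ∨ 44 ≤ 23 * B x x - D * B x w ^ 2 := by
  have hD := H.Dq
  by_cases h : ρ g x = x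
  · left
    obtain ⟨s, rfl⟩ := (H.fix x).1 h
    simp only [map_smul, LinearMap.smul_apply, smul_eq_mul, H.ww]
    field_simp
  · right
    have := H.rep.lower H.g23 H.w0 H.fix h 4 fun j hj => by
      have hm : ρ (g ^ j) x - x ∈ L := by
        have := sub_mem (H.inv (g ^ j) _ hx) hx
        rw [map_sub, map_smul, pow_fix H.gw] at this
        convert this using 1
        abel
      have h2 := hr _ hm (by rw [map_sub, LinearMap.sub_apply, H.B_pow, sub_self])
      have h3 := H.two_le hm hj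
      obtain ⟨n, hn⟩ := H.even _ hm
      rw [hn] at h2 h3 ⊢
      have h2' : 2 * n ≠ 2 := by exact_mod_cast h2
      have h3' : 2 ≤ 2 * n := by exact_mod_cast h3
      exact_mod_cast (by omega : 4 ≤ 2 * n)
    rw [H.ww] at this
    have e : B x w ^ 2 / (23 / D) = D * B x w ^ 2 / 23 := by field_simp
    rw [e] at this
    linarith

theorem twelve (hidx : ∀ K : Subgroup G, K.index ≠ 23 ∧ K.index ≠ 24) (hD : D = 12) : False := by
  subst hD
  refine H.rep.not_simplex hidx H.w0 fun h => ?_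
  obtain ⟨k, hk⟩ := H.kint (H.dual_inv h H.wd)
  obtain ⟨c, hc, -⟩ := H.cls h
  have h1 := H.k_odd hk
  have h2 := H.dich hr (x := ρ h w) c (by rwa [Int.cast_smul_eq_zsmul])
  rw [H.rep.inv, hk, H.ww] at *
  push_cast at *
  rcases h2 with e | e
  · left; linarith
  · right
    have h3 : k ^ 2 ≤ 1 := by exact_mod_cast (by linarith : (k : ℚ) ^ 2 ≤ 1)
    have : -1 ≤ k := by nlinarith
    have : k ≤ 1 := by nlinarith
    interval_cases k <;> first | omega | norm_num

theorem glue_46 (hD : D = 4 ∨ D = 6) :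
    ∃ f : glue L w D ≃+ leechLattice, ∀ x : glue L w D,
      (sqNorm ((f x : leechLattice) : GolayPt → ℤ) : ℚ) = 8 * sumForm B D x x := by
  haveI := H.lat
  refine glue_leech H.rep.dim H.rep.pd L H.int H.even H.wd H.pos ((H.ord _).2 dvd_rfl)
    (fun x hx => (H.gen x).1 hx) (m := 12 / D) (by
      rw [H.ww]; rcases hD with rfl | rfl <;> norm_num) fun x j hx e => ?_
  obtain ⟨i, hi⟩ := mem_dual.1 H.wd _ hx
  rw [H.rep.pd.symm] at hi
  simp only [map_sub, LinearMap.sub_apply, map_zsmul, LinearMap.smul_apply, zsmul_eq_mul,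
    H.ww] at hi
  have hD0 := H.Dq
  have hxw : B x w = (D * i + 23 * j : ℤ) / D := by
    push_cast; field_simp; field_simp at hi; linarith
  have hxx : B x x = 2 - j ^ 2 / D := by linarith
  rcases H.dich hr (x := x) j (by rwa [Int.cast_smul_eq_zsmul]) with h | h
  · rw [hxw, hxx] at h
    have h1 : (D * i + 23 * j) ^ 2 + 23 * j ^ 2 = 46 * D := by
      have : ((D * i + 23 * j : ℤ) : ℚ) ^ 2 + 23 * j ^ 2 = 46 * D := by
        field_simp at h; linarith
      exact_mod_cast this
    generalize D * i + 23 * j = a at h1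
    obtain ⟨b, rfl⟩ : (23 : ℤ) ∣ a := (by norm_num : Prime (23 : ℤ)).dvd_of_dvd_pow (n := 2)
      ⟨2 * D - j ^ 2, by linarith⟩
    have h2 : 23 * b ^ 2 + j ^ 2 = 2 * D := by linarith
    have h3 := sq_nonneg b
    have h4 := sq_nonneg j
    have h5 : j ^ 2 = 2 * D := by rcases hD with rfl | rfl <;> push_cast at * <;> omega
    have : -4 < j := by rcases hD with rfl | rfl <;> push_cast at * <;> nlinarith
    have : j < 4 := by rcases hD with rfl | rfl <;> push_cast at * <;> nlinarith
    rcases hD with rfl | rfl <;> interval_cases j <;> omega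
  · rw [hxw, hxx] at h
    have h1 : (D * i + 23 * j) ^ 2 + 23 * j ^ 2 ≤ 2 * D := by
      have : ((D * i + 23 * j : ℤ) : ℚ) ^ 2 + 23 * j ^ 2 ≤ 2 * D := by
        have e : 23 * (2 - (j : ℚ) ^ 2 / D) - D * (((D * i + 23 * j : ℤ) : ℚ) / D) ^ 2 =
            46 - (((D * i + 23 * j : ℤ) : ℚ) ^ 2 + 23 * j ^ 2) / D := by
          field_simp; ring
        rw [e] at h
        rw [← div_le_iff₀ hD0]
        linarith
      exact_mod_cast this
    have h3 := sq_nonneg (D * i + 23 * j)
    have h4 := sq_nonneg j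
    have h5 : j = 0 := by
      have : j ^ 2 = 0 := by rcases hD with rfl | rfl <;> push_cast at * <;> omega
      simpa using this
    subst h5
    have h6 : i = 0 := by
      by_contra h6
      have := Int.one_le_abs h6
      have := sq_abs i
      rcases hD with rfl | rfl <;> push_cast at * <;> nlinarith
    subst h6
    exact hr x (by simpa using hx) (by simpa using hxw) (by simpa using hxx)

theorem embed_46 (hD : D = 4 ∨ D = 6) {u : leechLattice}
    (hu : ∀ v : leechLattice, sqNorm (v : GolayPt → ℤ) = 8 * D → ∃ t : Co0, t • v = u) :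
    ∃ f : G →* Multiplicative (ZMod 2) ×
      (Co0 ⊓ MulAction.stabilizer (Equiv.Perm leechLattice) u : Subgroup _),
      Function.Injective f := by
  obtain ⟨f, hf⟩ := H.glue_46 hr hD
  obtain ⟨ε, hε⟩ := exists_sign H.inv (v := w) (fun h => by
    obtain ⟨c, hc, hd⟩ := H.cls h
    have : (D : ℤ) ∣ 1 * (c - 1) ∨ (D : ℤ) ∣ 1 * (c - -1) := by
      obtain ⟨k, hk⟩ := hd
      have h1 : c = 12 * (c / 12) + c % 12 := (Int.mul_ediv_add_emod c 12).symm
      have h2 : 0 ≤ c % 12 := Int.emod_nonneg _ (by norm_num)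
      have h3 : c % 12 < 12 := Int.emod_lt_of_pos _ (by norm_num)
      generalize c % 12 = r at h1 h2 h3
      generalize c / 12 = q at h1
      have h4 : c ^ 2 = 12 * (12 * q ^ 2 + 2 * q * r) + r ^ 2 := by rw [h1]; ring
      generalize 12 * q ^ 2 + 2 * q * r = T at h4
      rcases hD with rfl | rfl <;> push_cast at * <;> interval_cases r <;> omega
    rcases this with h | h
    · left; simpa using H.sub_mem_of_dvd hc h
    · right; simpa using H.sub_mem_of_dvd hc h) (by
      rw [H.ord]; rcases hD with rfl | rfl <;> norm_num)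
  let τ : G → glue L w D →+ glue L w D := fun h => AddMonoidHom.mk'
    (fun p => ⟨((ε h : ℤ) • ρ h p.1.1, p.1.2), by
      obtain ⟨j, hj, hj'⟩ := p.2
      refine ⟨j, ?_, hj'⟩
      convert add_mem (smul_mem _ (ε h : ℤ) (H.inv h _ hj)) (smul_mem _ j (hε h)) using 1
      simp only [map_sub, map_zsmul]; module⟩)
    fun p q => Subtype.ext (Prod.ext (by simp) rfl)
  have hτ : ∀ h p, (τ h p).1 = ((ε h : ℤ) • ρ h p.1.1, p.1.2) := fun h p => rfl
  let v : glue L w D := ⟨(0, 1), v_mem_glue H.pos ((H.ord _).2 dvd_rfl)⟩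
  obtain ⟨t, ht⟩ := hu (f v) (by
    have := hf v
    simp only [sumForm_apply, v, map_zero, zero_add, mul_one] at this
    exact_mod_cast this)
  obtain ⟨ψ, hψ⟩ := embed (fun x : glue L w D => sumForm B D x x) f hf τ
    (fun x => Subtype.ext (by simp [hτ]))
    (fun a b x => Subtype.ext (by simp [hτ, smul_smul]))
    (fun h x => by
      simp only [hτ, sumForm_apply, map_zsmul, LinearMap.smul_apply, H.rep.inv, smul_smul]
      rw [Int.units_coe_mul_self, one_smul])
    (v := v) (fun h => Subtype.ext (by simp [hτ, v])) t ht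
  let δ : ℤˣ ≃* Multiplicative (ZMod 2) := mulEquivOfPrimeCardEq (p := 2) (by simp) (by simp)
  refine ⟨(δ.toMonoidHom.comp ε).prod ψ, (injective_iff_map_eq_one _).2 fun h hh => ?_⟩
  have h1 : ε h = 1 := δ.map_eq_one_iff.1 (congrArg Prod.fst hh)
  have h2 := hψ h (congrArg Prod.snd hh)
  haveI := H.lat
  refine H.rep.inj h (LinearMap.ext_on (IsLattice.span_eq_top (A := ℚ) (M := L)) fun x hx => ?_)
  have := congrArg (fun p : glue L w D => p.1.1) (h2 ⟨(x, 0), 0, by simpa using hx, by simp⟩)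
  simpa [hτ, h1] using this

theorem two_root (hD : D = 2) : ∃ r ∈ L, B r r = 2 := by
  subst hD
  haveI := H.lat
  have hww : B w w = 23 / 2 := by rw [H.ww]; norm_num
  let M : Submodule ℤ V :=
    { carrier := {x | x ∈ L ∧ ∃ n : ℤ, B x w = 2 * n}
      add_mem' := by
        rintro a b ⟨ha, n, hn⟩ ⟨hb, m, hm⟩
        exact ⟨add_mem ha hb, n + m, by simp [hn, hm, mul_add]⟩
      zero_mem' := ⟨zero_mem _, 0, by simp⟩
      smul_mem' := by
        rintro c a ⟨ha, n, hn⟩
        exact ⟨smul_mem _ _ ha, c * n, by simp [hn]; ring⟩ }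
  have hML : M ≤ L := fun x hx => hx.1
  have hint : ∀ x ∈ L, ∃ n : ℤ, B x w = n := fun x hx => by
    rw [H.rep.pd.symm]; exact mem_dual.1 H.wd x hx
  haveI : IsLattice ℚ M := isLattice_of_smul_mem hML two_ne_zero fun x hx => by
    obtain ⟨n, hn⟩ := hint x hx
    exact ⟨smul_mem _ _ hx, n, by rw [map_zsmul, LinearMap.smul_apply, hn]; simp⟩
  have h2w : (2 : ℤ) • w ∈ L := (H.ord 2).2 dvd_rfl
  have hdec : ∀ x ∈ L, ∃ n : ℤ, x - (2 * n) • w ∈ M := fun x hx => by
    obtain ⟨n, hn⟩ := hint x hx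
    refine ⟨n, sub_mem hx ((H.ord _).2 ⟨n, rfl⟩), -11 * n, ?_⟩
    simp only [map_sub, LinearMap.sub_apply, map_zsmul, LinearMap.smul_apply, zsmul_eq_mul, hn, hww]
    push_cast; ring
  have h4w : ∀ n : ℤ, (4 * n) • w ∈ M := fun n => ⟨(H.ord _).2 ⟨2 * n, by push_cast; ring⟩, 23 * n, by
    simp only [map_zsmul, LinearMap.smul_apply, zsmul_eq_mul, hww]
    push_cast; ring⟩
  have hsm : ∀ n : ℤ, n • (3 / 2 : ℚ) • w = (n * (3 / 2) : ℚ) • w := fun n => by
    rw [← Int.cast_smul_eq_zsmul ℚ, smul_smul]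
  obtain ⟨f, hf⟩ := glue_leech H.rep.dim H.rep.pd M
    (fun x hx => mem_dual.2 fun y hy => mem_dual.1 (H.int hx.1) y hy.1)
    (fun x hx => H.even x hx.1) (w := (3 / 2 : ℚ) • w) (mem_dual.2 fun y ⟨_, n, hn⟩ =>
      ⟨3 * n, by rw [H.rep.pd.symm, map_smul, hn]; push_cast; simp; ring⟩) (E := 8) (by norm_num)
    (by
      convert h4w 3 using 1
      rw [hsm, ← Int.cast_smul_eq_zsmul ℚ]; norm_num)
    (fun x hx => by
      obtain ⟨a, ha⟩ := mem_dual.1 hx _ (h4w 1)
      simp only [map_zsmul, zsmul_eq_mul] at ha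
      have h1 : x - a • (3 / 2 : ℚ) • w ∈ dual B L := mem_dual.2 fun y hy => by
        obtain ⟨n, hn⟩ := hdec y hy
        obtain ⟨b, hb⟩ := mem_dual.1 hx _ hn
        obtain ⟨-, c, hc⟩ := hn
        simp only [map_sub, LinearMap.sub_apply, map_zsmul, LinearMap.smul_apply, zsmul_eq_mul,
          hww, map_smul, smul_eq_mul, H.rep.pd.symm w y] at hb hc ⊢
        push_cast at ha hb hc
        refine ⟨b - 3 * a * c - 34 * a * n, ?_⟩
        push_cast
        linear_combination hb + (n / 2 : ℚ) * ha - (3 / 2 * a : ℚ) * hc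
      obtain ⟨c, hc⟩ := (H.gen _).1 h1
      obtain ⟨n, hn⟩ := hdec _ hc
      refine ⟨a + 6 * (c + 2 * n), ?_⟩
      convert sub_mem hn (h4w (2 * (c + 2 * n))) using 1
      simp only [hsm, ← Int.cast_smul_eq_zsmul ℚ]
      push_cast
      module)
    (m := 13) (by simp only [map_smul, LinearMap.smul_apply, smul_eq_mul, hww]; norm_num)
    (fun x j hx e => by
      obtain ⟨hx, i, hi⟩ := hx
      rw [hsm] at hx hi
      simp only [map_sub, LinearMap.sub_apply, map_smul, LinearMap.smul_apply, smul_eq_mul,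
        hww] at hi
      have hxw : B x w = (8 * i + 69 * j : ℤ) / 4 := by push_cast; linarith
      have hxx : B x x = 2 - j ^ 2 / 8 := by push_cast at e; linarith
      rcases H.dich hr _ hx with h | h
      · rw [hxw, hxx] at h
        have h1 : (8 * i + 69 * j) ^ 2 + 23 * j ^ 2 = 368 := by
          have : ((8 * i + 69 * j : ℤ) : ℚ) ^ 2 + 23 * j ^ 2 = 368 := by
            push_cast at h ⊢; linarith
          exact_mod_cast this
        obtain ⟨b, hb⟩ : (23 : ℤ) ∣ 8 * i + 69 * j :=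
          (by norm_num : Prime (23 : ℤ)).dvd_of_dvd_pow (n := 2) ⟨16 - j ^ 2, by linarith⟩
        rw [hb] at h1
        have h2 : 23 * b ^ 2 + j ^ 2 = 16 := by linarith
        have h3 := sq_nonneg b
        have h4 := sq_nonneg j
        have h5 : b ^ 2 = 0 := by omega
        have h6 : b = 0 := by simpa using h5
        have h7 : (j - 4) * (j + 4) = 0 := by linarith
        rcases mul_eq_zero.1 h7 with h8 | h8 <;> omega
      · rw [hxw, hxx] at h
        have h1 : (8 * i + 69 * j) ^ 2 + 23 * j ^ 2 ≤ 16 := by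
          have : ((8 * i + 69 * j : ℤ) : ℚ) ^ 2 + 23 * j ^ 2 ≤ 16 := by
            push_cast at h ⊢; linarith
          exact_mod_cast this
        have h3 := sq_nonneg (8 * i + 69 * j)
        have h4 := sq_nonneg j
        have h5 : j = 0 := by
          have : j ^ 2 = 0 := by omega
          simpa using this
        subst h5
        have h6 : i = 0 := by
          by_contra h6
          have := Int.one_le_abs h6
          have := sq_abs i
          nlinarith
        subst h6
        exact hr x (by simpa using hx) (by simpa using hxw) (by simpa using hxx))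
  let v : glue M ((3 / 2 : ℚ) • w) 8 := ⟨(0, 1), v_mem_glue (by norm_num) (by
    convert h4w 3 using 1
    rw [hsm, ← Int.cast_smul_eq_zsmul ℚ]; norm_num)⟩
  obtain ⟨z, hz, h1, h2⟩ := exists_half (f v).2 (by
    have := hf v
    simp only [sumForm_apply, v, map_zero, zero_add, mul_one] at this
    exact_mod_cast this)
  obtain ⟨p, hp⟩ := f.surjective ⟨z, hz⟩
  have e1 := hf p
  have e2 := hf (v - 2 • p)
  rw [map_sub, map_nsmul, hp] at e2
  rw [hp] at e1
  obtain ⟨⟨x, s⟩, j, hj, hj'⟩ := p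
  simp only at hj hj'
  subst hj'
  have e1' : (32 : ℚ) = 8 * (B x x + 8 * (j / 8 * (j / 8))) := by
    rw [← show ((sqNorm z : ℤ) : ℚ) = 32 by exact_mod_cast h1]; exact e1
  have e2' : (64 : ℚ) = 8 * (4 * B x x + 8 * ((1 - 2 * (j / 8)) * (1 - 2 * (j / 8)))) := by
    rw [← show ((sqNorm ((f v).1 - 2 • z) : ℤ) : ℚ) = 64 by exact_mod_cast h2]
    refine Eq.trans e2 ?_
    simp [sumForm_apply, v]
    ring
  have hj4 : j = 4 := by exact_mod_cast (by linarith : (j : ℚ) = 4)
  subst hj4
  refine ⟨x, ?_, by push_cast at e1'; linarith⟩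
  have := add_mem hj.1 ((H.ord 6).2 ⟨3, rfl⟩)
  rw [hsm, ← Int.cast_smul_eq_zsmul ℚ] at this
  norm_num at this
  exact this

theorem two (hidx : ∀ K : Subgroup G, K.index ≠ 23 ∧ K.index ≠ 24) (hD : D = 2) : False := by
  obtain ⟨r, hrL, h2⟩ := H.two_root hr hD
  subst hD
  have key : ∀ r ∈ L, B r r = 2 → ∃ i : ℤ, B r w = i ∧ (i = 1 ∨ i = -1) := by
    intro r hrL h2
    obtain ⟨i, hi⟩ := mem_dual.1 H.wd r hrL
    rw [H.rep.pd.symm] at hi
    refine ⟨i, hi, ?_⟩
    have h0 : i ≠ 0 := by rintro rfl; exact hr r hrL (by simpa using hi) h2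
    have h1 := H.dich hr (x := r) 0 (by simpa using hrL)
    rw [hi, h2] at h1
    have h3 : i ^ 2 = 23 ∨ i ^ 2 ≤ 1 := by
      rcases h1 with h | h
      · left; exact_mod_cast (by push_cast at h; linarith : (i : ℚ) ^ 2 = 23)
      · right; exact_mod_cast (by push_cast at h; linarith : (i : ℚ) ^ 2 ≤ 1)
    have : -5 < i := by rcases h3 with h | h <;> nlinarith
    have : i < 5 := by rcases h3 with h | h <;> nlinarith
    interval_cases i <;> omega
  refine H.rep.not_orth hidx (w := r) (by rintro rfl; simp at h2) fun h => ?_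
  obtain ⟨c, hc⟩ := mem_dual.1 (H.int (H.inv h r hrL)) r hrL
  obtain ⟨i, hi, hi'⟩ := key r hrL h2
  obtain ⟨k, hk, hk'⟩ := key _ (H.inv h r hrL) (by rw [H.rep.inv, h2])
  have h3 := H.rep.pd.cs (ρ h r) r
  have h4 : c ≠ 1 := by
    rintro rfl
    obtain ⟨l, hl, hl'⟩ := key _ (sub_mem (H.inv h r hrL) hrL) (by
      simp only [map_sub, LinearMap.sub_apply, H.rep.inv, H.rep.pd.symm r (ρ h r), hc, h2]
      norm_num)
    rw [map_sub, LinearMap.sub_apply, hi, hk] at hl
    have : k - i = l := by exact_mod_cast hl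
    omega
  have h5 : c ≠ -1 := by
    rintro rfl
    obtain ⟨l, hl, hl'⟩ := key _ (add_mem (H.inv h r hrL) hrL) (by
      simp only [map_add, LinearMap.add_apply, H.rep.inv, H.rep.pd.symm r (ρ h r), hc, h2]
      norm_num)
    rw [map_add, LinearMap.add_apply, hi, hk] at hl
    have : k + i = l := by exact_mod_cast hl
    omega
  rw [H.rep.inv, hc, h2] at *
  have h6 : c ^ 2 ≤ 2 * 2 := by exact_mod_cast h3
  have : -2 ≤ c := by nlinarith
  have : c ≤ 2 := by nlinarith
  interval_cases c <;> first | omega | norm_num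

end Core

theorem Rep23.feit (H : Rep23 ρ B) (hidx : ∀ K : Subgroup G, K.index ≠ 23 ∧ K.index ≠ 24) :
    (∃ f : G →* Multiplicative (ZMod 2) × Spor.Co2, Function.Injective f) ∨
      ∃ f : G →* Multiplicative (ZMod 2) × Spor.Co3, Function.Injective f := by
  obtain ⟨B', L, M⟩ := H.exists_min
  obtain ⟨g, hg, u, hu0, hu⟩ := H.exists_23
  obtain ⟨w, D, C⟩ := (M.pre hg).core hu0 hu
  have hD := C.cases (M.not_eight C) (M.not_nine C)
  have hr := fun r hr hw => C.no_root hidx hD (r := r) hr hw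
  rcases hD with e | e | e | e
  · exact (C.two hr hidx e).elim
  · exact Or.inl (C.embed_46 hr (Or.inl e) fun v hv =>
      Cfsg.Agent.S0400.result v Spor.leechU (by rw [hv, e]; rfl) (by decide))
  · exact Or.inr (C.embed_46 hr (Or.inr e) fun v hv =>
      Cfsg.Agent.S0401.result v Spor.leechV (by rw [hv, e]; rfl) (by decide))
  · exact (C.twelve hr hidx e).elim

end H41.Ft
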