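import Cfsg.Agent.H41.JordanFan

/-! Jordan's counting argument in purely group theoretic form. -/

set_option autoImplicit false
open Subgroup

universe u

namespace H41

variable {G : Type*} [Group G]

/-- The fan attached to an element. -/
def efan (M : ℕ) (g : G) : Subgroup G := mfan M (centralizer ({g} : Set G))

theorem efan_map (M : ℕ) (e : G ≃* G) (g : G) :
    efan M (e g) = (efan M g).map (e : G →* G) := by
  rw [efan, centralizer_singleton_map, mfan_map, efan]

theorem center_le_efan (M : ℕ) (g : G) : center G ≤ efan M g :=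
  (fan_center M).le_mfan (center_le_centralizer _)

theorem le_centralizer_singleton_iff {F : Subgroup G} {g : G} :
    F ≤ centralizer ({g} : Set G) ↔ g ∈ centralizer (F : Set G) :=
  ⟨fun h x hx => mem_centralizer_singleton_iff.1 (h hx),
    fun h x hx => mem_centralizer_singleton_iff.2 (h x hx)⟩

theorem efan_mul_center (M : ℕ) (g : G) {z : G} (hz : z ∈ center G) :
    efan M (g * z) = efan M g := by
  have : centralizer ({g * z} : Set G) = centralizer ({g} : Set G) := by
    ext x
    simp only [mem_centralizer_singleton_iff]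
    rw [mul_assoc g z x, ← mem_center_iff.1 hz x, ← mul_assoc, ← mul_assoc, mul_left_inj]
  rw [efan, this, efan]

/-- The conjugation action on subgroups. -/
@[reducible] def cjAct (G : Type*) [Group G] : MulAction G (Subgroup G) where
  smul g H := H.map (MulAut.conj g : G →* G)
  one_smul H := by
    change H.map _ = H
    ext x; simp
  mul_smul a b H := by
    change H.map _ = (H.map _).map _
    rw [map_map]
    congr 1
    ext x
    simp [mul_assoc]

theorem stabilizer_cjAct (H : Subgroup G) :
    @MulAction.stabilizer G _ _ (cjAct G) H = normalizer (H : Set G) := by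
  ext g
  change H.map (MulAut.conj g : G →* G) = H ↔ _
  rw [mem_normalizer_iff]
  constructor
  · intro h x
    constructor
    · intro hx
      exact h ▸ ⟨x, hx, rfl⟩
    · intro hx
      rw [← h] at hx
      obtain ⟨y, hy, e⟩ := hx
      exact (MulAut.conj g).injective e ▸ hy
  · intro h
    ext x
    constructor
    · rintro ⟨y, hy, rfl⟩
      exact (h y).1 hy
    · intro hx
      exact ⟨g⁻¹ * x * g, (h _).2 (by simpa [mul_assoc] using hx), by simp [mul_assoc]⟩

variable [Finite G]

theorem card_dvd_of_mul_mem (K : Subgroup G) (q : G → Prop)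
    (h : ∀ x, q x → ∀ y ∈ K, q (x * y)) : Nat.card K ∣ Nat.card {x // q x} := by
  have e : {x // q x} ≃ {c : G ⧸ K // q c.out} × K :=
    { toFun := fun x => (⟨(x.1 : G ⧸ K), by
          have := h x.1 x.2 _ (QuotientGroup.eq.1 (QuotientGroup.out_eq' (x.1 : G ⧸ K)).symm)
          simpa using this⟩,
        ⟨(x.1 : G ⧸ K).out⁻¹ * x.1, QuotientGroup.eq.1 (QuotientGroup.out_eq' _)⟩)
      invFun := fun a => ⟨a.1.1.out * a.2, h _ a.1.2 _ a.2.2⟩
      left_inv := fun x => by simp
      right_inv := fun a => by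
        have : ((a.1.1.out * a.2 : G) : G ⧸ K) = a.1.1 := by
          rw [QuotientGroup.mk_mul_of_mem _ a.2.2, QuotientGroup.out_eq']
        ext <;> simp [this] }
  rw [Nat.card_congr e, Nat.card_prod]
  exact Dvd.intro_left _ rfl

omit [Finite G] in
theorem card_eq_relIndex_mul {H K : Subgroup G} (h : H ≤ K) :
    Nat.card K = H.relIndex K * Nat.card H := by
  rw [relIndex, ← Nat.card_congr (subgroupOfEquivOfLe h).toEquiv, index_mul_card]

/-- The hypotheses of Jordan's argument. -/
structure JHyp (M c W n : ℕ) (G : Type*) [Group G] : Prop where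
  vab : ∀ g : G, g ∉ center G → VAb M (centralizer ({g} : Set G))
  chain : ∃ d : Subgroup G → ℕ, (∀ A, d A ≤ c) ∧ ∀ A B : Subgroup G, A ≤ B →
    ¬ centralizer (A : Set G) ≤ centralizer (B : Set G) → d B < d A
  weyl : ∀ F : Subgroup G, F ≤ centralizer (F : Set G) →
    (centralizer (F : Set G)).relIndex (normalizer (F : Set G)) ≤ W
  scal : ∀ g : G, Nat.card {z : G // z ∈ center G ∧ IsConj g (z * g)} ≤ n

variable {M c W n : ℕ}

theorem JHyp.relIndex_le (h : JHyp M c W n G) {H : Subgroup G} (hH : VAb M H) :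
    (mfan M H).relIndex H ≤ M ^ (c + 1) := by
  obtain ⟨d, h1, h2⟩ := h.chain
  exact hH.relIndex_mfan_le h1 h2

/-- The elements attached to the fan `F`. -/
noncomputable def nfan (M : ℕ) (F : Subgroup G) : ℕ :=
  Nat.card {g : G // g ∉ center G ∧ efan M g = F}

theorem exists_int_div {L a b : ℕ} (h : b ∣ L * a) : ∃ t : ℤ, (L : ℚ) * ((a : ℚ) / b) = t := by
  obtain ⟨t, ht⟩ := h
  rcases Nat.eq_zero_or_pos b with rfl | hb
  · exact ⟨0, by simp⟩
  refine ⟨t, ?_⟩
  have : (b : ℚ) ≠ 0 := Nat.cast_ne_zero.2 hb.ne'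
  rw [← mul_div_assoc, div_eq_iff this]
  exact_mod_cast ht.trans (mul_comm _ _)

theorem exists_int_sum {ι : Type*} (s : Finset ι) (f : ι → ℚ) (h : ∀ i ∈ s, ∃ t : ℤ, f i = t) :
    ∃ t : ℤ, ∑ i ∈ s, f i = t := by
  choose! t ht using h
  exact ⟨∑ i ∈ s, t i, by push_cast; exact Finset.sum_congr rfl ht⟩

theorem JHyp.cases (h : JHyp M c W n G) {L : ℕ} (hL : ∀ a, 0 < a → a ≤ W * M ^ (c + 1) → a ∣ L)
    {F : Subgroup G} (hF : F ≠ center G) :
    Nat.card (normalizer (F : Set G)) ∣ L * nfan M F ∨
      (F ≤ centralizer (F : Set G) ∧ center G < F ∧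
        F.relIndex (normalizer (F : Set G)) ≤ W * M ^ (c + 1) ∧
        nfan M F + Nat.card (center G) = Nat.card (centralizer (F : Set G))) := by
  by_cases h0 : nfan M F = 0
  · left; rw [h0]; exact dvd_zero _
  obtain ⟨⟨g, hg, hgF⟩⟩ := (Nat.card_ne_zero.1 h0).1
  have hfan : Fan M F := hgF ▸ (h.vab g hg).fan_mfan
  have hZF : center G < F := lt_of_le_of_ne (hgF ▸ center_le_efan M g) hF.symm
  obtain ⟨f, hf, hfZ⟩ := SetLike.exists_of_lt hZF
  set H := centralizer (F : Set G) with hH
  have hHv : VAb M H := (h.vab f hfZ).mono (centralizer_le (Set.singleton_subset_iff.2 hf))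
  have hHN : H ≤ normalizer (F : Set G) := centralizer_le_normalizer _
  have hFF' : F ≤ mfan M H := hfan.le_mfan hfan.cm
  have hidx : (mfan M H).relIndex (normalizer (F : Set G)) ≤ W * M ^ (c + 1) := by
    rw [← relIndex_mul_relIndex _ H _ (mfan_le M H) hHN, mul_comm]
    exact Nat.mul_le_mul (h.weyl F hfan.cm) (h.relIndex_le hHv)
  have k1 : ∀ x ∈ H, F ≤ efan M x := fun x hx =>
    hfan.le_mfan (le_centralizer_singleton_iff.2 hx)
  have k2 : ∀ x ∈ H, x ∉ center G → efan M x ≤ mfan M H := fun x hx hxZ =>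
    (h.vab x hxZ).fan_mfan.le_mfan ((h.vab x hxZ).fan_mfan.cm.trans (cen_anti (k1 x hx)))
  have k3 : ∀ x, efan M x = F → x ∈ H := fun x hx =>
    le_centralizer_singleton_iff.1 (hx ▸ mfan_le M _)
  by_cases hFe : mfan M H = F
  · refine Or.inr ⟨hfan.cm, hZF, hFe ▸ hidx, ?_⟩
    classical
    rw [nfan, ← Nat.card_sum]
    refine Nat.card_congr (Equiv.ofBijective (Sum.elim (fun x => ⟨x.1, k3 x.1 x.2.2⟩)
      fun z => ⟨z.1, center_le_centralizer _ z.2⟩) ⟨?_, fun x => ?_⟩)
    · rintro (x | x) (y | y) e <;> simp only [Sum.elim_inl, Sum.elim_inr, Subtype.mk.injEq] at e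
      · exact congrArg _ (Subtype.ext e)
      · exact absurd (e ▸ y.2) x.2.1
      · exact absurd (e ▸ x.2) y.2.1
      · exact congrArg _ (Subtype.ext e)
    · by_cases hx : x.1 ∈ center G
      · exact ⟨Sum.inr ⟨x.1, hx⟩, rfl⟩
      · exact ⟨Sum.inl ⟨x.1, hx, le_antisymm (hFe ▸ k2 x.1 x.2 hx) (k1 x.1 x.2)⟩, rfl⟩
  · left
    have hd : Nat.card (mfan M H) ∣ nfan M F := by
      refine card_dvd_of_mul_mem _ _ fun x hx y hy => ?_
      have e1 : ∀ t ∈ mfan M H, t ∈ centralizer ({x * y} : Set G) →
          t ∈ centralizer ({x} : Set G) := fun t ht h1 => by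
        rw [mem_centralizer_singleton_iff] at h1 ⊢
        rw [mul_assoc, hHv.fan_mfan.cm ht y hy, ← mul_assoc, ← mul_assoc] at h1
        exact mul_right_cancel h1
      have e2 : x * y ∉ center G := fun hz => hFe (le_antisymm (hx.2 ▸
        hHv.fan_mfan.le_mfan fun t ht => e1 t ht
          (mem_centralizer_singleton_iff.2 (mem_center_iff.1 hz t))) hFF')
      have e3 : x * y ∈ H := H.mul_mem (k3 x hx.2) (mfan_le M H hy)
      exact ⟨e2, le_antisymm (hx.2 ▸ (h.vab _ e2).fan_mfan.le_mfan fun t ht =>
        e1 t (k2 _ e3 e2 ht) (mfan_le M _ ht)) (k1 _ e3)⟩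
    rw [card_eq_relIndex_mul ((mfan_le M H).trans hHN)]
    exact Nat.mul_dvd_mul (hL _ (Nat.pos_of_ne_zero (relIndex_ne_zero' _ _)) hidx) hd

/-- The conjugation action on the central quotient. -/
@[reducible] def cqAct (G : Type*) [Group G] : MulAction G (G ⧸ center G) where
  smul g q := (g : G ⧸ center G) * q * (g : G ⧸ center G)⁻¹
  one_smul q := by
    change _ * q * _ = q
    simp
  mul_smul a b q := by
    change _ * q * _ = _ * (_ * q * _) * _
    simp [mul_assoc]

theorem JHyp.center_case (h : JHyp M c W n G) {L : ℕ}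
    (hL : ∀ a, 0 < a → a ≤ n * M ^ (c + 1) → a ∣ L) :
    ∃ t : ℤ, (L : ℚ) * ((nfan M (center G) : ℚ) / Nat.card G) = t := by
  classical
  let _ := cqAct G
  have := Fintype.ofFinite G
  have := Fintype.ofFinite (G ⧸ center G)
  have := Fintype.ofFinite (MulAction.orbitRel.Quotient G (G ⧸ center G))
  set q : G → Prop := fun g => g ∉ center G ∧ efan M g = center G with hq
  have q1 : ∀ g z, z ∈ center G → (q (g * z) ↔ q g) := fun g z hz => by
    simp only [hq, efan_mul_center M g hz, (center G).mul_mem_cancel_right hz]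
  have q2 : ∀ g x, q (x * g * x⁻¹) ↔ q g := fun g x => by
    have e1 : (center G).map (MulAut.conj x : G →* G) = center G :=
      (stabilizer_cjAct (center G)).ge (by rw [normalizer_eq_top]; trivial)
    have e2 := efan_map M (MulAut.conj x) g
    simp only [hq]
    refine and_congr (not_congr (Normal.mem_comm_iff inferInstance |>.trans (by simp))) ?_
    rw [MulAut.conj_apply] at e2
    rw [e2]
    conv_lhs => rw [← e1]
    exact (map_injective (MulAut.conj x).injective).eq_iff
  have q3 : ∀ g : G, q (g : G ⧸ center G).out ↔ q g := fun g => by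
    obtain ⟨z, hz⟩ := QuotientGroup.mk_out_eq_mul (center G) g
    rw [hz, q1 g z z.2]
  set f : G ⧸ center G → ℚ := fun a => if q a.out then Nat.card (center G) else 0 with hf
  have h1 : (nfan M (center G) : ℚ) = ∑ a, f a := by
    rw [nfan, Nat.card_eq_fintype_card, Fintype.card_subtype,
      Finset.card_eq_sum_card_fiberwise (f := fun g : G => (g : G ⧸ center G)) (t := Finset.univ)
        (fun _ _ => Finset.mem_coe.2 (Finset.mem_univ _))]
    push_cast
    refine Finset.sum_congr rfl fun a _ => ?_
    simp only [hf]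
    split_ifs with ha
    · rw [Nat.card_eq_fintype_card, ← Finset.card_univ, Nat.cast_inj]
      refine (Finset.card_bij (fun (z : center G) _ => a.out * (z : G)) (fun z _ => ?_) (fun z _ z' _ e => ?_)
        fun g hg => ?_).symm
      · simp only [Finset.mem_filter, Finset.mem_univ, true_and]
        exact ⟨(q1 _ _ z.2).2 ha, by
          rw [QuotientGroup.mk_mul_of_mem _ z.2, QuotientGroup.out_eq']⟩
      · exact Subtype.ext (mul_left_cancel e)
      · simp only [Finset.mem_filter, Finset.mem_univ, true_and] at hg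
        exact ⟨⟨a.out⁻¹ * g, QuotientGroup.eq.1 (by rw [QuotientGroup.out_eq', hg.2])⟩,
          Finset.mem_univ _, by simp⟩
    · rw [Nat.cast_eq_zero, Finset.card_eq_zero, Finset.eq_empty_iff_forall_notMem]
      intro g hg
      simp only [Finset.mem_filter, Finset.mem_univ, true_and] at hg
      exact ha (hg.2 ▸ (q3 g).2 hg.1)
  rw [h1, sum_div_card_eq f (fun x a => by
    obtain ⟨g, rfl⟩ := QuotientGroup.mk_surjective a
    change f ((x * g * x⁻¹ : G) : G ⧸ center G) = _
    simp only [hf, q3, q2]), Finset.mul_sum]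
  refine exists_int_sum _ _ fun o _ => ?_
  obtain ⟨g, hg⟩ := QuotientGroup.mk_surjective o.out
  rw [← hg]
  simp only [hf, q3]
  split_ifs with hqg
  swap
  · exact ⟨0, by simp⟩
  set S := MulAction.stabilizer G (g : G ⧸ center G) with hS
  have hS' : ∀ x, x ∈ S ↔ x * g * x⁻¹ * g⁻¹ ∈ center G := fun x => by
    change ((x * g * x⁻¹ : G) : G ⧸ center G) = g ↔ _
    rw [QuotientGroup.eq_iff_div_mem, div_eq_mul_inv]
  have hCS : centralizer ({g} : Set G) ≤ S := fun x hx => (hS' x).2 (by
    rw [mem_centralizer_singleton_iff.1 hx]; simp)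
  have e1 : (centralizer ({g} : Set G)).relIndex S ≤ n := by
    refine (relIndex_le_of_map _ S (β := {z : G // z ∈ center G ∧ IsConj g (z * g)})
      (fun x => ⟨x * g * (x : G)⁻¹ * g⁻¹, (hS' x).1 x.2, isConj_iff.2 ⟨x, by simp⟩⟩)
      fun a b e => ?_).trans (h.scal g)
    have e2 : (a : G) * g * (a : G)⁻¹ = b * g * (b : G)⁻¹ :=
      mul_right_cancel (congrArg Subtype.val e)
    rw [mem_centralizer_singleton_iff]
    calc (a : G)⁻¹ * b * g = (a : G)⁻¹ * (b * g * (b : G)⁻¹) * b := by group
      _ = _ := by rw [← e2]; group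
  have e2 : (center G).relIndex (centralizer ({g} : Set G)) ≤ M ^ (c + 1) :=
    hqg.2 ▸ h.relIndex_le (h.vab g hqg.1)
  have e3 : (center G).relIndex S ≤ n * M ^ (c + 1) := by
    rw [← relIndex_mul_relIndex _ _ _ (center_le_centralizer _) hCS, mul_comm]
    exact Nat.mul_le_mul e1 e2
  refine exists_int_div ?_
  rw [card_eq_relIndex_mul ((center_le_centralizer _).trans hCS)]
  exact Nat.mul_dvd_mul_right (hL _ (Nat.pos_of_ne_zero (relIndex_ne_zero' _ _)) e3) _

theorem nfan_map (M : ℕ) (e : G ≃* G) (F : Subgroup G) :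
    nfan M (F.map (e : G →* G)) = nfan M F := by
  refine (Nat.card_congr (e.toEquiv.subtypeEquiv fun g => and_congr (not_congr ?_) ?_)).symm
  · simp only [mem_center_iff, MulEquiv.toEquiv_eq_coe, EquivLike.coe_coe]
    refine ⟨fun h x => ?_, fun h x => e.injective (by simpa using h (e x))⟩
    obtain ⟨y, rfl⟩ := e.surjective x
    rw [← map_mul, h, map_mul]
  · change _ ↔ efan M (e g) = _
    rw [efan_map, (map_injective e.injective).eq_iff]

/-- Jordan's theorem in group theoretic form. -/
theorem jordan_core (M c W n : ℕ) : ∃ B : ℕ, ∀ (G : Type u) [Group G] [Finite G],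
    JHyp M c W n G → ∃ A : Subgroup G, A ≤ centralizer (A : Set G) ∧ A.index ≤ B := by
  set L := ((W + n) * M ^ (c + 1) + W).factorial with hLdef
  have hL : ∀ a, 0 < a → a ≤ (W + n) * M ^ (c + 1) + W → a ∣ L := fun a => Nat.dvd_factorial
  have hL1 : ∀ a, 0 < a → a ≤ W * M ^ (c + 1) → a ∣ L := fun a h1 h2 => hL a h1 (by rw [add_mul]; omega)
  have hL2 : ∀ a, 0 < a → a ≤ n * M ^ (c + 1) → a ∣ L := fun a h1 h2 => hL a h1 (by rw [add_mul]; omega)
  obtain ⟨B, hB⟩ := jordan_arith.{u} (2 * W) L (Nat.factorial_pos _)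
  refine ⟨B + W * M ^ (c + 1), fun G _ _ h => ?_⟩
  classical
  let _ := cjAct G
  have := Fintype.ofFinite G
  have := Fintype.ofFinite (Subgroup G)
  have := Fintype.ofFinite (MulAction.orbitRel.Quotient G (Subgroup G))
  have hG : (0 : ℚ) < Nat.card G := by exact_mod_cast Nat.card_pos
  have hZ : (0 : ℚ) < Nat.card (center G) := by exact_mod_cast Nat.card_pos
  set t : MulAction.orbitRel.Quotient G (Subgroup G) → ℚ :=
    fun o => nfan M o.out / Nat.card (normalizer (o.out : Set G)) with ht
  set a : MulAction.orbitRel.Quotient G (Subgroup G) → ℕ :=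
    fun o => (center G).relIndex (normalizer (o.out : Set G)) with ha
  have h1 : ∑ o, t o = 1 - ((center G).index : ℚ)⁻¹ := by
    have e1 := sum_div_card_eq (G := G) (fun F : Subgroup G => (nfan M F : ℚ))
      fun g F => congrArg _ (nfan_map M (MulAut.conj g) F)
    simp only [stabilizer_cjAct] at e1
    have e2 : ∑ F : Subgroup G, nfan M F + Nat.card (center G) = Nat.card G := by
      have e3 := Finset.card_eq_sum_card_fiberwise (f := efan M)
        (s := Finset.univ.filter (· ∉ center G)) (t := Finset.univ)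
        (fun _ _ => Finset.mem_coe.2 (Finset.mem_univ _))
      have e4 := Finset.card_filter_add_card_filter_not (s := Finset.univ) (· ∈ center G)
      rw [e3, Finset.card_univ, ← Nat.card_eq_fintype_card, add_comm] at e4
      rw [← e4, Nat.card_eq_fintype_card, Fintype.card_subtype]
      congr 1
      refine Finset.sum_congr rfl fun F _ => ?_
      rw [nfan, Nat.card_eq_fintype_card, Fintype.card_subtype, Finset.filter_filter]
    have e5 : (∑ F : Subgroup G, (nfan M F : ℚ)) = Nat.card G - Nat.card (center G) := by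
      rw [← e2]; push_cast; ring
    rw [← e1, e5, ← (center G).index_mul_card]
    have : ((center G).index : ℚ) ≠ 0 := Nat.cast_ne_zero.2 index_ne_zero_of_finite
    push_cast
    field_simp
  set s := Finset.univ.filter fun o => ¬ ∃ z : ℤ, (L : ℚ) * t o = z with hs
  have h2 : ∀ o ∈ s, o.out ≤ centralizer (o.out : Set G) ∧
      (o.out).relIndex (normalizer (o.out : Set G)) ≤ W * M ^ (c + 1) ∧
      (∃ z : ℤ, (L : ℚ) * (t o + (a o : ℚ)⁻¹) = z) ∧ 1 ≤ 2 * W * t o := by
    intro o ho
    have ho' := (Finset.mem_filter.1 ho).2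
    have e0 : o.out ≠ center G := fun e => ho' (by
      simp only [ht, e, normalizer_eq_top, card_top]
      exact h.center_case hL2)
    rcases h.cases hL1 e0 with e1 | ⟨e1, e2, e3, e4⟩
    · exact absurd (exists_int_div e1) ho'
    set F := o.out
    set H := centralizer (F : Set G)
    have hHN : H ≤ normalizer (F : Set G) := centralizer_le_normalizer _
    have e5 := card_eq_relIndex_mul hHN
    have e6 := card_eq_relIndex_mul ((center_le_centralizer (F : Set G)).trans hHN)
    have e7 := h.weyl F e1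
    have e8 : (0 : ℚ) < H.relIndex (normalizer (F : Set G)) := by
      exact_mod_cast Nat.pos_of_ne_zero (relIndex_ne_zero' _ _)
    have e9 : (0 : ℚ) < Nat.card H := by exact_mod_cast Nat.card_pos
    have e10 : (0 : ℚ) < a o := by exact_mod_cast Nat.pos_of_ne_zero (relIndex_ne_zero' _ _)
    have e11 : (nfan M F : ℚ) = Nat.card H - Nat.card (center G) := by
      rw [← e4]; push_cast; ring
    have e12 : t o + (a o : ℚ)⁻¹ = ((1 : ℕ) : ℚ) / H.relIndex (normalizer (F : Set G)) := by
      have : (a o : ℚ)⁻¹ = Nat.card (center G) / Nat.card (normalizer (F : Set G)) := by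
        rw [show Nat.card (normalizer (F : Set G)) = a o * Nat.card (center G) from e6]
        push_cast
        field_simp
      simp only [ht]
      rw [this, ← add_div, e11, sub_add_cancel, e5]
      push_cast
      field_simp
    refine ⟨e1, e3, ?_, ?_⟩
    · rw [e12]
      exact exists_int_div (Dvd.dvd.mul_right (hL _ (by exact_mod_cast e8)
        (e7.trans (Nat.le_add_left _ _))) _)
    · have e13 : 2 * Nat.card (center G) ≤ Nat.card H := by
        have hlt : center G < H := e2.trans_le e1
        rw [card_eq_relIndex_mul hlt.le]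
        refine Nat.mul_le_mul_right _ ?_
        have := relIndex_ne_zero' (center G) H
        have : (center G).relIndex H ≠ 1 := fun e => hlt.not_ge (relIndex_eq_one.1 e)
        omega
      have e14 : (2 : ℚ) * Nat.card (center G) ≤ Nat.card H := by exact_mod_cast e13
      have e15 : (H.relIndex (normalizer (F : Set G)) : ℚ) ≤ W := by exact_mod_cast e7
      simp only [ht]
      rw [e11, e5, ← mul_div_assoc, le_div_iff₀ (by push_cast; positivity)]
      push_cast
      nlinarith
  have h3 : s.card ≤ 2 * W := by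
    have e1 : ∑ o ∈ s, t o ≤ 1 := by
      refine (Finset.sum_le_sum_of_subset_of_nonneg (Finset.subset_univ s)
        fun o _ _ => by simp only [ht]; positivity).trans ?_
      rw [h1]
      have : (0 : ℚ) ≤ ((center G).index : ℚ)⁻¹ := by positivity
      linarith
    have e2 := Finset.card_nsmul_le_sum s (fun o => 2 * W * t o) 1 fun o ho => (h2 o ho).2.2.2
    rw [nsmul_eq_mul, mul_one, ← Finset.mul_sum] at e2
    have e3 : (s.card : ℚ) ≤ 2 * W := e2.trans (mul_le_of_le_one_right (by positivity) e1)
    exact_mod_cast e3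
  rcases hB _ s a (center G).index h3 (Nat.pos_of_ne_zero index_ne_zero_of_finite)
    (fun o _ => ⟨Nat.pos_of_ne_zero (relIndex_ne_zero' _ _), by
      rw [← relIndex_top_right]
      exact relIndex_le_of_le_right le_top (relIndex_ne_zero' _ _)⟩) (by
      obtain ⟨z₁, e1⟩ := exists_int_sum s _ fun o ho => (h2 o ho).2.2.1
      obtain ⟨z₂, e2⟩ := exists_int_sum (Finset.univ.filter fun o => ∃ z : ℤ, (L : ℚ) * t o = z)
        (fun o => L * t o) fun o ho => (Finset.mem_filter.1 ho).2
      rw [← Finset.sum_filter_add_sum_filter_not _ (fun o => ∃ z : ℤ, (L : ℚ) * t o = z)] at h1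
      rw [← Finset.mul_sum, Finset.sum_add_distrib] at e1
      rw [← Finset.mul_sum] at e2
      refine ⟨L - z₁ - z₂, ?_⟩
      push_cast
      rw [← e1, ← e2, eq_sub_of_add_eq h1]
      ring) with e | ⟨o, ho, e⟩
  · exact ⟨center G, center_le_centralizer _, e.trans (Nat.le_add_right _ _)⟩
  · refine ⟨o.out, (h2 o ho).1, le_trans ?_ (Nat.le_add_left _ _)⟩
    have e1 : normalizer (o.out : Set G) = ⊤ := by
      have e2 := relIndex_mul_index
        ((center_le_centralizer (o.out : Set G)).trans (centralizer_le_normalizer _))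
      change a o * _ = _ at e2
      rw [e] at e2
      exact index_eq_one.1 (Nat.eq_of_mul_eq_mul_left
        (Nat.pos_of_ne_zero index_ne_zero_of_finite) (e2.trans (mul_one _).symm))
    have := (h2 o ho).2.1
    rwa [e1, relIndex_top_right] at this

end H41
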