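import Cfsg.Agent.Base

/-! Jordan's fans: abelian subgroups whose subgroups of small index have the same centralizer. -/

set_option autoImplicit false
open Subgroup

universe u

namespace H41

variable {G : Type*} [Group G]

/-- An abelian subgroup all of whose subgroups of index less than `M` have the same centralizer. -/
structure Fan (M : ℕ) (F : Subgroup G) : Prop where
  cm : F ≤ centralizer (F : Set G)
  eq : ∀ F₁ ≤ F, F₁.relIndex F < M → centralizer (F₁ : Set G) ≤ centralizer (F : Set G)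

/-- The join of the fans in `H`. -/
def mfan (M : ℕ) (H : Subgroup G) : Subgroup G := sSup {F | Fan M F ∧ F ≤ H}

/-- `H` has an abelian subgroup of index less than `M`. -/
def VAb (M : ℕ) (H : Subgroup G) : Prop :=
  ∃ A ≤ H, A ≤ centralizer (A : Set G) ∧ A.relIndex H < M

variable {M : ℕ} {F F' H K : Subgroup G}

theorem cen_anti (h : H ≤ K) : centralizer (K : Set G) ≤ centralizer (H : Set G) :=
  centralizer_le (SetLike.coe_subset_coe.2 h)

theorem mfan_le (M : ℕ) (H : Subgroup G) : mfan M H ≤ H := sSup_le fun _ h => h.2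

theorem Fan.le_mfan (h : Fan M F) (hF : F ≤ H) : F ≤ mfan M H := le_sSup ⟨h, hF⟩

theorem mfan_mono (h : H ≤ K) : mfan M H ≤ mfan M K :=
  sSup_le fun _ hF => hF.1.le_mfan (hF.2.trans h)

theorem fan_center (M : ℕ) : Fan M (center G) :=
  ⟨center_le_centralizer _, fun _ _ _ x _ z hz => (mem_center_iff.1 hz x).symm⟩

theorem Fan.map (h : Fan M F) (e : G ≃* G) : Fan M (F.map (e : G →* G)) := by
  refine ⟨?_, fun F₁ h1 h2 x hx => ?_⟩
  · rintro _ ⟨a, ha, rfl⟩ _ ⟨b, hb, rfl⟩
    rw [← map_mul, ← map_mul, h.cm ha b hb]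
  · rw [← relIndex_comap] at h2
    have h3 : F₁.comap (e : G →* G) ≤ F := fun y hy => by
      obtain ⟨z, hz, hzy⟩ := h1 hy
      exact e.injective hzy ▸ hz
    have h4 : e.symm x ∈ centralizer (F : Set G) := h.eq _ h3 h2 fun y hy => e.injective (by
      simpa using hx (e y) hy)
    rintro _ ⟨a, ha, rfl⟩
    simpa using congrArg e (h4 a ha)

theorem mfan_map (e : G ≃* G) (H : Subgroup G) :
    mfan M (H.map (e : G →* G)) = (mfan M H).map (e : G →* G) := by
  refine le_antisymm (sSup_le fun F hF x hx => ⟨e.symm x, ?_, by simp⟩) ?_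
  · refine (hF.1.map e.symm).le_mfan (H := H) ?_ ⟨x, hx, rfl⟩
    rintro _ ⟨y, hy, rfl⟩
    obtain ⟨z, hz, rfl⟩ := hF.2 hy
    simpa using hz
  · rw [map_le_iff_le_comap]
    exact sSup_le fun F hF => map_le_iff_le_comap.1 ((hF.1.map e).le_mfan (map_mono hF.2))

theorem centralizer_singleton_map (e : G ≃* G) (g : G) :
    centralizer ({e g} : Set G) = (centralizer ({g} : Set G)).map (e : G →* G) := by
  ext x
  constructor
  · intro hx
    refine ⟨e.symm x, mem_centralizer_singleton_iff.2 (e.injective ?_), by simp⟩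
    simpa using mem_centralizer_singleton_iff.1 hx
  · rintro ⟨y, hy, rfl⟩
    simpa [mem_centralizer_singleton_iff] using congrArg e (mem_centralizer_singleton_iff.1 hy)

variable [Finite G]

theorem relIndex_ne_zero' (H K : Subgroup G) : H.relIndex K ≠ 0 := index_ne_zero_of_finite

theorem VAb.mono (h : VAb M K) (hHK : H ≤ K) : VAb M H := by
  obtain ⟨A, -, h1, h2⟩ := h
  refine ⟨A ⊓ H, inf_le_right, inf_le_left.trans (h1.trans (cen_anti inf_le_left)), ?_⟩
  rw [inf_relIndex_right]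
  exact (relIndex_le_of_le_right hHK (relIndex_ne_zero' _ _)).trans_lt h2

theorem VAb.fan_commute (h : VAb M H) (hF : Fan M F) (hFH : F ≤ H) (hF' : Fan M F')
    (hFH' : F' ≤ H) : F ≤ centralizer (F' : Set G) := by
  obtain ⟨A, -, h1, h2⟩ := h
  have key : ∀ F : Subgroup G, Fan M F → F ≤ H →
      centralizer ((A ⊓ F : Subgroup G) : Set G) ≤ centralizer (F : Set G) := fun F hF hFH =>
    hF.eq _ inf_le_right (by
      rw [inf_relIndex_right]
      exact (relIndex_le_of_le_right hFH (relIndex_ne_zero' _ _)).trans_lt h2)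
  refine le_trans ?_ (key F' hF' hFH')
  rw [le_centralizer_iff]
  exact (inf_le_left.trans (h1.trans (cen_anti inf_le_left))).trans (key F hF hFH)

theorem VAb.fan_mfan (h : VAb M H) : Fan M (mfan M H) := by
  refine ⟨sSup_le fun F hF => le_centralizer_iff.1 (sSup_le fun F' hF' =>
    h.fan_commute hF'.1 hF'.2 hF.1 hF.2), fun F₁ h1 h2 => ?_⟩
  rw [le_centralizer_iff]
  refine sSup_le fun F hF => le_centralizer_iff.1 ((cen_anti inf_le_left).trans
    (hF.1.eq (F₁ ⊓ F) inf_le_right ?_))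
  rw [inf_relIndex_right]
  exact (relIndex_le_of_le_right (hF.1.le_mfan hF.2) (relIndex_ne_zero' _ _)).trans_lt h2

theorem exists_fan_le {c : ℕ} {d : Subgroup G → ℕ} (hd : ∀ A, d A ≤ c)
    (hd' : ∀ A B : Subgroup G, A ≤ B → ¬ centralizer (A : Set G) ≤ centralizer (B : Set G) →
      d B < d A) (hM : 0 < M) (k : ℕ) : ∀ A : Subgroup G, A ≤ centralizer (A : Set G) →
      c ≤ d A + k → ∃ F ≤ A, Fan M F ∧ F.relIndex A ≤ M ^ k := by
  induction k with
  | zero =>
    refine fun A hA hk => ⟨A, le_rfl, ⟨hA, fun F₁ h1 _ => ?_⟩, by simp⟩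
    by_contra h
    have := hd' _ _ h1 h
    have := hd F₁
    omega
  | succ k ih =>
    intro A hA hk
    by_cases h : Fan M A
    · exact ⟨A, le_rfl, h, by rw [relIndex_self]; exact Nat.pow_pos hM⟩
    have : ∃ F₁ ≤ A, F₁.relIndex A < M ∧
        ¬ centralizer (F₁ : Set G) ≤ centralizer (A : Set G) := by
      by_contra hn
      push Not at hn
      exact h ⟨hA, hn⟩
    obtain ⟨F₁, h1, h2, h3⟩ := this
    have h4 := hd' _ _ h1 h3
    obtain ⟨F, h5, h6, h7⟩ := ih F₁ (h1.trans (hA.trans (cen_anti h1))) (by omega)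
    refine ⟨F, h5.trans h1, h6, ?_⟩
    rw [← relIndex_mul_relIndex F F₁ A h5 h1, pow_succ]
    exact Nat.mul_le_mul h7 h2.le

theorem VAb.relIndex_mfan_le {c : ℕ} {d : Subgroup G → ℕ} (hd : ∀ A, d A ≤ c)
    (hd' : ∀ A B : Subgroup G, A ≤ B → ¬ centralizer (A : Set G) ≤ centralizer (B : Set G) →
      d B < d A) (h : VAb M H) : (mfan M H).relIndex H ≤ M ^ (c + 1) := by
  obtain ⟨A, h0, h1, h2⟩ := h
  obtain ⟨F, h3, h4, h5⟩ := exists_fan_le hd hd' (M := M) (by omega) c A h1 (by omega)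
  refine (relIndex_le_of_le_left (h4.le_mfan (h3.trans h0)) (relIndex_ne_zero' _ _)).trans ?_
  rw [← relIndex_mul_relIndex F A H h3 h0, pow_succ]
  exact Nat.mul_le_mul h5 h2.le

omit [Finite G] in
theorem relIndex_le_of_map {β : Type*} [Finite β] (C N : Subgroup G) (φ : N → β)
    (h : ∀ a b : N, φ a = φ b → (a : G)⁻¹ * b ∈ C) : C.relIndex N ≤ Nat.card β := by
  refine Nat.card_le_card_of_injective (fun q : N ⧸ C.subgroupOf N => φ q.out) fun q q' e => ?_
  rw [← q.out_eq, ← q'.out_eq]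
  exact QuotientGroup.eq.2 (h _ _ e)

theorem sum_div_card_eq {Ω : Type*} [MulAction G Ω] [Fintype Ω]
    [Fintype (MulAction.orbitRel.Quotient G Ω)] (f : Ω → ℚ) (hf : ∀ (g : G) x, f (g • x) = f x) :
    (∑ x, f x) / Nat.card G =
      ∑ o : MulAction.orbitRel.Quotient G Ω, f o.out / Nat.card (MulAction.stabilizer G o.out) := by
  classical
  rw [← Finset.sum_fiberwise Finset.univ
    (fun x => (Quotient.mk'' x : MulAction.orbitRel.Quotient G Ω)), Finset.sum_div]
  refine Finset.sum_congr rfl fun o _ => ?_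
  have h1 : ∀ x, (Quotient.mk'' x : MulAction.orbitRel.Quotient G Ω) = o ↔
      x ∈ MulAction.orbit G o.out := fun x => by
    conv_lhs => rw [← o.out_eq']
    exact Quotient.eq''
  rw [Finset.sum_congr rfl (g := fun _ => f o.out) (fun x hx => by
    obtain ⟨g, rfl⟩ := (h1 x).1 (Finset.mem_filter.1 hx).2
    exact hf g _), Finset.sum_const, nsmul_eq_mul, ← (MulAction.stabilizer G o.out).index_mul_card,
    MulAction.index_stabilizer]
  have h2 : (MulAction.orbit G o.out).ncard = (Finset.univ.filter fun x =>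
      (Quotient.mk'' x : MulAction.orbitRel.Quotient G Ω) = o).card := by
    rw [← Set.ncard_coe_finset]
    congr 1
    ext x
    simp [h1]
  have h3 : ((MulAction.orbit G o.out).ncard : ℚ) ≠ 0 := by
    rw [← MulAction.index_stabilizer]
    exact Nat.cast_ne_zero.2 index_ne_zero_of_finite
  rw [← h2, Nat.cast_mul, mul_div_mul_left _ _ h3]

/-- The arithmetic lemma of Jordan's argument. -/
theorem jordan_arith (k : ℕ) : ∀ L : ℕ, 0 < L → ∃ B : ℕ, ∀ (ι : Type u) (s : Finset ι) (a : ι → ℕ)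
    (w : ℕ), s.card ≤ k → 0 < w → (∀ i ∈ s, 0 < a i ∧ a i ≤ w) →
    (∃ c : ℤ, (L : ℚ) * ((w : ℚ)⁻¹ - ∑ i ∈ s, (a i : ℚ)⁻¹) = c) → w ≤ B ∨ ∃ i ∈ s, a i = w := by
  induction k with
  | zero =>
    refine fun L hL => ⟨L, fun ι s a w hs hw _ ⟨c, hc⟩ => Or.inl ?_⟩
    rw [Finset.card_eq_zero.1 (Nat.le_zero.1 hs), Finset.sum_empty, sub_zero] at hc
    have hw' : (0 : ℚ) < w := by exact_mod_cast hw
    have h1 : (0 : ℚ) < c := by rw [← hc]; positivity
    have h2 : (1 : ℚ) ≤ c := by exact_mod_cast (show (0 : ℤ) < c by exact_mod_cast h1)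
    rw [← hc, ← div_eq_mul_inv, le_div_iff₀ hw', one_mul] at h2
    exact_mod_cast h2
  | succ k ih =>
    intro L hL
    obtain ⟨B, hB⟩ := ih (L * ((k + 1) * L).factorial) (Nat.mul_pos hL (Nat.factorial_pos _))
    obtain ⟨B₀, hB₀⟩ := ih L hL
    refine ⟨B + B₀, fun ι s a w hs hw ha ⟨c, hc⟩ => ?_⟩
    classical
    rcases s.eq_empty_or_nonempty with rfl | hne
    · exact (hB₀ ι ∅ a w (by simp) hw ha ⟨c, hc⟩).imp_left fun h => h.trans (Nat.le_add_left _ _)
    obtain ⟨i, hi, hmin⟩ := s.exists_min_image a hne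
    have hw' : (0 : ℚ) < w := by exact_mod_cast hw
    have hL' : (0 : ℚ) < L := by exact_mod_cast hL
    have hai : (0 : ℚ) < a i := by exact_mod_cast (ha i hi).1
    by_cases hiw : a i = w
    · exact Or.inr ⟨i, hi, hiw⟩
    have h1 : (w : ℚ)⁻¹ < (a i : ℚ)⁻¹ :=
      (inv_lt_inv₀ hw' hai).2 (by exact_mod_cast lt_of_le_of_ne (ha i hi).2 hiw)
    have h2 : (a i : ℚ)⁻¹ ≤ ∑ j ∈ s, (a j : ℚ)⁻¹ :=
      Finset.single_le_sum (f := fun j => (a j : ℚ)⁻¹) (fun j _ => by positivity) hi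
    have h3 : (c : ℚ) < 0 := by rw [← hc]; exact mul_neg_of_pos_of_neg hL' (by linarith)
    have h4 : (c : ℚ) ≤ -1 := by
      exact_mod_cast Int.le_sub_one_of_lt (show c < 0 by exact_mod_cast h3)
    have h5 : ∑ j ∈ s, (a j : ℚ)⁻¹ ≤ (k + 1 : ℕ) * (a i : ℚ)⁻¹ := by
      refine (Finset.sum_le_card_nsmul s _ (a i : ℚ)⁻¹ fun j hj => ?_).trans ?_
      · exact inv_anti₀ hai (by exact_mod_cast hmin j hj)
      · rw [nsmul_eq_mul]
        exact mul_le_mul_of_nonneg_right (by exact_mod_cast hs) (by positivity)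
    have h6 : a i ≤ (k + 1) * L := by
      have e1 : (1 : ℚ) ≤ L * ((k + 1 : ℕ) * (a i : ℚ)⁻¹) := by
        have : 0 < (L : ℚ) * (w : ℚ)⁻¹ := by positivity
        nlinarith
      rw [← mul_assoc, ← div_eq_mul_inv, le_div_iff₀ hai, one_mul] at e1
      rw [mul_comm]
      exact_mod_cast e1
    obtain ⟨t, ht⟩ := Nat.dvd_factorial (ha i hi).1 h6
    rcases hB ι (s.erase i) a w (by rw [Finset.card_erase_of_mem hi]; omega) hw
      (fun j hj => ha j (Finset.mem_of_mem_erase hj)) ⟨c * ((k + 1) * L).factorial + L * t, by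
        rw [← Finset.add_sum_erase s _ hi] at hc
        push_cast
        rw [← hc, ht]
        push_cast
        field_simp
        ring⟩ with h | ⟨j, hj, h⟩
    · exact Or.inl (h.trans (Nat.le_add_right _ _))
    · exact Or.inr ⟨j, Finset.mem_of_mem_erase hj, h⟩

end H41
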