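import Cfsg.Agent.H41.JordanCore

/-! The modular analogue of Jordan's theorem (Brauer and Feit). -/

set_option autoImplicit false
open Subgroup Module

universe u v w

namespace H41

section

variable {K : Type*} [Field K] {G : Type*} [Group G] {V : Type*} [AddCommGroup V] [Module K V]
  [FiniteDimensional K V] {ρ : Representation K G V}

/-- The commutant of a subgroup. -/
def commutant (ρ : Representation K G V) (A : Subgroup G) : Submodule K (End K V) where
  carrier := {T | ∀ a ∈ A, ρ a * T = T * ρ a}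
  add_mem' h1 h2 a ha := by rw [mul_add, add_mul, h1 a ha, h2 a ha]
  zero_mem' a _ := by rw [mul_zero, zero_mul]
  smul_mem' c T h a ha := by rw [mul_smul_comm, smul_mul_assoc, h a ha]

theorem jordan_chain (hρ : Function.Injective ρ) : ∃ d : Subgroup G → ℕ,
    (∀ A, d A ≤ finrank K V * finrank K V) ∧ ∀ A B : Subgroup G, A ≤ B →
      ¬ centralizer (A : Set G) ≤ centralizer (B : Set G) → d B < d A := by
  refine ⟨fun A => finrank K (commutant ρ A), fun A => ?_, fun A B hAB h => ?_⟩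
  · exact (Submodule.finrank_le _).trans (finrank_linearMap K K V V).le
  · obtain ⟨x, hx, hx'⟩ := SetLike.not_le_iff_exists.1 h
    refine Submodule.finrank_lt_finrank_of_lt (lt_of_le_of_ne (fun T hT a ha => hT a (hAB ha))
      fun e => hx' fun b hb => hρ ?_)
    have : ρ x ∈ commutant ρ A := fun a ha => by rw [← map_mul, ← map_mul, hx a ha]
    rw [← e] at this
    rw [map_mul, map_mul, this b hb]

theorem jordan_scal [Finite G] (hρ : Function.Injective ρ) (hn : 0 < finrank K V)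
    (hZ : ∀ z ∈ center G, ∃ c : K, ρ z = c • 1) (g : G) :
    Nat.card {z : G // z ∈ center G ∧ IsConj g (z * g)} ≤ finrank K V := by
  classical
  choose c hc using hZ
  have h1 : ∀ z : {z : G // z ∈ center G ∧ IsConj g (z * g)},
      c z.1 z.2.1 ∈ (Polynomial.nthRoots (finrank K V) (1 : K)).toFinset := by
    intro z
    rw [Multiset.mem_toFinset, Polynomial.mem_nthRoots hn]
    have e1 := isConj_iff_eq.1 (((LinearMap.det : End K V →* K).comp ρ).map_isConj z.2.2)
    have e2 : LinearMap.det (ρ g) ≠ 0 :=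
      ((Group.isUnit g).map ((LinearMap.det : End K V →* K).comp ρ)).ne_zero
    simp only [MonoidHom.comp_apply, map_mul, hc z.1 z.2.1, LinearMap.det_smul, map_one,
      mul_one] at e1
    exact mul_right_cancel₀ e2 (e1.symm.trans (one_mul _).symm)
  refine le_trans (Nat.card_le_card_of_injective
    (fun z => (⟨_, h1 z⟩ : (Polynomial.nthRoots (finrank K V) (1 : K)).toFinset))
    fun z z' e => Subtype.ext (hρ ?_)) ?_
  · rw [hc z.1 z.2.1, hc z'.1 z'.2.1,
      show c z.1 z.2.1 = c z'.1 z'.2.1 from Subtype.ext_iff.1 e]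
  · rw [Nat.card_eq_finsetCard]
    exact (Multiset.toFinset_card_le _).trans (Polynomial.card_nthRoots _ _)

variable {p : ℕ} [hp : Fact p.Prime]

omit [FiniteDimensional K V] in
theorem charP_end [CharP K p] [Nontrivial V] : CharP (End K V) p :=
  charP_of_injective_algebraMap (algebraMap K (End K V)).injective p

theorem pow_apply_of_mem_maxGen [CharP K p] [Nontrivial V] {f : End K V} {c : K} {v : V}
    (hv : v ∈ f.maxGenEigenspace c) :
    (f ^ p ^ finrank K V) v = c ^ p ^ finrank K V • v := by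
  have := charP_end (K := K) (V := V) (p := p)
  rw [End.maxGenEigenspace_eq_genEigenspace_finrank, End.mem_genEigenspace_nat,
    LinearMap.mem_ker] at hv
  obtain ⟨j, hj⟩ := Nat.exists_eq_add_of_le (Nat.lt_pow_self hp.out.one_lt (n := finrank K V)).le
  have h1 : ((f - c • 1) ^ p ^ finrank K V) v = 0 := by
    rw [hj, add_comm, pow_add, End.mul_apply, hv, map_zero]
  rw [sub_pow_char_pow_of_commute _ _ ((Commute.one_right f).smul_right c), LinearMap.sub_apply,
    sub_eq_zero, smul_pow, one_pow] at h1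
  exact h1

theorem card_le_of_isPGroup [Finite G] {P : Subgroup G} (hP : IsPGroup p P) {m : ℕ}
    (hm : (Nat.card G).factorization p ≤ m) : Nat.card P ≤ p ^ m := by
  obtain ⟨k, hk⟩ := hP.exists_card_eq
  have := (hp.out.pow_dvd_iff_le_factorization Nat.card_pos.ne').1 (hk ▸ P.card_subgroup_dvd_card)
  rw [hk]
  exact Nat.pow_le_pow_right hp.out.pos (this.trans hm)

theorem jordan_weyl [IsAlgClosed K] [CharP K p] [Nontrivial V] [Finite G]
    (hρ : Function.Injective ρ) {m : ℕ} (hm : (Nat.card G).factorization p ≤ m) (F : Subgroup G)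
    (hF : F ≤ centralizer (F : Set G)) :
    (centralizer (F : Set G)).relIndex (normalizer (F : Set G)) ≤
      finrank K V ^ finrank K V * (p ^ m) ^ p ^ m := by
  classical
  set E : (F → K) → Submodule K V := fun χ => ⨅ f : F, End.maxGenEigenspace (ρ f) (χ f) with hE
  have hc : ∀ (i j : F) (φ : K), Set.MapsTo (ρ i) (End.maxGenEigenspace (ρ j) φ)
      (End.maxGenEigenspace (ρ j) φ) := fun i j φ =>
    End.mapsTo_maxGenEigenspace_of_comm (by
      rw [Commute, SemiconjBy, ← map_mul, ← map_mul, hF i.2 j j.2]) φ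
  have hind : iSupIndep E := End.independent_iInf_maxGenEigenspace_of_forall_mapsTo _ hc
  have htop : ⨆ χ, E χ = ⊤ := End.iSup_iInf_maxGenEigenspace_eq_top_of_forall_mapsTo _ hc
    fun i => End.iSup_maxGenEigenspace_eq_top _
  have := hind.fintypeNeBotOfFiniteDimensional
  have hW : Nat.card {χ // E χ ≠ ⊥} ≤ finrank K V := by
    rw [Nat.card_eq_fintype_card]; exact hind.subtype_ne_bot_le_finrank
  set a := (Nat.card G).factorization p
  let P : Subgroup G :=
    { carrier := {u | u ∈ F ∧ u ^ p ^ a = 1}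
      one_mem' := ⟨F.one_mem, one_pow _⟩
      mul_mem' := fun {x y} hx hy => ⟨F.mul_mem hx.1 hy.1, by
        rw [(show Commute x y from hF hy.1 x hx.1).mul_pow, hx.2, hy.2, mul_one]⟩
      inv_mem' := fun {x} hx => ⟨F.inv_mem hx.1, by rw [inv_pow, hx.2, inv_one]⟩ }
  have hP : Nat.card P ≤ p ^ m :=
    card_le_of_isPGroup (P := P) (fun x => ⟨a, Subtype.ext x.2.2⟩) hm
  let cj : normalizer (F : Set G) → F → F := fun g f =>
    ⟨g * f * (g : G)⁻¹, (mem_normalizer_iff.1 g.2 f).1 f.2⟩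
  have h1 : ∀ (g : normalizer (F : Set G)) (χ : F → K), E χ ≠ ⊥ → E (fun f => χ (cj g f)) ≠ ⊥ := by
    intro g χ hχ
    obtain ⟨v, hv, hv0⟩ := (Submodule.ne_bot_iff _).1 hχ
    have e0 : ∀ x, ρ (g : G)⁻¹ (ρ g x) = x := fun x => by
      rw [← End.mul_apply, ← map_mul, inv_mul_cancel, map_one, End.one_apply]
    have e0' : ∀ x, ρ g (ρ (g : G)⁻¹ x) = x := fun x => by
      rw [← End.mul_apply, ← map_mul, mul_inv_cancel, map_one, End.one_apply]
    refine (Submodule.ne_bot_iff _).2 ⟨ρ (g : G)⁻¹ v, ?_, fun e => hv0 (by rw [← e0' v, e, map_zero])⟩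
    simp only [hE, Submodule.mem_iInf, End.mem_maxGenEigenspace] at hv ⊢
    intro f
    obtain ⟨k, hk⟩ := hv (cj g f)
    refine ⟨k, ?_⟩
    have e1 : SemiconjBy (ρ (g : G)⁻¹) (ρ (cj g f) - χ (cj g f) • 1) (ρ f - χ (cj g f) • 1) := by
      simp only [SemiconjBy, mul_sub, sub_mul, mul_smul_comm, smul_mul_assoc, mul_one, one_mul,
        ← map_mul, cj]
      congr 2
      group
    rw [← End.mul_apply, ← (e1.pow_right k).eq, End.mul_apply, hk, map_zero]
  refine (relIndex_le_of_map _ _ (β := ({χ // E χ ≠ ⊥} → {χ // E χ ≠ ⊥}) × (P → P))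
    (fun g => (fun χ => ⟨_, h1 g χ.1 χ.2⟩, fun u => ⟨g * u * (g : G)⁻¹,
      (mem_normalizer_iff.1 g.2 u).1 u.2.1, by rw [conj_pow, u.2.2]; simp⟩))
    fun g g' e => ?_).trans ?_
  · intro f hf
    have e1 : (cj g ⟨f, hf⟩ : G) ^ p ^ finrank K V = (cj g' ⟨f, hf⟩ : G) ^ p ^ finrank K V := by
      apply hρ
      rw [map_pow, map_pow, ← sub_eq_zero, ← LinearMap.ker_eq_top, eq_top_iff, ← htop]
      refine iSup_le fun χ v hv => ?_
      by_cases hχ : E χ = ⊥
      · rw [hχ, Submodule.mem_bot] at hv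
        rw [hv]
        exact zero_mem _
      have e2 : χ (cj g ⟨f, hf⟩) = χ (cj g' ⟨f, hf⟩) :=
        congrFun (Subtype.ext_iff.1 (congrFun (Prod.ext_iff.1 e).1 ⟨χ, hχ⟩)) ⟨f, hf⟩
      simp only [hE, Submodule.mem_iInf] at hv
      rw [LinearMap.mem_ker, LinearMap.sub_apply, pow_apply_of_mem_maxGen (hv _),
        pow_apply_of_mem_maxGen (hv _), e2, sub_self]
    have e2 : (cj g ⟨f, hf⟩ : G) ^ (Nat.card G / p ^ a) =
        (cj g' ⟨f, hf⟩ : G) ^ (Nat.card G / p ^ a) := by
      have := Subtype.ext_iff.1 (congrFun (Prod.ext_iff.1 e).2 ⟨f ^ (Nat.card G / p ^ a),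
        F.pow_mem hf _, by
          rw [← pow_mul, Nat.div_mul_cancel (Nat.ordProj_dvd _ _), pow_card_eq_one']⟩)
      simpa only [cj, conj_pow] using this
    have e3 : Commute (cj g ⟨f, hf⟩ : G) (cj g' ⟨f, hf⟩ : G)⁻¹ :=
      Commute.inv_right (hF (cj g' _).2 _ (cj g _).2)
    have e4 : (cj g ⟨f, hf⟩ : G) * (cj g' ⟨f, hf⟩ : G)⁻¹ = 1 :=
      (pow_eq_one_iff_of_coprime (Nat.Coprime.pow_left (finrank K V)
        (Nat.coprime_ordCompl hp.out (Nat.card_pos (α := G)).ne'))).1
        ⟨by rw [e3.mul_pow, inv_pow, e1, mul_inv_cancel],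
          by rw [e3.mul_pow, inv_pow, e2, mul_inv_cancel]⟩
    have e5 : (g : G) * f * (g : G)⁻¹ = g' * f * (g' : G)⁻¹ := mul_inv_eq_one.1 e4
    calc f * ((g : G)⁻¹ * g') = (g : G)⁻¹ * (g * f * (g : G)⁻¹) * g' := by group
      _ = _ := by rw [e5]; group
  · rw [Nat.card_prod, Nat.card_fun, Nat.card_fun]
    exact Nat.mul_le_mul
      ((Nat.pow_le_pow_left hW _).trans (Nat.pow_le_pow_right finrank_pos hW))
      ((Nat.pow_le_pow_left hP _).trans (Nat.pow_le_pow_right (Nat.pow_pos hp.out.pos) hP))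

/-- A subgroup whose commutators lie in a normal subgroup of exponent `p`. -/
theorem exists_comm_of_commutator_mem [Finite G] {m : ℕ} (hm : (Nat.card G).factorization p ≤ m)
    {U H : Subgroup G} [hU : U.Normal] (hUp : ∀ u ∈ U, u ^ p = 1)
    (hH : ∀ a ∈ H, ∀ b ∈ H, a * b * a⁻¹ * b⁻¹ ∈ U) :
    ∃ A : Subgroup G, A ≤ centralizer (A : Set G) ∧
      A.index ≤ p ^ m * ((p ^ m) ^ p ^ m * H.index) := by
  have h1 : Nat.card U ≤ p ^ m :=
    card_le_of_isPGroup (fun x => ⟨1, Subtype.ext (by simpa using hUp x x.2)⟩) hm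
  have h2 : (centralizer (U : Set G)).relIndex H ≤ (p ^ m) ^ p ^ m := by
    refine (relIndex_le_of_map _ _ (β := U → U)
      (fun g u => ⟨(g : G) * u * (g : G)⁻¹, hU.conj_mem _ u.2 _⟩) fun g g' e u hu => ?_).trans ?_
    · have e5 : (g : G) * u * (g : G)⁻¹ = g' * u * (g' : G)⁻¹ :=
        Subtype.ext_iff.1 (congrFun e ⟨u, hu⟩)
      calc u * ((g : G)⁻¹ * g') = (g : G)⁻¹ * (g * u * (g : G)⁻¹) * g' := by group
        _ = _ := by rw [e5]; group
    · rw [Nat.card_fun]
      exact (Nat.pow_le_pow_left h1 _).trans (Nat.pow_le_pow_right (Nat.pow_pos hp.out.pos) h1)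
  set C := centralizer (U : Set G) ⊓ H with hC
  have h3 : IsPGroup p (C ⧸ center C) := by
    intro q
    obtain ⟨x, rfl⟩ := QuotientGroup.mk_surjective q
    refine ⟨1, ?_⟩
    rw [pow_one, ← QuotientGroup.mk_pow, QuotientGroup.eq_one_iff, mem_center_iff]
    intro y
    apply Subtype.ext
    have e1 := hH y y.2.2 x x.2.2
    have e2 : Commute ((y : G) * x * (y : G)⁻¹ * (x : G)⁻¹) x := x.2.1 _ e1
    have e3 : ((y : G) * x * (y : G)⁻¹) ^ p = x ^ p := by
      rw [← inv_mul_cancel_right ((y : G) * x * (y : G)⁻¹) x, e2.mul_pow, hUp _ e1, one_mul]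
    rw [conj_pow, mul_inv_eq_iff_eq_mul] at e3
    exact e3
  obtain ⟨k, hk⟩ := h3.exists_card_eq
  have h4 : (center C).index ≤ p ^ m := by
    have := (hp.out.pow_dvd_iff_le_factorization Nat.card_pos.ne').1
      (hk ▸ (center C).card_quotient_dvd_card.trans C.card_subgroup_dvd_card)
    rw [index, hk]
    exact Nat.pow_le_pow_right hp.out.pos (this.trans hm)
  refine ⟨(center C).map C.subtype, ?_, ?_⟩
  · rintro _ ⟨x, hx, rfl⟩ _ ⟨y, -, rfl⟩
    exact congrArg Subtype.val (mem_center_iff.1 hx y)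
  · rw [index_map_subtype, ← relIndex_mul_index (inf_le_right : C ≤ H), hC, inf_relIndex_right]
    exact Nat.mul_le_mul h4 (Nat.mul_le_mul_right _ h2)

end

/-- The bound `N` works for faithful representations of degree at most `n`. -/
def JBound (K : Type v) [Field K] (p m n N : ℕ) : Prop :=
  ∀ (G : Type u) [Group G] [Finite G] (V : Type w) [AddCommGroup V] [Module K V]
    [FiniteDimensional K V] (ρ : Representation K G V), Function.Injective ρ →
    finrank K V ≤ n → (Nat.card G).factorization p ≤ m →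
    ∃ A : Subgroup G, A ≤ centralizer (A : Set G) ∧ A.index ≤ N

variable {K : Type v} [Field K] {p m n N : ℕ}

theorem JBound.of_rep (h : JBound.{u, v, w} K p m n N) {G : Type u} [Group G] [Finite G]
    {V : Type w} [AddCommGroup V] [Module K V] [FiniteDimensional K V] (ρ : Representation K G V)
    (hn : finrank K V ≤ n) (hm : (Nat.card G).factorization p ≤ m) :
    ∃ A : Subgroup G, (∀ a ∈ A, ∀ b ∈ A, ρ (a * b * a⁻¹ * b⁻¹) = 1) ∧ A.index ≤ N := by
  obtain ⟨A, h1, h2⟩ := h (G ⧸ ρ.ker) V (QuotientGroup.lift ρ.ker ρ le_rfl) (by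
    rw [injective_iff_map_eq_one]
    intro q hq
    obtain ⟨g, rfl⟩ := QuotientGroup.mk_surjective q
    exact (QuotientGroup.eq_one_iff g).2 hq) hn
    (((Nat.factorization_le_iff_dvd Nat.card_pos.ne' Nat.card_pos.ne').2
      ρ.ker.card_quotient_dvd_card p).trans hm)
  refine ⟨A.comap (QuotientGroup.mk' _), fun a ha b hb => ?_, ?_⟩
  · rw [← MonoidHom.mem_ker, ← QuotientGroup.eq_one_iff]
    have : (a : G ⧸ ρ.ker) * b = b * a := h1 hb _ ha
    simp [this]
  · rwa [index_comap_of_surjective _ (QuotientGroup.mk'_surjective _)]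

theorem JBound.of_invariant [hp : Fact p.Prime] [CharP K p] (h : JBound.{u, v, w} K p m n N)
    {G : Type u} [Group G] [Finite G] {V : Type w} [AddCommGroup V] [Module K V]
    [FiniteDimensional K V] {ρ : Representation K G V} (hρ : Function.Injective ρ)
    (hn : finrank K V ≤ n + 1) (hm : (Nat.card G).factorization p ≤ m) {W : Submodule K V}
    (hW : ∀ g, W ≤ W.comap (ρ g)) (h0 : W ≠ ⊥) (h1 : W ≠ ⊤) :
    ∃ A : Subgroup G, A ≤ centralizer (A : Set G) ∧
      A.index ≤ p ^ m * ((p ^ m) ^ p ^ m * (N * N)) := by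
  have e1 := W.finrank_quotient_add_finrank
  have e2 := Submodule.finrank_lt h1
  have e3 := Submodule.one_le_finrank_iff.2 h0
  have : Nontrivial V := (finrank_pos_iff (R := K)).1 (by omega)
  have := charP_end (K := K) (V := V) (p := p)
  obtain ⟨A, hA, hA'⟩ := h.of_rep (ρ.subrepresentation W hW) (by omega) hm
  obtain ⟨B, hB, hB'⟩ := h.of_rep (ρ.quotient W hW) (by omega) hm
  obtain ⟨C, hC, hC'⟩ := exists_comm_of_commutator_mem hm
    (U := (ρ.subrepresentation W hW).ker ⊓ (ρ.quotient W hW).ker) (H := A ⊓ B) (fun x hx => by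
      have k1 : (ρ x - 1) ^ 2 = 0 := by
        ext v
        have k2 : ρ x v - v ∈ W := (Submodule.Quotient.eq W).1
          (LinearMap.congr_fun (MonoidHom.mem_ker.1 hx.2) (Submodule.Quotient.mk v))
        have k3 : ρ x (ρ x v - v) = ρ x v - v :=
          congrArg Subtype.val (LinearMap.congr_fun (MonoidHom.mem_ker.1 hx.1) ⟨_, k2⟩)
        rw [sq, End.mul_apply, LinearMap.sub_apply, LinearMap.sub_apply, End.one_apply,
          End.one_apply, k3, sub_self, LinearMap.zero_apply]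
      have k4 := pow_eq_zero_of_le hp.out.two_le k1
      rw [sub_pow_char_of_commute _ (Commute.one_right _), one_pow, sub_eq_zero, ← map_pow,
        ← map_one ρ] at k4
      exact hρ k4)
    fun a ha b hb => ⟨hA a ha.1 b hb.1, hB a ha.2 b hb.2⟩
  exact ⟨C, hC, hC'.trans (Nat.mul_le_mul_left _ (Nat.mul_le_mul_left _
    (index_inf_le.trans (Nat.mul_le_mul hA' hB'))))⟩

theorem JBound.of_central [hp : Fact p.Prime] [CharP K p] [IsAlgClosed K]
    (h : JBound.{u, v, w} K p m n N)
    {G : Type u} [Group G] [Finite G] {V : Type w} [AddCommGroup V] [Module K V]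
    [FiniteDimensional K V] {ρ : Representation K G V} (hρ : Function.Injective ρ)
    (hn : finrank K V ≤ n + 1) (hm : (Nat.card G).factorization p ≤ m) {T : End K V}
    (hT : ∀ g, Commute T (ρ g)) (hT' : ¬ ∃ c : K, T = c • 1) :
    ∃ A : Subgroup G, A ≤ centralizer (A : Set G) ∧
      A.index ≤ p ^ m * ((p ^ m) ^ p ^ m * (N * N)) := by
  have : Nontrivial V := by
    by_contra hV
    have := not_nontrivial_iff_subsingleton.1 hV
    exact hT' ⟨0, Subsingleton.elim _ _⟩
  obtain ⟨c, hc⟩ := End.exists_eigenvalue T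
  refine h.of_invariant hρ hn hm (W := T.eigenspace c)
    (fun g => End.mapsTo_genEigenspace_of_comm (hT g) c 1) hc fun e => hT' ⟨c, ?_⟩
  ext v
  exact End.mem_eigenspace_iff.1 (e ▸ Submodule.mem_top)

theorem exists_jBound (p m : ℕ) [hp : Fact p.Prime] (n : ℕ) : ∃ N : ℕ,
    ∀ (K : Type v) [Field K] [CharP K p] [IsAlgClosed K], JBound.{u, v, w} K p m n N := by
  induction n with
  | zero =>
    refine ⟨1, fun K _ _ _ G _ _ V _ _ _ ρ hρ hn _ => ⟨⊤, fun a _ b _ => hρ ?_, by simp⟩⟩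
    have := (finrank_zero_iff (R := K)).1 (Nat.le_zero.1 hn)
    exact Subsingleton.elim _ _
  | succ n ih =>
    obtain ⟨N, hN⟩ := ih
    set N₁ := p ^ m * ((p ^ m) ^ p ^ m * (N * N))
    obtain ⟨B, hB⟩ := jordan_core.{u} (N₁ + 1) ((n + 1) * (n + 1))
      ((n + 1) ^ (n + 1) * (p ^ m) ^ p ^ m) (n + 1)
    refine ⟨N + N₁ + B, fun K _ _ _ G _ _ V _ _ _ ρ hρ hn hm => ?_⟩
    rcases hn.lt_or_eq with hn' | hn'
    · exact (hN K G V ρ hρ (by omega) hm).imp fun A h => ⟨h.1, by omega⟩
    by_cases hZ : ∀ z ∈ center G, ∃ c : K, ρ z = c • 1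
    swap
    · push Not at hZ
      obtain ⟨z, hz, hz'⟩ := hZ
      exact ((hN K).of_central hρ hn hm (T := ρ z) (fun g => by
        rw [Commute, SemiconjBy, ← map_mul, ← map_mul, mem_center_iff.1 hz g])
        (not_exists.2 hz')).imp fun A h => ⟨h.1, by omega⟩
    have : Nontrivial V := (finrank_pos_iff (R := K)).1 (by omega)
    refine (hB G ⟨fun g hg => ?_, hn' ▸ jordan_chain hρ, hn' ▸ jordan_weyl hρ hm,
      hn' ▸ jordan_scal hρ (by omega) hZ⟩).imp fun A h => ⟨h.1, by omega⟩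
    obtain ⟨A, h1, h2⟩ := (hN K).of_central
      (ρ := ρ.comp (centralizer ({g} : Set G)).subtype) (hρ.comp Subtype.val_injective) hn
      (((Nat.factorization_le_iff_dvd Nat.card_pos.ne' Nat.card_pos.ne').2
        (card_subgroup_dvd_card _) p).trans hm) (T := ρ g) (fun x => by
        change ρ g * ρ x = ρ x * ρ g
        rw [← map_mul, ← map_mul, mem_centralizer_singleton_iff.1 x.2]) (by
        rintro ⟨c, hc⟩
        refine hg (mem_center_iff.2 fun x => hρ ?_)
        rw [map_mul, map_mul, hc, mul_smul_comm, smul_mul_assoc, mul_one, one_mul])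
    refine ⟨A.map (centralizer ({g} : Set G)).subtype, map_subtype_le _, ?_, ?_⟩
    · rintro _ ⟨x, hx, rfl⟩ _ ⟨y, hy, rfl⟩
      exact congrArg Subtype.val (h1 hx y hy)
    · rw [relIndex, subgroupOf, comap_map_eq_self_of_injective (subtype_injective _)]
      omega

end H41
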