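import Cfsg.Agent.H41.LDKit2

/-! LD5: traces are controlled by short cycles. -/

set_option autoImplicit false

open Matrix Cfsg Cfsg.Geo H19

namespace H41.LD

universe u

variable {K : Type u} [Field K] {n : ℕ}

/-- The product of the rank one matrices of a list. -/
def wP : List (R n K) → Matrix (Fin n) (Fin n) K
  | [] => 1
  | x :: l => N x * wP l

/-- The reversed product. -/
def wQ (κ : K) : List (R n K) → Matrix (Fin n) (Fin n) K
  | [] => 1
  | x :: l => wQ κ l * κ • N x

theorem wP_snoc (l : List (R n K)) (x : R n K) : wP (l ++ [x]) = wP l * N x := by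
  induction l with
  | nil => simp [wP]
  | cons y l ih => simp [wP, ih, mul_assoc]

theorem wQ_snoc (κ : K) (l : List (R n K)) (x : R n K) : wQ κ (l ++ [x]) = κ • N x * wQ κ l := by
  induction l with
  | nil => simp [wQ]
  | cons y l ih => simp [wQ, ih, mul_assoc]

/-- The pair of traces of a word. -/
def wF (κ : K) (l : List (R n K)) : K × K := ((wP l).trace, (wQ κ l).trace)

theorem wF_rot (κ : K) (l : List (R n K)) (x : R n K) : wF κ (l ++ [x]) = wF κ (x :: l) := by
  rw [wF, wP_snoc, wQ_snoc, trace_mul_comm, trace_mul_comm _ (wQ κ l)]; rfl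

theorem wF_swap {κ : K} (hκ : κ * κ = 1) (x y : R n K) (l : List (R n K)) :
    wF κ ((y.1 + (x.2 ⬝ᵥ y.1) • x.1, y.2 + (κ * (y.2 ⬝ᵥ x.1)) • x.2) :: l) =
      wF κ (y :: l) + wF κ (x :: y :: l) + (κ, κ) * wF κ (y :: x :: l) +
        (κ, κ) * (cc x y, cc x y) * wF κ (x :: l) := by
  have e : N (y.1 + (x.2 ⬝ᵥ y.1) • x.1, y.2 + (κ * (y.2 ⬝ᵥ x.1)) • x.2) =
      N y + N x * N y + κ • (N y * N x) + (κ * cc x y) • N x := by
    simp only [N_add_left, N_add_right, N_smul_left, N_smul_right, N_mul_N, cc]
    module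
  simp only [wF, wP, wQ, e, add_mul, mul_add, smul_add, smul_mul_assoc, mul_smul_comm, trace_add,
    trace_smul, smul_eq_mul, Prod.mk_mul_mk, Prod.mk_add_mk, mul_assoc, Prod.mk.injEq, true_and]
  linear_combination (-κ * (wQ κ l * (N x * N y)).trace) * hκ

theorem wF_chord (κ : K) {x z : R n K} (h : cc x z ≠ 0) (y : R n K) (l : List (R n K)) :
    wF κ (x :: y :: z :: l) =
      (tau x y z, κ * tau x z y) * ((cc x z)⁻¹, (cc x z)⁻¹) * wF κ (x :: z :: l) := by
  have h1 := left_ne_zero_of_mul h
  have h2 := right_ne_zero_of_mul h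
  have e1 : N x * (N y * N z) = (tau x y z * (cc x z)⁻¹) • (N x * N z) := by
    simp only [N_mul_N, mul_smul_comm, smul_smul, tau, cc]; congr 1; field_simp
  have e2 : N z * (N y * N x) = (tau x z y * (cc x z)⁻¹) • (N z * N x) := by
    simp only [N_mul_N, mul_smul_comm, smul_smul, tau, cc]; congr 1; field_simp
  have e3 : N x * (N y * (N z * wP l)) = (tau x y z * (cc x z)⁻¹) • (N x * (N z * wP l)) := by
    rw [← mul_assoc (N y), ← mul_assoc, e1, smul_mul_assoc, mul_assoc]
  simp only [wF, wP, wQ, smul_mul_assoc, mul_smul_comm, mul_assoc, e2, e3, trace_smul, smul_eq_mul,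
    Prod.mk_mul_mk, Prod.mk.injEq, true_and]
  ring

theorem jobCyc : JobCyc.{u} := by
  intro K _ n S κ D Y hκ hY hD h1 hk h2 h3 h0
  have hz : ∀ x ∈ D, ∀ y ∈ D, x.2 ⬝ᵥ y.1 = 0 → ∀ l, wF κ (x :: y :: l) ∈ S := fun x hx y hy e l => by
    have e1 : (wP (x :: y :: l)).trace = 0 := by simp [wP, ← mul_assoc, N_mul_N, e]
    rcases h0 x hx y hy e with e' | e'
    · have e2 : (wQ κ (x :: y :: l)).trace = 0 := by simp [wQ, mul_assoc, N_mul_N, e']
      rw [wF, e1, e2]; exact S.zero_mem
    · rw [wF, e1]; exact e' _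
  have key : ∀ (k : ℕ) (l : List (R n K)), l.length = k → (∀ x ∈ l, x ∈ D) → wF κ l ∈ S := by
    intro k
    induction k using Nat.strong_induction_on with
    | _ k ih =>
    have sw : ∀ x y l, (x :: y :: l).length = k → (∀ z ∈ x :: y :: l, z ∈ D) →
        wF κ (y :: x :: l) ∈ S → wF κ (x :: y :: l) ∈ S := fun x y l hl hm h => by
      have hx := hm x (by simp)
      have hy := hm y (by simp)
      have one : ∀ z ∈ D, wF κ (z :: l) ∈ S := fun z hz => ih (l.length + 1)
        (by simp at hl; omega) _ rfl (by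
          simp only [List.forall_mem_cons] at hm ⊢; exact ⟨hz, hm.2.2⟩)
      have := sub_mem (sub_mem (sub_mem (one _ (hD x hx y hy)) (one y hy)) (mul_mem hk h))
        (mul_mem (mul_mem hk (h2 x hx y hy).1) (one x hx))
      rw [wF_swap hκ] at this
      convert this using 1; ring
    intro l hl hm
    match l, hl, hm with
    | [], _, _ =>
      simp only [wF, wP, wQ, trace_one, Fintype.card_fin]
      exact (natCast_mem S n : ((n : ℕ) : K × K) ∈ S)
    | [x], _, hm => simpa [wF, wP, wQ, trace_N] using h1 x (hm x (by simp))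
    | [x, y], _, hm =>
      have := (h2 x (hm x (by simp)) y (hm y (by simp))).1
      convert this using 1
      simp only [wF, wP, wQ, mul_one, one_mul, smul_mul_assoc, mul_smul_comm, trace_smul, ← cc_eq,
        smul_eq_mul, cc_comm y x, ← mul_assoc, hκ]
    | x :: y :: z :: l, hl, hm =>
      have hx := hm x (by simp)
      have hy := hm y (by simp)
      have hz' := hm z (by simp)
      by_cases hc : cc x z = 0
      · refine sw x y _ hl hm ?_
        rw [← wF_rot]
        rcases mul_eq_zero.1 hc with e | e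
        · exact hz x hx z hz' e _
        · refine sw x z (l ++ [y]) (by simpa using hl) (fun w hw => hm w ?_) (hz z hz' x hx e _)
          simp only [List.mem_cons, List.mem_append, List.not_mem_nil] at hw ⊢; tauto
      · rw [wF_chord κ hc]
        refine mul_mem (mul_mem (h3 x hx y hy z hz') (h2 x hx z hz').2)
          (ih (l.length + 2) (by simp at hl; omega) _ rfl fun w hw => hm w ?_)
        simp only [List.mem_cons] at hw ⊢; tauto
  intro g hg
  have : ∀ l : List (R n K), (∀ x ∈ l, x ∈ D) →
      ((g.val * wP l).trace, (wQ κ l * (g⁻¹).val).trace) ∈ S := by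
    induction hg using Subgroup.closure_induction_right with
    | one => intro l hl; simpa [wF] using key _ l rfl hl
    | mul_right g _ a ha ih =>
      intro l hl
      obtain ⟨x, hx, e1, e2⟩ := hY a ha
      have := add_mem (ih l hl) (ih (x :: l) (by simpa [hx] using hl))
      convert this using 1
      simp only [_root_.mul_inv_rev, Units.val_mul, e1, e2, wP, wQ, mul_add, add_mul, trace_add,
        mul_one, one_mul, mul_assoc, Prod.mk_add_mk]
    | mul_inv_cancel g _ a ha ih =>
      intro l hl
      obtain ⟨x, hx, e1, e2⟩ := hY a ha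
      have := add_mem (ih l hl) (mul_mem hk (ih (x :: l) (by simpa [hx] using hl)))
      convert this using 1
      simp only [_root_.mul_inv_rev, inv_inv, Units.val_mul, e1, e2, wP, wQ, mul_add, add_mul,
        trace_add, mul_one, one_mul, mul_assoc, Prod.mk_add_mk, Prod.mk_mul_mk, smul_mul_assoc,
        mul_smul_comm, trace_smul, smul_eq_mul]
      rw [← mul_assoc κ κ, hκ, one_mul]
  simpa [wP, wQ, trc] using this [] (by simp)

end H41.LD
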