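import Cfsg.Agent.H41.LDKit

/-! Basic lemmas for the tower LD5, second part: commutators, restriction, frames. -/

set_option autoImplicit false

open Matrix Cfsg Cfsg.Geo H19
open scoped MatrixGroups commutatorElement

namespace H41.LD

universe u

variable {K : Type u} [Field K] {n m : ℕ} {G H : Subgroup (GL (Fin n) K)} {x y z r s t : R n K}

theorem LF.exists_pow (h : LF K) {c : K} (hc : c ≠ 0) : ∃ k : ℕ, c ^ k = 1 ∧ (k : K) = -1 := by
  classical
  have := h {c}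
  let F := Subfield.closure (({c} : Finset K) : Set K)
  have := Fintype.ofFinite F
  let a : F := ⟨c, Subfield.subset_closure (by simp)⟩
  have ha : a ≠ 0 := fun e => hc (congrArg Subtype.val e)
  refine ⟨Fintype.card F - 1, congrArg Subtype.val (FiniteField.pow_card_sub_one_eq_one a ha), ?_⟩
  rw [Nat.cast_sub Fintype.card_pos]
  have := congrArg F.subtype (FiniteField.cast_card_eq_zero F)
  simp only [map_natCast, map_zero] at this
  simp [this]

theorem tv_pow (h : x.2 ⬝ᵥ x.1 = 0) (k : ℕ) : (1 + N x) ^ k = 1 + (k : K) • N x := by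
  induction k with
  | zero => simp
  | succ k ih =>
    rw [pow_succ, ih, add_mul, mul_add, mul_add, smul_mul_assoc, smul_mul_assoc, N_mul_N, h]
    simp [add_smul, add_assoc, add_comm]

theorem noTv_sup (hl : LF K) (h : NoTv G) : NoTv (G ⊔ scalars (Fin n) K) := fun x ⟨h0, g, hg, e⟩ => by
  obtain ⟨k, hk, c, rfl⟩ := mem_sup_scalars hg
  obtain ⟨j, h1, h2⟩ := hl.exists_pow c.ne_zero
  have h3 : (k * scal (Fin n) c) ^ j = k ^ j := by
    rw [(Commute.symm (scalars_commute (scal_mem c) k)).mul_pow,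
      show scal (Fin n) c ^ j = 1 from Units.ext (by simp [smul_pow, h1]), mul_one]
  have := h (-x.1, x.2) ⟨by simp [h0], k ^ j, G.pow_mem hk j, by
    rw [← h3, Units.val_pow_eq_pow_val, e, tv_pow h0, h2, N_neg_left]; simp⟩
  simpa using this

theorem RS.noTv {G : Subgroup (GL (Fin 5) K)} (hG : RS G) (h2 : (2 : K) ≠ 0) :
    NoTv (G ⊔ scalars (Fin 5) K) := noTv_sup hG.lf (hG.tv h2)

theorem In.of_mul {A B C : Matrix (Fin n) (Fin n) K} (hA : In G A) (hB : In G B) (e : A = C * B) :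
    In G C := by
  obtain ⟨g, hg, rfl⟩ := hA
  obtain ⟨k, hk, rfl⟩ := hB
  exact ⟨g * k⁻¹, G.mul_mem hg (G.inv_mem hk), by
    rw [Units.val_mul, e, mul_assoc, Units.mul_inv, mul_one]⟩

theorem In.of_mul' {A B C : Matrix (Fin n) (Fin n) K} (hA : In G A) (hB : In G B) (e : A = B * C) :
    In G C := by
  obtain ⟨g, hg, rfl⟩ := hA
  obtain ⟨k, hk, rfl⟩ := hB
  exact ⟨k⁻¹ * g, G.mul_mem (G.inv_mem hk) hg, by
    rw [Units.val_mul, e, ← mul_assoc, Units.inv_mul, one_mul]⟩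

theorem In.eq_zero {A : Matrix (Fin n) (Fin n) K} (hA : In G A) {v : Fin n → K} (e : A *ᵥ v = 0) :
    v = 0 := by
  obtain ⟨g, -, rfl⟩ := hA
  rw [← one_mulVec v, ← Units.inv_mul g, ← mulVec_mulVec, e, mulVec_zero]

/-- Commutator of two elements of a Heisenberg group. -/
theorem hc {a a' b b' f χ : Fin n → K} {k k' : K}
    (h : In H (1 + N (a, χ) + N (f, b) + k • N (f, χ)))
    (h' : In H (1 + N (a', χ) + N (f, b') + k' • N (f, χ))) (h1 : χ ⬝ᵥ a = 0) (h2 : χ ⬝ᵥ a' = 0)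
    (h3 : χ ⬝ᵥ f = 0) (h4 : b ⬝ᵥ f = 0) (h5 : b' ⬝ᵥ f = 0) :
    Tv H (f, (b ⬝ᵥ a' - b' ⬝ᵥ a) • χ) :=
  ⟨by simp [h3], (h.mul h').of_mul (h'.mul h) (by
    simp only [N_smul_right, mul_add, add_mul, smul_mul_assoc, mul_smul_comm, N_mk_mul, h1, h2, h3,
      h4, h5, mul_one, one_mul, zero_smul, smul_zero, add_zero]
    module)⟩

theorem hl0 (hH : NoTv H) {e ε f χ : Fin n → K} {α β k μ : K} {D : Matrix (Fin n) (Fin n) K}
    (h : In H (1 + α • N (e, χ) + β • N (f, ε) + k • N (f, χ))) (hα : α ≠ 0) (hβ : β ≠ 0)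
    (h0 : ε ⬝ᵥ e ≠ 0) (h1 : χ ⬝ᵥ e = 0) (h2 : χ ⬝ᵥ f = 0) (h3 : ε ⬝ᵥ f = 0) (hD : In H D)
    (d1 : D *ᵥ e = μ • e) (d2 : ε ᵥ* D = μ • ε) (d3 : D *ᵥ f = f) (d4 : χ ᵥ* D = χ)
    (hμ : μ ^ 2 ≠ 1) : f = 0 ∧ χ = 0 := by
  have he : e ≠ 0 := fun e' => h0 (by simp [e'])
  have hε : ε ≠ 0 := fun e' => h0 (by simp [e'])
  have hm : μ ≠ 0 := fun e' => he (hD.eq_zero (by simp [d1, e']))
  have h' : In H (1 + N ((α * μ) • e, χ) + N (f, (β * μ⁻¹) • ε) + k • N (f, χ)) :=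
    (hD.mul h).of_mul hD (by
      simp only [N_smul_right, N_smul_left, mul_add, add_mul, smul_mul_assoc, mul_smul_comm, mul_N,
        N_mul, d1, d2, d3, d4, mul_one, one_mul, smul_smul, inv_mul_cancel_right₀ hm])
  have h'' : In H (1 + N (α • e, χ) + N (f, β • ε) + k • N (f, χ)) := by
    rwa [N_smul_left, N_smul_right]
  have key := hH _ (hc h'' h' (by simp [h1]) (by simp [h1]) h2 (by simp [h3]) (by simp [h3]))
  have hne : (β • ε) ⬝ᵥ ((α * μ) • e) - ((β * μ⁻¹) • ε) ⬝ᵥ (α • e) ≠ 0 := by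
    have : (β • ε) ⬝ᵥ ((α * μ) • e) - ((β * μ⁻¹) • ε) ⬝ᵥ (α • e) =
        α * β * (ε ⬝ᵥ e) * μ⁻¹ * (μ ^ 2 - 1) := by simp; field_simp
    rw [this]
    exact mul_ne_zero (mul_ne_zero (mul_ne_zero (mul_ne_zero hα hβ) h0) (inv_ne_zero hm))
      (sub_ne_zero.2 hμ)
  rcases key with hf | hx
  · refine ⟨hf, ?_⟩
    have hf : f = 0 := hf
    simpa [hα, he] using hH (α • e, χ) ⟨by simp [h1], by simpa [hf, In] using h''⟩
  · have hx : χ = 0 := (smul_eq_zero.1 hx).resolve_left hne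
    refine ⟨?_, hx⟩
    simpa [hβ, hε] using hH (f, β • ε) ⟨by simp [h3], by simpa [hx, In] using h''⟩

theorem hl {e ε f χ : Fin n → K} {l : K} (hl : l ≠ 0) (h0 : ε ⬝ᵥ e = 1) (h1 : χ ⬝ᵥ e = 0) :
    (1 + (l - 1) • N (e + f, ε + χ)) * (1 + (l⁻¹ - 1) • N (e, ε)) =
      1 + (l - 1) • N (e, χ) + (1 - l⁻¹) • N (f, ε) + (l - 1) • N (f, χ) := by
  simp only [N_add_left, N_add_right, mul_add, add_mul, smul_mul_assoc, mul_smul_comm, N_mk_mul, h0,
    h1, mul_one, one_mul, zero_smul, smul_zero, add_zero, one_smul]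
  match_scalars <;> field_simp <;> ring

/-! ### the model monoid and restriction to a summand -/

section th

variable (U : Matrix (Fin n) (Fin m) K) (Φ : Matrix (Fin m) (Fin n) K)

theorem mm_mul (M M' : Matrix (Fin m) (Fin m) K) : (1 + U * M * Φ) * (1 + U * M' * Φ) =
    1 + U * (M + M' + M * (Φ * U) * M') * Φ := by
  simp only [mul_add, add_mul, Matrix.mul_add, Matrix.add_mul, Matrix.mul_assoc, mul_one, one_mul]
  abel

/-- A pair of the small space, seen in the big space. -/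
def up (y : R m K) : R n K := (U *ᵥ y.1, y.2 ᵥ* Φ)

theorem N_up (y : R m K) : N (up U Φ y) = U * N y * Φ := by
  rw [N, N, mul_vecMulVec, vecMulVec_mul]; rfl

/-- The matrix acting as `Y` on the summand and trivially on the complement. -/
def th (Y : Matrix (Fin m) (Fin m) K) : Matrix (Fin n) (Fin n) K := 1 + U * (Y - 1) * Φ

theorem th_one : th U Φ 1 = 1 := by simp [th]

theorem th_add (M : Matrix (Fin m) (Fin m) K) : th U Φ (1 + M) = 1 + U * M * Φ := by simp [th]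

theorem th_rf (y : R m K) : th U Φ (1 - N y) = 1 - N (up U Φ y) := by
  simp [th, N_up, sub_eq_add_neg]

theorem th_tv (c : K) (y : R m K) : th U Φ (1 + c • N y) = 1 + c • N (up U Φ y) := by
  simp [th, N_up]

variable {U Φ}

theorem up_dot (h : Φ * U = 1) (x y : R m K) : (up U Φ x).2 ⬝ᵥ (up U Φ y).1 = x.2 ⬝ᵥ y.1 := by
  simp only [up]
  rw [← dotProduct_mulVec, mulVec_mulVec, h, one_mulVec]

theorem cc_up (h : Φ * U = 1) (x y : R m K) : cc (up U Φ x) (up U Φ y) = cc x y := by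
  simp only [cc, up_dot h]

theorem tau_up (h : Φ * U = 1) (x y z : R m K) :
    tau (up U Φ x) (up U Φ y) (up U Φ z) = tau x y z := by simp only [tau, up_dot h]

theorem th_mul (h : Φ * U = 1) (Y Y' : Matrix (Fin m) (Fin m) K) :
    th U Φ (Y * Y') = th U Φ Y * th U Φ Y' := by
  rw [th, th, th, mm_mul, h]; congr 3; noncomm_ring

theorem th_back (h : Φ * U = 1) (Y : Matrix (Fin m) (Fin m) K) : Φ * th U Φ Y * U = Y := by
  simp only [th, Matrix.mul_add, Matrix.add_mul, Matrix.mul_one, h, Matrix.mul_assoc]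
  rw [← Matrix.mul_assoc, h]; simp

theorem th_inj (h : Φ * U = 1) : Function.Injective (th U Φ) := fun a b e => by
  rw [← th_back h a, e, th_back h]

theorem th_mul_U (h : Φ * U = 1) (Y : Matrix (Fin m) (Fin m) K) : th U Φ Y * U = U * Y := by
  simp only [th, Matrix.add_mul, Matrix.one_mul, h, Matrix.mul_assoc, Matrix.mul_one,
    Matrix.mul_sub]
  abel

theorem mul_th (h : Φ * U = 1) (Y : Matrix (Fin m) (Fin m) K) : Φ * th U Φ Y = Y * Φ := by
  simp only [th, Matrix.mul_add, Matrix.mul_one, ← Matrix.mul_assoc, h, Matrix.one_mul,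
    Matrix.sub_mul]
  abel

theorem det_th (h : Φ * U = 1) (Y : Matrix (Fin m) (Fin m) K) : (th U Φ Y).det = Y.det := by
  rw [th, Matrix.mul_assoc, det_one_add_mul_comm, Matrix.mul_assoc, h]; simp

theorem trace_th (h : Φ * U = 1) (Y : Matrix (Fin m) (Fin m) K) :
    (th U Φ Y).trace = Y.trace + (n - m) := by
  rw [th, trace_add, trace_mul_comm, ← Matrix.mul_assoc, h]; simp; ring

theorem N_up_eq_zero (h : Φ * U = 1) {y : R m K} : N (up U Φ y) = 0 ↔ N y = 0 :=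
  ⟨fun e => by simpa using th_inj h (a₁ := 1 - N y) (a₂ := 1) (by rw [th_rf, e, th_one]; simp),
    fun e => by simp [N_up, e]⟩

theorem N_up_inj (h : Φ * U = 1) {x y : R m K} : N (up U Φ x) = N (up U Φ y) ↔ N x = N y :=
  ⟨fun e => by simpa using th_inj h (a₁ := 1 - N x) (a₂ := 1 - N y) (by rw [th_rf, e, th_rf]),
    fun e => by simp [N_up, e]⟩

/-- `th` as a homomorphism of general linear groups. -/
def thG (h : Φ * U = 1) : GL (Fin m) K →* GL (Fin n) K :=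
  Units.map { toFun := th U Φ, map_one' := th_one U Φ, map_mul' := th_mul h }

theorem thG_val (h : Φ * U = 1) (g : GL (Fin m) K) : (thG h g).val = th U Φ g.val := rfl

theorem thG_inj (h : Φ * U = 1) : Function.Injective (thG h) := fun _ _ e =>
  Units.ext (th_inj h (congrArg Units.val e))

theorem in_comap (h : Φ * U = 1) {Y : Matrix (Fin m) (Fin m) K} :
    In (G.comap (thG h)) Y ↔ In G (th U Φ Y) := by
  refine ⟨fun ⟨g, hg, e⟩ => ⟨_, hg, e ▸ rfl⟩, fun ⟨g, hg, e⟩ => ?_⟩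
  have hd : Y.det ≠ 0 := by rw [← det_th h, ← e]; exact g.det_ne_zero
  refine ⟨Matrix.GeneralLinearGroup.mkOfDetNeZero Y hd, ?_, rfl⟩
  rwa [Subgroup.mem_comap, show thG h (Matrix.GeneralLinearGroup.mkOfDetNeZero Y hd) = g from
    Units.ext e.symm]

theorem rf_comap (h : Φ * U = 1) {y : R m K} : Rf (G.comap (thG h)) y ↔ Rf G (up U Φ y) :=
  ⟨fun hy => rf_of_in ((up_dot h y y).trans hy.1) (mt (N_up_eq_zero h).1 hy.N_ne)
    (th_rf U Φ y ▸ (in_comap h).1 hy.isIn), fun hy => rf_of_in ((up_dot h y y).symm.trans hy.1)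
    (mt (N_up_eq_zero h).2 hy.N_ne) ((in_comap h).2 (by rw [th_rf]; exact hy.isIn))⟩

theorem tv_comap (h : Φ * U = 1) {y : R m K} : Tv (G.comap (thG h)) y ↔ Tv G (up U Φ y) := by
  have e : th U Φ (1 + N y) = 1 + N (up U Φ y) := by rw [th_add, N_up]
  exact and_congr (by rw [up_dot h]) (((in_comap h).trans (by rw [e]; rfl)))

theorem nr_comap (h : Φ * U = 1) {r s t : R m K} :
    NR (G.comap (thG h)) r s t ↔ NR G (up U Φ r) (up U Φ s) (up U Φ t) :=
  ⟨fun a => ⟨(rf_comap h).1 a.r1, (rf_comap h).1 a.r2, (rf_comap h).1 a.r3, by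
    rw [tau_up h, tau_up h]; exact a.ne⟩, fun a => ⟨(rf_comap h).2 a.r1, (rf_comap h).2 a.r2,
    (rf_comap h).2 a.r3, by rw [← tau_up h, ← tau_up h r]; exact a.ne⟩⟩

theorem NoTv.comap (hG : NoTv G) (h : Φ * U = 1) : NoTv (G.comap (thG h)) := fun _ hy =>
  N_eq_zero.1 ((N_up_eq_zero h).1 (N_eq_zero.2 (hG _ ((tv_comap h).1 hy))))

theorem up_inj1 (h : Φ * U = 1) {a b : Fin m → K} (e : U *ᵥ a = U *ᵥ b) : a = b := by
  simpa [mulVec_mulVec, h] using congrArg (Φ *ᵥ ·) e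

theorem up_inj2 (h : Φ * U = 1) {a b : Fin m → K} (e : a ᵥ* Φ = b ᵥ* Φ) : a = b := by
  simpa [vecMul_vecMul, h] using congrArg (· ᵥ* U) e

theorem Thin.comap (hG : Thin G) (h : Φ * U = 1) : Thin (G.comap (thG h)) where
  sym a b e := by
    rw [← up_dot h] at e ⊢; exact hG.sym ((rf_comap h).1 a) ((rf_comap h).1 b) e
  uniqL a b e := up_inj2 h (hG.uniqL ((rf_comap h).1 a) ((rf_comap h).1 b) (congrArg (U *ᵥ ·) e))
  uniqR a b e := up_inj1 h (hG.uniqR ((rf_comap h).1 a) ((rf_comap h).1 b) (congrArg (· ᵥ* Φ) e))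

theorem finite_comap [Finite G] (h : Φ * U = 1) : Finite (G.comap (thG h)) :=
  Finite.of_injective (fun g : G.comap (thG h) => (⟨thG h g, g.2⟩ : G)) fun _ _ e =>
    Subtype.ext (thG_inj h (congrArg Subtype.val e))

end th

/-! ### dual systems -/

section dual

variable {e ε : Fin m → Fin n → K}

theorem Dual.same (h : Dual e ε) (i : Fin m) : ε i ⬝ᵥ e i = 1 := by simp [h i i]

theorem Dual.ne (h : Dual e ε) {i j : Fin m} (hij : i ≠ j) : ε i ⬝ᵥ e j = 0 := by simp [h i j, hij]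

theorem Dual.mul (h : Dual e ε) : Matrix.of ε * (Matrix.of e)ᵀ = 1 := by
  ext i j; rw [one_apply, ← h i j]; rfl

theorem sum_N (e ε : Fin m → Fin n → K) : ∑ i, N (e i, ε i) = (Matrix.of e)ᵀ * Matrix.of ε := by
  ext i j; simp [N, Matrix.sum_apply, vecMulVec_apply, mul_apply]

theorem Dual.sum_eq_one {e ε : Fin n → Fin n → K} (h : Dual e ε) : ∑ i, N (e i, ε i) = 1 := by
  rw [sum_N]; exact mul_eq_one_comm.1 h.mul

theorem Dual.perm {k : ℕ} (h : Dual e ε) {σ : Fin k → Fin m} (hσ : Function.Injective σ) :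
    Dual (e ∘ σ) (ε ∘ σ) := fun i j => by simp [h (σ i) (σ j), hσ.eq_iff]

/-- The component of a vector outside the span of a dual system. -/
theorem Dual.out1 (h : Dual e ε) (v : Fin n → K) (i : Fin m) :
    ε i ⬝ᵥ (v - ∑ j, (ε j ⬝ᵥ v) • e j) = 0 := by
  simp [dotProduct_sum, h i]

theorem Dual.out2 (h : Dual e ε) (ψ : Fin n → K) (i : Fin m) :
    (ψ - ∑ j, (ψ ⬝ᵥ e j) • ε j) ⬝ᵥ e i = 0 := by
  simp [sum_dotProduct, fun j => h j i]

theorem Dual.exists_ext (h : Dual e ε) (hm : m < n) :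
    ∃ E : R n K, E.2 ⬝ᵥ E.1 = 1 ∧ ∀ i, ε i ⬝ᵥ E.1 = 0 ∧ E.2 ⬝ᵥ e i = 0 := by
  obtain ⟨v, hv⟩ : ∃ v, v ∉ Submodule.span K (Set.range e) := by
    by_contra hc
    push Not at hc
    exact span_ne_top hm e (eq_top_iff.2 fun v _ => hc v)
  have hw : v - ∑ j, (ε j ⬝ᵥ v) • e j ≠ 0 := fun e' => hv (sub_eq_zero.1 e' ▸
    Submodule.sum_mem _ fun j _ => Submodule.smul_mem _ _ (Submodule.subset_span ⟨j, rfl⟩))
  obtain ⟨a, ha⟩ := exists_dot_one hw
  refine ⟨(_, a - ∑ j, (a ⬝ᵥ e j) • ε j), ?_, fun i => ⟨h.out1 v i, h.out2 a i⟩⟩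
  simp only [sub_dotProduct, ha, sum_dotProduct, smul_dotProduct, h.out1 v, smul_zero,
    Finset.sum_const_zero, sub_zero]

theorem Dual.snoc (h : Dual e ε) {E : R n K} (h0 : E.2 ⬝ᵥ E.1 = 1)
    (h1 : ∀ i, ε i ⬝ᵥ E.1 = 0 ∧ E.2 ⬝ᵥ e i = 0) :
    Dual (Fin.snoc e E.1 : Fin (m + 1) → Fin n → K) (Fin.snoc ε E.2) := fun i j => by
  refine Fin.lastCases ?_ (fun i => ?_) i <;> refine Fin.lastCases ?_ (fun j => ?_) j
  · simp [h0]
  · simp [(h1 j).2, (Fin.castSucc_ne_last j).symm]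
  · simp [(h1 i).1, Fin.castSucc_ne_last i]
  · simp [h i j]

theorem exists_compl {e ε : Fin m → Fin (m + 1) → K} (h : Dual e ε) :
    ∃ E : R (m + 1) K, E.2 ⬝ᵥ E.1 = 1 ∧ (∀ i, ε i ⬝ᵥ E.1 = 0 ∧ E.2 ⬝ᵥ e i = 0) ∧
      1 - ∑ i, N (e i, ε i) = N E := by
  obtain ⟨E, h0, h1⟩ := h.exists_ext (Nat.lt_succ_self m)
  refine ⟨E, h0, h1, ?_⟩
  rw [← (h.snoc h0 h1).sum_eq_one, Fin.sum_univ_castSucc]
  simp

theorem sw_dot (h : Dual e ε) {i j : Fin m} (hij : i ≠ j) {η : K} (hη : η ≠ 0) :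
    (sw e ε i j η).2 ⬝ᵥ (sw e ε i j η).1 = 2 := by
  simp [sw, h.same, h.ne hij, h.ne hij.symm, hη]; norm_num

theorem N_sw_symm (e ε : Fin m → Fin n → K) (i j : Fin m) {η : K} (hη : η ≠ 0) :
    N (sw e ε j i η⁻¹) = N (sw e ε i j η) := by
  simp only [sw, N_sub_left, N_sub_right, N_smul_left, N_smul_right, inv_inv]
  match_scalars <;> field_simp

theorem cj_sw_right (h : Dual e ε) {i j k : Fin m} (hij : i ≠ j) (hik : i ≠ k) (hjk : j ≠ k)
    (η θ : K) : cj (sw e ε j k θ) (sw e ε i j η) = sw e ε i k (η * θ) := by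
  refine Prod.ext ?_ ?_ <;>
    simp only [cj, sw, sub_dotProduct, dotProduct_sub, smul_dotProduct, dotProduct_smul, h.same,
      h.ne hij, h.ne hij.symm, h.ne hik, h.ne hik.symm, h.ne hjk, h.ne hjk.symm, mul_inv] <;> module

theorem sw_one_mulVec (h : Dual e ε) (a b i : Fin m) :
    (1 - N (sw e ε a b 1)) *ᵥ e i = e (Equiv.swap a b i) := by
  rw [rf_mulVec, Equiv.swap_apply_def]
  simp only [sw, inv_one, one_smul, sub_dotProduct, h a i, h b i]
  by_cases h1 : i = a <;> by_cases h2 : i = b <;> simp_all [eq_comm]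

theorem vecMul_sw_one (h : Dual e ε) (a b i : Fin m) :
    ε i ᵥ* (1 - N (sw e ε a b 1)) = ε (Equiv.swap a b i) := by
  rw [vecMul_rf, Equiv.swap_apply_def]
  simp only [sw, inv_one, one_smul, dotProduct_sub, h i a, h i b]
  by_cases h1 : i = a <;> by_cases h2 : i = b <;> simp_all

theorem cj_eq (x y : R n K) : cj x y = ((1 - N x) *ᵥ y.1, y.2 ᵥ* (1 - N x)) := by
  rw [rf_mulVec, vecMul_rf]; rfl

theorem cj_sw_one (h : Dual e ε) (a b i j : Fin m) (η : K) :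
    cj (sw e ε a b 1) (sw e ε i j η) = sw e ε (Equiv.swap a b i) (Equiv.swap a b j) η := by
  rw [cj_eq]
  generalize hA : 1 - N (sw e ε a b 1) = A
  simp only [sw, mulVec_sub, mulVec_smul, sub_vecMul, smul_vecMul]
  rw [← hA, sw_one_mulVec h, sw_one_mulVec h, vecMul_sw_one h, vecMul_sw_one h]

theorem cj_sw_one_dg (h : Dual e ε) (a b i : Fin m) :
    cj (sw e ε a b 1) (dg e ε i) = dg e ε (Equiv.swap a b i) := by
  rw [cj_eq]
  generalize hA : 1 - N (sw e ε a b 1) = A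
  simp only [dg, smul_vecMul]
  rw [← hA, sw_one_mulVec h, vecMul_sw_one h]

theorem dot_cj_sw_one (h : Dual e ε) (a b i : Fin m) (x : R n K) :
    ε i ⬝ᵥ (cj (sw e ε a b 1) x).1 = ε (Equiv.swap a b i) ⬝ᵥ x.1 := by
  rw [cj_eq, dotProduct_mulVec, vecMul_sw_one h]

theorem cj_sw_one_dot (h : Dual e ε) (a b i : Fin m) (x : R n K) :
    (cj (sw e ε a b 1) x).2 ⬝ᵥ e i = x.2 ⬝ᵥ e (Equiv.swap a b i) := by
  rw [cj_eq, ← dotProduct_mulVec, sw_one_mulVec h]

theorem sw_mul_sw (h : Dual e ε) {i j : Fin m} (hij : i ≠ j) {η θ : K} (hη : η ≠ 0) (hθ : θ ≠ 0) :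
    (1 - N (sw e ε i j θ)) * (1 - N (sw e ε i j η)) =
      1 + (η * θ⁻¹ - 1) • N (e i, ε i) + (η⁻¹ * θ - 1) • N (e j, ε j) := by
  simp only [sw, N_sub_left, N_sub_right, N_smul_left, N_smul_right, mul_sub, sub_mul,
    smul_mul_assoc, mul_smul_comm, N_mk_mul, h.same, h.ne hij, h.ne hij.symm, mul_one, one_mul,
    zero_smul, one_smul, smul_zero]
  match_scalars <;> field_simp <;> ring

theorem cc_sw (e ε : Fin m → Fin n → K) (i j : Fin m) {η : K} (hη : η ≠ 0) (x : R n K) :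
    cc (sw e ε i j η) x = X e ε x i + X e ε x j - η * ((ε i ⬝ᵥ x.1) * (x.2 ⬝ᵥ e j)) -
      η⁻¹ * ((ε j ⬝ᵥ x.1) * (x.2 ⬝ᵥ e i)) := by
  simp only [cc, sw, X, sub_dotProduct, dotProduct_sub, smul_dotProduct, dotProduct_smul,
    smul_eq_mul]
  field_simp; ring

theorem cc_sw_sw (h : Dual e ε) {i j : Fin m} (hij : i ≠ j) {η θ : K} (hη : η ≠ 0) (hθ : θ ≠ 0) :
    cc (sw e ε i j η) (sw e ε i j θ) = 2 + θ * η⁻¹ + θ⁻¹ * η := by
  simp only [cc, sw, sub_dotProduct, dotProduct_sub, smul_dotProduct, dotProduct_smul,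
    smul_eq_mul, h.same, h.ne hij, h.ne hij.symm]
  field_simp; ring

/-- The basic non-reversibility formula. -/
theorem tau_sw_sub (h : Dual e ε) {i j : Fin m} (hij : i ≠ j) {η θ : K} (hη : η ≠ 0) (hθ : θ ≠ 0)
    (x : R n K) : tau (sw e ε i j η) (sw e ε i j θ) x - tau (sw e ε i j η) x (sw e ε i j θ) =
      (X e ε x i - X e ε x j) * (θ * η⁻¹ - θ⁻¹ * η) := by
  simp only [tau, X, sw, sub_dotProduct, dotProduct_sub, smul_dotProduct, dotProduct_smul,
    smul_eq_mul, h.same, h.ne hij, h.ne hij.symm]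
  field_simp; ring

theorem dt_sw_sw (h : Dual e ε) {i j : Fin m} (hij : i ≠ j) {η θ : K} (hη : η ≠ 0) (hθ : θ ≠ 0)
    (x : R n K) : dt (sw e ε i j η) (sw e ε i j θ) x =
      (2 - θ * η⁻¹ - θ⁻¹ * η) * (2 - X e ε x i - X e ε x j) := by
  simp only [dt, tau, cc, X, sw, sub_dotProduct, dotProduct_sub, smul_dotProduct, dotProduct_smul,
    smul_eq_mul, h.same, h.ne hij, h.ne hij.symm]
  field_simp; ring

end dual

/-! ### frames -/

section frame

variable {e ε : Fin 3 → Fin n → K} {η θ : K}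

theorem Frame.mu_one (h : Frame G e ε) : Mu G e ε 1 := ⟨one_ne_zero, h.s01⟩

theorem Frame.mu_inv (h : Frame G e ε) (hη : Mu G e ε η) : Mu G e ε η⁻¹ := by
  have := h.s01.cj hη.2
  rw [cj_sw_one h.dual, Equiv.swap_apply_left, Equiv.swap_apply_right] at this
  exact ⟨inv_ne_zero hη.1, this.of_N (N_sw_symm e ε 1 0 hη.1)⟩

theorem Frame.sw_aux (h : Frame G e ε) (hη : Mu G e ε η) :
    Rf G (sw e ε 0 2 η) ∧ Rf G (sw e ε 1 2 η) := by
  have a := h.s12.cj hη.2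
  rw [cj_sw_one h.dual] at a
  have b := h.s01.cj a
  rw [cj_sw_one h.dual] at b
  exact ⟨a, b⟩

theorem Frame.sw (h : Frame G e ε) (hη : Mu G e ε η) {i j : Fin 3} (hij : i ≠ j) :
    Rf G (sw e ε i j η) := by
  have hi := h.mu_inv hη
  have key : ∀ i j, Rf G (LD.sw e ε i j η⁻¹) → Rf G (LD.sw e ε j i η) := fun i j a =>
    a.of_N (N_sw_symm e ε j i hη.1).symm
  fin_cases i <;> fin_cases j <;> simp at hij
  exacts [hη.2, (h.sw_aux hη).1, key _ _ hi.2, (h.sw_aux hη).2, key _ _ (h.sw_aux hi).1,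
    key _ _ (h.sw_aux hi).2]

theorem Frame.mu_of (h : Frame G e ε) (hη : η ≠ 0) {i j : Fin 3} (hij : i ≠ j)
    (a : Rf G (LD.sw e ε i j η)) : Mu G e ε η := by
  have key : ∀ a b i j, a ≠ b → Rf G (LD.sw e ε i j η) →
      Rf G (LD.sw e ε (Equiv.swap a b i) (Equiv.swap a b j) η) := fun a b i j hab c =>
    cj_sw_one h.dual a b i j η ▸ (h.sw h.mu_one hab).cj c
  refine ⟨hη, ?_⟩
  fin_cases i <;> fin_cases j <;> simp at hij
  exacts [a, key 1 2 _ _ (by decide) a, key 0 1 _ _ (by decide) a,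
    key 1 2 _ _ (by decide) (key 0 1 _ _ (by decide) a),
    key 0 1 _ _ (by decide) (key 1 2 _ _ (by decide) a), key 0 2 _ _ (by decide) a]

theorem Frame.mu_mul (h : Frame G e ε) (hη : Mu G e ε η) (hθ : Mu G e ε θ) : Mu G e ε (η * θ) :=
  h.mu_of (mul_ne_zero hη.1 hθ.1) (i := 0) (j := 2) (by decide)
    (cj_sw_right h.dual (i := 0) (j := 1) (k := 2) (by decide) (by decide) (by decide) η θ ▸
      (h.sw hθ (by decide)).cj hη.2)

theorem Frame.mu_pow (h : Frame G e ε) (hη : Mu G e ε η) (k : ℕ) : Mu G e ε (η ^ k) := by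
  induction k with
  | zero => simpa using h.mu_one
  | succ k ih => rw [pow_succ]; exact h.mu_mul ih hη

theorem Frame.diag (h : Frame G e ε) (hη : Mu G e ε η) {i j : Fin 3} (hij : i ≠ j) :
    In G (1 + (η - 1) • N (e i, ε i) + (η⁻¹ - 1) • N (e j, ε j)) := by
  have := (h.sw h.mu_one hij).isIn.mul (h.sw hη hij).isIn
  rwa [sw_mul_sw h.dual hij hη.1 one_ne_zero, inv_one, mul_one, mul_one] at this

theorem Frame.perm (h : Frame G e ε) {σ : Fin 3 → Fin 3} (hσ : Function.Injective σ) :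
    Frame G (e ∘ σ) (ε ∘ σ) :=
  ⟨h.dual.perm hσ, h.sw h.mu_one (hσ.ne (by decide)), h.sw h.mu_one (hσ.ne (by decide))⟩

theorem Frame.mu_perm (h : Frame G e ε) {σ : Fin 3 → Fin 3} (hσ : Function.Injective σ) :
    Mu G (e ∘ σ) (ε ∘ σ) η ↔ Mu G e ε η :=
  ⟨fun a => h.mu_of a.1 (hσ.ne (by decide)) a.2, fun a => ⟨a.1, h.sw a (hσ.ne (by decide))⟩⟩

/-- The pair statement for the indices `i, j`. -/
def HP2 {m : ℕ} (e ε : Fin m → Fin n → K) (x : R n K) (i j : Fin m) : Prop :=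
  X e ε x i = X e ε x j ∨ (X e ε x i = 1 ∧ Z e ε x j) ∨ (X e ε x j = 1 ∧ Z e ε x i) ∨
    (x.1 ∈ Submodule.span K {e i, e j} ∧ x.2 ∈ Submodule.span K {ε i, ε j})

theorem HP2.symm {e ε : Fin m → Fin n → K} {i j : Fin m} (h : HP2 e ε x i j) : HP2 e ε x j i := by
  unfold HP2 at h ⊢
  rw [Set.pair_comm (e j), Set.pair_comm (ε j)]
  tauto

theorem HP2.of_cj {e ε : Fin m → Fin n → K} (hd : Dual e ε) {a b i j : Fin m} (hab : a ≠ b)
    (h : HP2 e ε (cj (sw e ε a b 1) x) i j) : HP2 e ε x (Equiv.swap a b i) (Equiv.swap a b j) := by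
  simp only [HP2, X, Z, dot_cj_sw_one hd, cj_sw_one_dot hd] at h ⊢
  refine h.imp_right (Or.imp_right (Or.imp_right fun ⟨h1, h2⟩ => ?_))
  have h0 := rf_mul_self (sw_dot hd hab (one_ne_zero (α := K)))
  obtain ⟨p, q, h1⟩ := Submodule.mem_span_pair.1 h1
  obtain ⟨p', q', h2⟩ := Submodule.mem_span_pair.1 h2
  have h1 := congrArg ((1 - N (sw e ε a b 1)) *ᵥ ·) h1
  have h2 := congrArg (· ᵥ* (1 - N (sw e ε a b 1))) h2
  simp only [cj_eq, mulVec_add, mulVec_smul, add_vecMul, smul_vecMul, sw_one_mulVec hd,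
    vecMul_sw_one hd, mulVec_mulVec, vecMul_vecMul, h0, one_mulVec, vecMul_one] at h1 h2
  exact ⟨Submodule.mem_span_pair.2 ⟨_, _, h1⟩, Submodule.mem_span_pair.2 ⟨_, _, h2⟩⟩

theorem HP.pair (hp : HP G e ε) (h : Frame G e ε) (hx : Rf G x) {i j : Fin 3} (hij : i ≠ j) :
    HP2 e ε x i j := by
  have key : ∀ a b, a ≠ b → HP2 e ε x (Equiv.swap a b 0) (Equiv.swap a b 1) := fun a b hab =>
    HP2.of_cj h.dual hab (hp _ ((h.sw h.mu_one hab).cj hx))
  fin_cases i <;> fin_cases j <;> simp at hij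
  exacts [hp x hx, key 1 2 (by decide), key 0 1 (by decide), (key 0 2 (by decide)).symm,
    (key 1 2 (by decide)).symm, key 0 2 (by decide)]

theorem HP.perm (hp : HP G e ε) (h : Frame G e ε) {σ : Fin 3 → Fin 3}
    (hσ : Function.Injective σ) : HP G (e ∘ σ) (ε ∘ σ) := fun _ hx =>
  hp.pair h hx (hσ.ne (by decide))

end frame

end H41.LD
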