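import Cfsg.Agent.H41.LDMap

/-! LD5: rank three subgroups, transfer from dimension three. -/

set_option autoImplicit false

open Matrix Cfsg Cfsg.Geo H19
open scoped MatrixGroups commutatorElement

namespace H41.LD

universe u

section tr

variable {k K : Type u} [Field k] [Field K] {m n : ℕ}

/-- Data for the transfer of properties of reflection groups. -/
structure Tr (φ : k →+* K) (θ : GL (Fin m) k →* GL (Fin n) K) (L : R m k → R n K)
    (G' : Subgroup (GL (Fin m) k)) (G : Subgroup (GL (Fin n) K)) (r' s' t' : R m k)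
    (r s t : R n K) : Prop where
  inj : Function.Injective θ
  dot : ∀ x y, (L x).2 ⬝ᵥ (L y).1 = φ (x.2 ⬝ᵥ y.1)
  val : ∀ (g : GL (Fin m) k) y, g.val = 1 - N y → (θ g).val = 1 - N (L y)
  nn : ∀ x y, N x = N y → N (L x) = N (L y)
  lsw : ∀ (e ε : Fin 3 → Fin m → k) i j η, L (sw e ε i j η) =
    sw (fun i => (L (e i, ε i)).1) (fun i => (L (e i, ε i)).2) i j (φ η)
  ldg : ∀ (e ε : Fin 3 → Fin m → k) i, L (dg e ε i) =
    dg (fun i => (L (e i, ε i)).1) (fun i => (L (e i, ε i)).2) i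
  h1 : ∀ y, Rf G' y → Rf G (L y)
  h2 : ∀ x, Rf G x → Sup r s t x → ∃ y, Rf G' y ∧ N x = N (L y)
  h3 : ∀ y, Sup r s t (L y)
  h4 : ∀ y, Sup r' s' t' y

variable {φ : k →+* K} {θ : GL (Fin m) k →* GL (Fin n) K} {L : R m k → R n K}
  {G' : Subgroup (GL (Fin m) k)} {G : Subgroup (GL (Fin n) K)} {r' s' t' : R m k} {r s t : R n K}

theorem Tr.dual (h : Tr φ θ L G' G r' s' t' r s t) {e ε : Fin 3 → Fin m → k} (hd : Dual e ε) :
    Dual (fun i => (L (e i, ε i)).1) (fun i => (L (e i, ε i)).2) := fun i j => by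
  rw [h.dot, hd i j]; split_ifs <;> simp

theorem Tr.mono (h : Tr φ θ L G' G r' s' t' r s t) (hm : Mono G' r' s' t') : Mono G r s t := by
  obtain ⟨e, ε, hd, -, hm⟩ := hm
  refine ⟨_, _, h.dual hd, fun i => h.h3 _, fun x hx hs => ?_⟩
  obtain ⟨y, hy, e1⟩ := h.h2 x hx hs
  rcases hm y hy (h.h4 y) with ⟨i, h2, e2⟩ | ⟨i, j, η, hij, hη, e2⟩
  · exact .inl ⟨i, by rw [← map_ofNat φ 2]; exact (map_ne_zero φ).2 h2, by
      rw [e1, h.nn _ _ e2, h.ldg]⟩
  · exact .inr ⟨i, j, φ η, hij, (map_ne_zero φ).2 hη, by rw [e1, h.nn _ _ e2, h.lsw]⟩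

theorem Tr.q8 (h : Tr φ θ L G' G r' s' t' r s t) (hq : NoQ8 (ParG G' r' s' t')) :
    NoQ8 (ParG G r s t) := by
  have : ParG G r s t ≤ (ParG G' r' s' t').map θ := (Subgroup.closure_le _).2 fun g ⟨x, hx, hs, e⟩ => by
    obtain ⟨y, hy, e1⟩ := h.h2 x hx hs
    exact ⟨rf y hy.1, Subgroup.subset_closure ⟨y, hy, h.h4 y, rfl⟩,
      Units.ext (by rw [h.val _ y rfl, e, e1])⟩
  intro a ha b hb e1 e2
  obtain ⟨a, ha', rfl⟩ := this ha
  obtain ⟨b, hb', rfl⟩ := this hb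
  rw [← map_pow, hq a ha' b hb' (h.inj (by simpa using e1)) (h.inj (by simpa using e2)), map_one]

theorem Tr.tl (h : Tr φ θ L G' G r' s' t' r s t) (ht : TL G' r' s' t') : TL G r s t := by
  refine ⟨h.q8 ht.q8, fun x y hx sx hy sy => ?_, fun x y hx sx hy sy => ?_⟩
  all_goals
    obtain ⟨x', hx', e1⟩ := h.h2 x hx sx
    obtain ⟨y', hy', e2⟩ := h.h2 y hy sy
  · have : cc x y = φ (cc x' y') := by rw [cc_congr e1 e2, cc, cc, h.dot, h.dot, map_mul]
    rcases ht.cv x' y' hx' (h.h4 _) hy' (h.h4 _) with e | e | e | e <;> simp [this, e, map_ofNat]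
  · obtain ⟨e, ε, hb, -, b1, b2⟩ := ht.b3 x' y' hx' (h.h4 _) hy' (h.h4 _)
    have key : ∀ x x', N x = N (L x') → InB3 e ε x' →
        InB3 (fun i => (L (e i, ε i)).1) (fun i => (L (e i, ε i)).2) x := by
      rintro x x' e1 (⟨i, e2⟩ | ⟨i, j, hij, e2 | e2⟩)
      · exact .inl ⟨i, by rw [e1, h.nn _ _ e2, h.ldg]⟩
      · exact .inr ⟨i, j, hij, .inl (by rw [e1, h.nn _ _ e2, h.lsw, map_one])⟩
      · exact .inr ⟨i, j, hij, .inr (by rw [e1, h.nn _ _ e2, h.lsw, map_neg, map_one])⟩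
    refine ⟨_, _, ⟨h.dual hb.dual, fun i => h.ldg e ε i ▸ h.h1 _ (hb.rd i), fun i j hij => ?_⟩,
      fun i => h.h3 _, key _ _ e1 b1, key _ _ e2 b2⟩
    have a := h.h1 _ (hb.rs i j hij).1
    have b := h.h1 _ (hb.rs i j hij).2
    rw [h.lsw, map_one] at a
    rw [h.lsw, map_neg, map_one] at b
    exact ⟨a, b⟩

end tr

variable {K : Type u} [Field K] {n : ℕ} {G H : Subgroup (GL (Fin n) K)} {r s t x : R n K}

theorem Thin.anti (h : Thin G) (e : H ≤ G) : Thin H :=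
  ⟨fun a b => h.sym (a.mono e) (b.mono e), fun a b => h.uniqL (a.mono e) (b.mono e),
    fun a b => h.uniqR (a.mono e) (b.mono e)⟩

theorem NoTv.anti (h : NoTv G) (e : H ≤ G) : NoTv H := fun x hx => h x ⟨hx.1, In.mono hx.2 e⟩

theorem NR.mono (h : NR G r s t) (e : G ≤ H) : NR H r s t :=
  ⟨h.r1.mono e, h.r2.mono e, h.r3.mono e, h.ne⟩

theorem rf_gen : Rf (Gen {y | Rf G y}) x ↔ Rf G x :=
  ⟨fun h => h.mono (gen_le fun _ h => h), fun h => ⟨h.1, h.2.1, h.2.2.1, rf x h.1,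
    Subgroup.subset_closure ⟨x, h, rfl⟩, rfl⟩⟩

theorem gspan_of_nr (hT : Thin G) (h : NR G r s t) (hs : ∀ x, Sup r s t x) : gspan G = ⊤ := by
  have h1 : ∀ x, Rf G x → N x ∈ gspan G := fun x hx => by
    simpa [rf] using sub_mem (one_mem (gspan G)) (coe_mem_gspan hx.mem)
  have h2 : ∀ x y, Rf G x → Rf G y → x.2 ⬝ᵥ y.1 ≠ 0 → N (x.1, y.2) ∈ gspan G := fun x y hx hy e => by
    have := Subalgebra.smul_mem _ (mul_mem (h1 x hx) (h1 y hy)) (x.2 ⬝ᵥ y.1)⁻¹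
    rwa [N_mul_N, smul_smul, inv_mul_cancel₀ e, one_smul] at this
  have h3 : ∀ u φ, N (u, φ) ∈ gspan G := fun u φ => by
    obtain ⟨a, b, c, rfl⟩ := Submodule.mem_span_triple.1 (show u ∈ _ from (hs (u, φ)).1)
    obtain ⟨a', b', c', rfl⟩ := Submodule.mem_span_triple.1 (show φ ∈ _ from (hs (0, φ)).2)
    simp only [N_add_left, N_add_right, N_smul_left, N_smul_right]
    have := h1 r h.r1
    have := h1 s h.r2
    have := h1 t h.r3
    have := h2 r s h.r1 h.r2 (h.dot_ne hT)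
    have := h2 s r h.r2 h.r1 (h.dot_ne' hT)
    have := h2 s t h.r2 h.r3 (h.rot.dot_ne hT)
    have := h2 t s h.r3 h.r2 (h.rot.dot_ne' hT)
    have := h2 r t h.r1 h.r3 (h.swap.dot_ne hT)
    have := h2 t r h.r3 h.r1 (h.swap.dot_ne' hT)
    refine add_mem (add_mem ?_ ?_) ?_ <;> refine Subalgebra.smul_mem _ ?_ _ <;>
      refine add_mem (add_mem ?_ ?_) ?_ <;> refine Subalgebra.smul_mem _ ?_ _ <;> assumption
  refine eq_top_iff.2 fun a _ => ?_
  rw [matrix_eq_sum_single a]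
  refine sum_mem fun i _ => sum_mem fun j _ => ?_
  have := Subalgebra.smul_mem _ (h3 (Pi.single i 1) (Pi.single j 1)) (a i j)
  rwa [N, ← single_eq_single_vecMulVec_single, smul_single, smul_eq_mul, mul_one] at this

theorem exists_res (h1 : r.2 ⬝ᵥ r.1 = 2) (h2 : s.2 ⬝ᵥ s.1 = 2) (h3 : t.2 ⬝ᵥ t.1 = 2)
    (hd : dt r s t ≠ 0) : ∃ (U : Matrix (Fin n) (Fin 3) K) (Φ : Matrix (Fin 3) (Fin n) K),
      Φ * U = 1 ∧ ∀ x, Sup r s t x ↔ ∃ y, x = up U Φ y := by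
  let U : Matrix (Fin n) (Fin 3) K := (Matrix.of ![r.1, s.1, t.1])ᵀ
  let Φ : Matrix (Fin 3) (Fin n) K := Matrix.of ![r.2, s.2, t.2]
  have hA : IsUnit (Φ * U).det := by
    have : Φ * U = !![r.2 ⬝ᵥ r.1, r.2 ⬝ᵥ s.1, r.2 ⬝ᵥ t.1; s.2 ⬝ᵥ r.1, s.2 ⬝ᵥ s.1, s.2 ⬝ᵥ t.1;
        t.2 ⬝ᵥ r.1, t.2 ⬝ᵥ s.1, t.2 ⬝ᵥ t.1] := by
      ext i j; fin_cases i <;> fin_cases j <;> rfl
    refine (Ne.isUnit fun e => hd ?_)
    rw [this, det_fin_three] at e
    simp [h1, h2, h3] at e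
    simp only [dt, cc, tau]; linear_combination e
  have e1 : ∀ y, U *ᵥ y = y 0 • r.1 + y 1 • s.1 + y 2 • t.1 := fun y => by
    ext i; simp [U, mulVec, dotProduct, Fin.sum_univ_three, mul_comm]
  have e2 : ∀ y, y ᵥ* Φ = y 0 • r.2 + y 1 • s.2 + y 2 • t.2 := fun y => by
    ext i; simp [Φ, vecMul, dotProduct, Fin.sum_univ_three]
  refine ⟨U, (Φ * U)⁻¹ * Φ, by rw [Matrix.mul_assoc, nonsing_inv_mul _ hA], fun x => ⟨fun ⟨a, b⟩ => ?_, ?_⟩⟩
  · obtain ⟨a1, a2, a3, a⟩ := Submodule.mem_span_triple.1 a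
    obtain ⟨b1, b2, b3, b⟩ := Submodule.mem_span_triple.1 b
    refine ⟨(![a1, a2, a3], ![b1, b2, b3] ᵥ* (Φ * U)), Prod.ext (by simp [up, e1, a]) ?_⟩
    simp only [up]
    rw [vecMul_vecMul, ← Matrix.mul_assoc, mul_nonsing_inv _ hA, Matrix.one_mul, e2]
    simp [b]
  · rintro ⟨y, rfl⟩
    exact ⟨Submodule.mem_span_triple.2 ⟨_, _, _, (e1 _).symm⟩, Submodule.mem_span_triple.2
      ⟨_, _, _, by simp only [up]; rw [← vecMul_vecMul, e2]⟩⟩

theorem not_dual_succ {e ε : Fin (n + 1) → Fin n → K} : ¬ Dual e ε := fun h => by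
  have := (rank_mul_le_left (Matrix.of ε) (Matrix.of e)ᵀ).trans (rank_le_card_width _)
  rw [h.mul, rank_one] at this
  simp at this

/-- A group with an irreducible perfect subgroup permutes no orthogonal family. -/
theorem prim_of_perfect {G E : Subgroup (GL (Fin 3) K)} (hG : G ≤ Gen {x | Rf G x}) (hE : E ≤ G)
    (hp : ⁅E, E⁆ = E) (ha : ActsAbsolutelyIrreducibly (matrixSet E)) (S : Set (R 3 K))
    (h0 : S.Nonempty) (h1 : ∀ E ∈ S, E.2 ⬝ᵥ E.1 = 1)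
    (h2 : ∀ E ∈ S, ∀ E' ∈ S, N E = N E' ∨ (E.2 ⬝ᵥ E'.1 = 0 ∧ E'.2 ⬝ᵥ E.1 = 0)) :
    ¬ ∀ x, Rf G x → ∀ E ∈ S, ∃ E' ∈ S, N E' = (1 - N x) * N E * (1 - N x) := fun h3 => by
  classical
  have inv : ∀ g ∈ E, ∀ A ∈ N '' S, g.val * A * (g⁻¹).val ∈ N '' S := fun g hg => by
    have key : ∀ a ∈ {g : GL (Fin 3) K | ∃ x ∈ {x | Rf G x}, g.val = 1 - N x}, a⁻¹ = a ∧
        ∀ A ∈ N '' S, a.val * A * (a⁻¹).val ∈ N '' S := by
      rintro a ⟨x, hx, e⟩
      have : a⁻¹ = a := inv_eq_of_mul_eq_one_right (Units.ext (by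
        rw [Units.val_mul, e]; exact rf_mul_self hx.1))
      refine ⟨this, ?_⟩
      rintro _ ⟨A, hA, rfl⟩
      rw [this, e]; exact h3 x hx A hA
    refine Subgroup.closure_induction_left (p := fun g _ => ∀ A ∈ N '' S,
      g.val * A * (g⁻¹).val ∈ N '' S) (by simp) (fun a ha b _ hb A hA => ?_)
      (fun a ha b _ hb A hA => ?_) (hG (hE hg))
    · simpa [mul_assoc] using (key a ha).2 _ (hb A hA)
    · rw [(key a ha).1]; simpa [mul_assoc] using (key a ha).2 _ (hb A hA)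
  let _ : MulAction E (N '' S) :=
    { smul := fun g A => ⟨g.1.val * A.1 * (g.1⁻¹).val, inv g.1 g.2 A.1 A.2⟩
      one_smul := fun A => Subtype.ext (by change (1 : GL (Fin 3) K).val * _ * (1⁻¹ : GL _ K).val = _; simp)
      mul_smul := fun a b A => Subtype.ext (by
        change (a.1 * b.1).val * _ * ((a.1 * b.1)⁻¹).val = a.1.val * (b.1.val * _ * (b.1⁻¹).val) * (a.1⁻¹).val
        simp [mul_assoc]) }
  have h4 : IsEmpty (Fin 4 ↪ N '' S) := ⟨fun f => by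
    choose E hE e using fun i => (f i).2
    refine not_dual_succ (e := fun i => (E i).1) (ε := fun i => (E i).2) fun i j => ?_
    split_ifs with hij
    · exact hij ▸ h1 _ (hE i)
    · exact ((h2 _ (hE i) _ (hE j)).resolve_left fun e' =>
        hij (f.injective (Subtype.ext (by rw [← e, ← e, e'])))).1⟩
  have : Finite (N '' S) := by
    by_contra hc
    have : Infinite (N '' S) := not_finite_iff_infinite.1 hc
    exact h4.false (Fin.valEmbedding.trans (Infinite.natEmbedding _))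
  have := Fintype.ofFinite (N '' S)
  obtain ⟨ι⟩ : Nonempty (N '' S ↪ Fin 3) := Function.Embedding.nonempty_of_card_le (by
    by_contra hc
    exact (Function.Embedding.nonempty_of_card_le (α := Fin 4) (by simp at hc ⊢; omega)).elim
      h4.false)
  let f := (Equiv.Perm.viaEmbeddingHom ι).comp (MulAction.toPermHom E (N '' S))
  have hc : commutator E = ⊤ := by
    rw [eq_top_iff, ← Subgroup.map_le_map_iff_of_injective E.subtype_injective,
      Subgroup.map_subtype_commutator, hp]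
    exact Subgroup.map_subtype_le _
  have ab : ∀ {A : Type} [Group A] (f : E →* A), (∀ a b, f a * f b = f b * f a) → ∀ g, f g = 1 :=
    fun f hf g => (show commutator E ≤ f.ker from Subgroup.commutator_le.2 fun a _ b _ => by
      rw [MonoidHom.mem_ker, map_commutatorElement, commutatorElement_eq_one_iff_mul_comm, hf])
      (hc ▸ Subgroup.mem_top g)
  have hs := ab (Equiv.Perm.sign.comp f) fun _ _ => mul_comm _ _
  have hf := ab f fun a b => (by decide : ∀ a b : Equiv.Perm (Fin 3), Equiv.Perm.sign a = 1 →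
    Equiv.Perm.sign b = 1 → a * b = b * a) _ _ (hs a) (hs b)
  obtain ⟨A, hA⟩ := h0
  obtain ⟨c, hc⟩ := ha.2 (N A) (by
    rintro _ ⟨g, hg, rfl⟩
    have := Equiv.Perm.viaEmbeddingHom_injective ι ((hf ⟨g, hg⟩).trans (map_one _).symm)
    have := congrArg Subtype.val (Equiv.congr_fun this ⟨_, A, hA, rfl⟩)
    exact ((Units.mul_inv_eq_iff_eq_mul g).1 this).symm)
  exact N_ne_smul_one (by norm_num) (fun e => by simpa [trace_N, h1 A hA] using congrArg trace e) c hc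

theorem jobL3 (hA : JobA3.{u}) (hL : JobB3L.{u}) (hW : JobB3W.{u}) : JobL3.{u} := by
  intro K _ _ G hG r s t h hd
  obtain ⟨U, Φ, hU, hs⟩ := exists_res h.r1.1 h.r2.1 h.r3.1 hd
  obtain ⟨r', rfl⟩ := (hs r).1 (sup_1 ..)
  obtain ⟨s', rfl⟩ := (hs s).1 (sup_2 ..)
  obtain ⟨t', rfl⟩ := (hs t).1 (sup_3 ..)
  have := hG.fin
  have := finite_comap (G := G) hU
  set G1 := Gen {y | Rf (G.comap (thG hU)) y} with hG1
  have le1 : G1 ≤ G.comap (thG hU) := gen_le fun _ h => h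
  have fin1 : Finite G1 := Finite.of_injective _ (Subgroup.inclusion_injective le1)
  have rf1 : ∀ {y}, Rf G1 y ↔ Rf G (up U Φ y) := rf_gen.trans (rf_comap hU)
  have sup1 : ∀ y, Sup r' s' t' y := fun y => by
    obtain ⟨a, b⟩ := (hs _).2 ⟨y, rfl⟩
    obtain ⟨a1, a2, a3, a⟩ := Submodule.mem_span_triple.1 a
    obtain ⟨b1, b2, b3, b⟩ := Submodule.mem_span_triple.1 b
    exact ⟨Submodule.mem_span_triple.2 ⟨a1, a2, a3, up_inj1 hU (by
      simpa only [mulVec_add, mulVec_smul, up] using a)⟩, Submodule.mem_span_triple.2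
      ⟨b1, b2, b3, up_inj2 hU (by simpa only [add_vecMul, smul_vecMul, up] using b)⟩⟩
  have nr1 : NR G1 r' s' t' := ⟨rf1.2 h.r1, rf1.2 h.r2, rf1.2 h.r3, ((nr_comap hU).2 h).ne⟩
  have th1 : Thin G1 := (hG.thin.comap hU).anti le1
  have gen1 : G1 ≤ Gen {y | Rf G1 y} := by simp only [hG1, rf_gen, le_refl]
  have R1 : R3 G1 r' s' t' := ⟨fin1, gen1, fun h2 => ((hG.tv h2).comap hU).anti le1, th1, nr1,
    by simpa only [dt, cc_up hU, tau_up hU] using hd, gspan_of_nr th1 nr1 sup1, sup1⟩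
  have T1 : Tr (RingHom.id K) (thG hU) (up U Φ) G1 G r' s' t' (up U Φ r') (up U Φ s') (up U Φ t') :=
    ⟨thG_inj hU, up_dot hU, fun g y e => by rw [thG_val, e, th_rf], fun _ _ => (N_up_inj hU).2,
      fun e ε i j η => by simp [up, sw, mulVec_sub, mulVec_smul, sub_vecMul, smul_vecMul],
      fun e ε i => by simp only [up, dg, smul_vecMul], fun _ => rf1.1, fun x hx sx => by
        obtain ⟨y, rfl⟩ := (hs x).1 sx; exact ⟨y, rf1.2 hx, rfl⟩, fun y => (hs _).2 ⟨y, rfl⟩, sup1⟩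
  rcases hA K G1 r' s' t' R1 with hm | ⟨E, hE, hn, hq⟩
  · exact .inl (T1.mono hm)
  obtain ⟨F, hF, leF⟩ := hG.lf.exists_subfield G1
  let φ := F.subtype
  obtain ⟨r2, hr, er⟩ := exists_rf_mp φ leF nr1.r1
  obtain ⟨s2, hs2, es⟩ := exists_rf_mp φ leF nr1.r2
  obtain ⟨t2, ht, et⟩ := exists_rf_mp φ leF nr1.r3
  have nr2 : NR (G1.comap (mG φ)) r2 s2 t2 := ⟨hr, hs2, ht, fun e => nr1.ne (by
    rw [← tau_congr er es et, ← tau_congr er et es, tau_mp, tau_mp, e])⟩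
  have dt2 : dt r2 s2 t2 ≠ 0 := fun e => R1.dt (by
    have := dt_mp φ r2 s2 t2
    rw [e, map_zero] at this
    simpa only [dt, cc_congr er es, cc_congr es et, cc_congr er et, tau_congr er es et,
      tau_congr er et es] using this)
  have sup2 : ∀ y, Sup r2 s2 t2 y := fun y => by
    obtain ⟨U, Φ, hU, hs⟩ := exists_res hr.1 hs2.1 ht.1 dt2
    exact (hs y).2 ⟨(Φ *ᵥ y.1, y.2 ᵥ* U), by
      simp [up, mulVec_mulVec, vecMul_vecMul, mul_eq_one_comm.1 hU]⟩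
  have th2 := th1.comap_mG φ
  have R2 : R3 (G1.comap (mG φ)) r2 s2 t2 := ⟨inferInstance, fun g hg => ?_, fun h2 =>
    (R1.tv fun e => h2 (φ.injective (by rw [map_ofNat, e, map_zero]))).comap_mG φ, th2, nr2, dt2,
    gspan_of_nr th2 nr2 sup2, sup2⟩
  swap
  · have : G1 ≤ (Subgroup.closure {g | ∃ x, Rf (G1.comap (mG φ)) x ∧ g.val = 1 - N x}).map (mG φ) :=
      gen1.trans ((Subgroup.closure_le _).2 fun g ⟨x, hx, e⟩ => by
        obtain ⟨y, hy, e'⟩ := exists_rf_mp φ leF hx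
        exact ⟨rf y hy.1, Subgroup.subset_closure ⟨y, hy, rfl⟩, Units.ext (by
          rw [e, ← e', ← map_rf]; rfl)⟩)
    obtain ⟨a, ha, e⟩ := this hg
    exact mG_inj φ e ▸ ha
  have T2 : Tr φ (mG φ) (mp φ) (G1.comap (mG φ)) G1 r2 s2 t2 r' s' t' :=
    ⟨mG_inj φ, mp_dot φ, fun g y e => by rw [mG_val, e, map_rf], fun _ _ => (N_mp_inj φ).2,
      fun e ε i j η => by ext <;> simp [mp, sw], fun e ε i => by ext <;> simp [mp, dg, map_ofNat],
      fun _ => (rf_comap_mG φ).1, fun x hx _ => by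
        obtain ⟨y, hy, e⟩ := exists_rf_mp φ leF hx; exact ⟨y, hy, e.symm⟩, fun _ => sup1 _, sup2⟩
  have hn2 : ∀ g ∈ G1.comap (mG φ), ∀ x ∈ E.comap (mG φ), g * x * g⁻¹ ∈ E.comap (mG φ) :=
    fun g hg x hx => by simpa using hn _ hg _ hx
  have hq2 := qs3_comap φ (hE.trans leF) hq
  obtain ⟨h2, hc⟩ := hL F _ _ r2 s2 t2 R2 (Subgroup.comap_mono hE) hn2 hq2
  refine .inr ⟨by rw [← map_ofNat φ 2]; exact (map_ne_zero φ).2 h2, hc.imp
    (fun a => T1.tl (T2.tl a)) fun a => ?_⟩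
  obtain ⟨q8, ⟨A, w, hA, hw, h3, g, hg, e⟩, -⟩ :=
    hW F _ _ r2 s2 t2 R2 (Subgroup.comap_mono hE) hn2 hq2 h2 a
  obtain rfl : A = 1 := ext_of_mulVec_single fun i => by
    rw [one_mulVec]; exact (hA.l (_, 0) (sup2 _)).1
  refine ⟨T1.q8 (T2.q8 q8), ⟨U * Φ, φ w, ⟨fun x hx => ?_, fun x => (hs _).2 ⟨(Φ *ᵥ x.1, x.2 ᵥ* U),
    by simp [up, mulVec_mulVec, vecMul_vecMul]⟩⟩, by simpa using congrArg φ hw,
    by rw [← map_ofNat φ 3]; exact (map_ne_zero φ).2 h3, thG hU (mG φ g), le1 hg, ?_⟩,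
    fun S h0 h1 h2 h3 => ?_⟩
  · obtain ⟨y, rfl⟩ := (hs x).1 hx
    simp only [up, mulVec_mulVec, vecMul_vecMul, Matrix.mul_assoc, hU, Matrix.mul_one, true_and]
    rw [← Matrix.mul_assoc, hU, Matrix.one_mul]
  · rw [thG_val, mG_val, e, map_one_add_smul, th_add]; simp
  · refine prim_of_perfect gen1 hE hq.perfect hq.absIrr (up U Φ ⁻¹' S) ?_
      (fun E hE => up_dot hU E E ▸ (h1 _ hE).2) (fun E hE E' hE' => ?_) fun x hx E hE => ?_
    · obtain ⟨E, hE⟩ := h0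
      obtain ⟨y, rfl⟩ := (hs E).1 (h1 E hE).1
      exact ⟨y, hE⟩
    · simpa only [N_up_inj hU, up_dot hU] using h2 _ hE _ hE'
    · obtain ⟨E', hE', e⟩ := h3 _ (rf1.1 hx) ((hs _).2 ⟨x, rfl⟩) _ hE
      obtain ⟨y, rfl⟩ := (hs E').1 (h1 E' hE').1
      refine ⟨y, hE', ((N_up_inj hU).1 ?_).trans (N_cj x E)⟩
      rw [e, ← N_cj]
      congr 1
      simp only [cj, up_dot hU]
      simp [up, mulVec_sub, mulVec_smul, sub_vecMul, smul_vecMul]

end H41.LD
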