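import Cfsg.Agent.H41.LDKit2
import Cfsg.Agent.H19.L3Cov

/-! LD5: change of the field. -/

set_option autoImplicit false

open Matrix Cfsg Cfsg.Geo H19
open scoped MatrixGroups commutatorElement

namespace H41.LD

universe u v

variable {k : Type v} {K : Type u} [Field k] [Field K] {n : ℕ} (φ : k →+* K)
  {G : Subgroup (GL (Fin n) K)} {P : Subgroup (GL (Fin n) k)}

/-- A pair over the small field, seen over the big field. -/
def mp (x : R n k) : R n K := (φ ∘ x.1, φ ∘ x.2)

/-- The map of general linear groups. -/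
abbrev mG : GL (Fin n) k →* GL (Fin n) K := GeneralLinearGroup.map φ

theorem mG_val (g : GL (Fin n) k) : (mG φ g).val = g.val.map φ := rfl

theorem map_inj : Function.Injective fun A : Matrix (Fin n) (Fin n) k => A.map φ :=
  Matrix.map_injective φ.injective

theorem mG_inj : Function.Injective (mG φ : GL (Fin n) k → _) := fun _ _ e =>
  Units.ext (map_inj φ (congrArg Units.val e))

theorem N_mp (x : R n k) : N (mp φ x) = (N x).map φ := by
  ext i j; simp [N, mp, vecMulVec_apply]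

theorem mp_dot (x y : R n k) : (mp φ x).2 ⬝ᵥ (mp φ y).1 = φ (x.2 ⬝ᵥ y.1) :=
  (RingHom.map_dotProduct φ _ _).symm

theorem cc_mp (x y : R n k) : cc (mp φ x) (mp φ y) = φ (cc x y) := by simp [cc, mp_dot]

theorem tau_mp (x y z : R n k) : tau (mp φ x) (mp φ y) (mp φ z) = φ (tau x y z) := by
  simp [tau, mp_dot]

theorem dt_mp (x y z : R n k) : dt (mp φ x) (mp φ y) (mp φ z) = φ (dt x y z) := by
  simp [dt, cc_mp, tau_mp, map_ofNat]

theorem map_one_add_smul (c : k) (A : Matrix (Fin n) (Fin n) k) :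
    (1 + c • A).map φ = 1 + φ c • A.map φ := by
  ext i j; by_cases h : i = j <;> simp [h]

theorem map_rf (x : R n k) : (1 - N x).map φ = 1 - N (mp φ x) := by
  simpa [N_mp, sub_eq_add_neg] using map_one_add_smul φ (-1) (N x)

theorem map_tv (x : R n k) : (1 + N x).map φ = 1 + N (mp φ x) := by
  simpa [N_mp] using map_one_add_smul φ 1 (N x)

theorem N_mp_inj {x y : R n k} : N (mp φ x) = N (mp φ y) ↔ N x = N y := by
  rw [N_mp, N_mp]; exact (map_inj φ).eq_iff

theorem N_mp_eq_zero {x : R n k} : N (mp φ x) = 0 ↔ N x = 0 := by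
  rw [N_mp, ← (map_inj φ).eq_iff, Matrix.map_zero _ φ.map_zero]

theorem comp_eq_zero {v : Fin n → k} : φ ∘ v = 0 ↔ v = 0 := by simp [funext_iff]

theorem exists_mp {x : R n K} {A : Matrix (Fin n) (Fin n) k} (h : N x = A.map φ) :
    ∃ y, N y = A := by
  by_cases h0 : A = 0
  · exact ⟨0, by simp [h0, N]⟩
  obtain ⟨i, j, hij⟩ : ∃ i j, A i j ≠ 0 := by
    by_contra hc
    push Not at hc
    exact h0 (Matrix.ext hc)
  have f : ∀ a b, x.1 a * x.2 b = φ (A a b) := fun a b => congrFun (congrFun h a) b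
  refine ⟨(fun a => A a j, fun b => (A i j)⁻¹ * A i b), Matrix.ext fun a b => φ.injective ?_⟩
  have : φ (A i j) ≠ 0 := (map_ne_zero φ).2 hij
  simp only [N, vecMulVec_apply, map_mul, map_inv₀]
  field_simp
  simp only [← f]; ring

theorem in_comap_mG {Y : Matrix (Fin n) (Fin n) k} : In (G.comap (mG φ)) Y ↔ In G (Y.map φ) := by
  refine ⟨fun ⟨g, hg, e⟩ => ⟨_, hg, e ▸ rfl⟩, fun ⟨g, hg, e⟩ => ?_⟩
  have hd : Y.det ≠ 0 := fun e' => g.det_ne_zero (by
    rw [e, ← RingHom.mapMatrix_apply, ← RingHom.map_det, e', map_zero])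
  refine ⟨Matrix.GeneralLinearGroup.mkOfDetNeZero Y hd, ?_, rfl⟩
  rwa [Subgroup.mem_comap, show mG φ (Matrix.GeneralLinearGroup.mkOfDetNeZero Y hd) = g from
    Units.ext e.symm]

theorem rf_comap_mG {y : R n k} : Rf (G.comap (mG φ)) y ↔ Rf G (mp φ y) :=
  ⟨fun hy => rf_of_in (by rw [mp_dot, hy.1, map_ofNat]) (mt (N_mp_eq_zero φ).1 hy.N_ne)
    (map_rf φ y ▸ (in_comap_mG φ).1 hy.isIn), fun hy => rf_of_in
    (φ.injective (by rw [← mp_dot, hy.1, map_ofNat])) (mt (N_mp_eq_zero φ).2 hy.N_ne)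
    ((in_comap_mG φ).2 (by rw [map_rf]; exact hy.isIn))⟩

theorem tv_comap_mG {y : R n k} : Tv (G.comap (mG φ)) y ↔ Tv G (mp φ y) :=
  and_congr (by rw [mp_dot, map_eq_zero]) ((in_comap_mG φ).trans (by rw [map_tv]; rfl))

theorem nr_comap_mG {r s t : R n k} :
    NR (G.comap (mG φ)) r s t ↔ NR G (mp φ r) (mp φ s) (mp φ t) :=
  ⟨fun a => ⟨(rf_comap_mG φ).1 a.r1, (rf_comap_mG φ).1 a.r2, (rf_comap_mG φ).1 a.r3, by
    rw [tau_mp, tau_mp]; exact φ.injective.ne a.ne⟩, fun a => ⟨(rf_comap_mG φ).2 a.r1,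
    (rf_comap_mG φ).2 a.r2, (rf_comap_mG φ).2 a.r3, fun e => a.ne (by rw [tau_mp, tau_mp, e])⟩⟩

theorem NoTv.comap_mG (hG : NoTv G) : NoTv (G.comap (mG φ)) := fun _ hy =>
  N_eq_zero.1 ((N_mp_eq_zero φ).1 (N_eq_zero.2 (hG _ ((tv_comap_mG φ).1 hy))))

theorem Thin.comap_mG (hG : Thin G) : Thin (G.comap (mG φ)) where
  sym a b e := by
    rw [← map_eq_zero φ, ← mp_dot] at e ⊢
    exact hG.sym ((rf_comap_mG φ).1 a) ((rf_comap_mG φ).1 b) e
  uniqL a b e := φ.injective.comp_left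
    (hG.uniqL ((rf_comap_mG φ).1 a) ((rf_comap_mG φ).1 b) (congrArg (φ ∘ ·) e))
  uniqR a b e := φ.injective.comp_left
    (hG.uniqR ((rf_comap_mG φ).1 a) ((rf_comap_mG φ).1 b) (congrArg (φ ∘ ·) e))

theorem exists_rf_mp (h : G ≤ (mG φ).range) {x : R n K} (hx : Rf G x) :
    ∃ y, Rf (G.comap (mG φ)) y ∧ N (mp φ y) = N x := by
  obtain ⟨g, hg, e⟩ := hx.isIn
  obtain ⟨a, rfl⟩ := h hg
  have e1 : N x = (1 - a.val).map φ := by
    rw [Matrix.map_sub _ φ.map_sub, Matrix.map_one _ φ.map_zero φ.map_one, ← mG_val, e]; simp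
  obtain ⟨y, hy⟩ := exists_mp φ e1
  have : N (mp φ y) = N x := by rw [N_mp, hy, e1]
  exact ⟨y, (rf_comap_mG φ).2 (hx.of_N this), this⟩

theorem exists_tv_mp (h : G ≤ (mG φ).range) {x : R n K} (hx : Tv G x) :
    ∃ y, Tv (G.comap (mG φ)) y ∧ N (mp φ y) = N x := by
  obtain ⟨g, hg, e⟩ := hx.2
  obtain ⟨a, rfl⟩ := h hg
  have e1 : N x = (a.val - 1).map φ := by
    rw [Matrix.map_sub _ φ.map_sub, Matrix.map_one _ φ.map_zero φ.map_one, ← mG_val, e]; simp
  obtain ⟨y, hy⟩ := exists_mp φ e1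
  have : N (mp φ y) = N x := by rw [N_mp, hy, e1]
  exact ⟨y, (tv_comap_mG φ).2 ⟨by rw [← trace_N, this, trace_N, hx.1], _, hg, by rw [this, e]⟩,
    this⟩

theorem comap_map_mG (P : Subgroup (GL (Fin n) k)) : (P.map (mG φ)).comap (mG φ) = P :=
  Subgroup.comap_map_eq_self_of_injective (mG_inj φ) P

theorem NoTv.map_mG (h : NoTv P) : NoTv (P.map (mG φ)) := fun x hx => by
  obtain ⟨y, hy, e⟩ := exists_tv_mp φ (Subgroup.map_le_range _ _) hx
  rw [comap_map_mG] at hy
  rw [← N_eq_zero, ← e, N_mp_eq_zero, N_eq_zero]; exact h y hy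

theorem mG_mem_scalars {g : GL (Fin n) k} : mG φ g ∈ scalars (Fin n) K ↔ g ∈ scalars (Fin n) k := by
  refine ⟨fun h => ?_, fun h => ?_⟩
  · obtain ⟨c, hc⟩ := exists_smul_of_commute (a := g.1) fun b => map_inj φ (by
      obtain ⟨c, hc⟩ := (mem_scalars_iff _).1 h
      simp only [Matrix.map_mul]
      rw [← mG_val, hc, smul_mul_assoc, mul_smul_comm, one_mul, mul_one])
    exact mem_scalars_of_eq_smul hc
  · obtain ⟨c, hc⟩ := (mem_scalars_iff _).1 h
    refine mem_scalars_of_eq_smul (c := φ c) ?_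
    rw [mG_val, hc]
    ext i j; by_cases h : i = j <;> simp [h]

theorem mG_mem_sl {g : GL (Fin n) k} :
    mG φ g ∈ specialLinear (Fin n) K ↔ g ∈ specialLinear (Fin n) k := by
  rw [mem_specialLinear, mem_specialLinear, mG_val, ← RingHom.mapMatrix_apply, ← RingHom.map_det,
    map_eq_one_iff φ φ.injective]

theorem trc_mG (g : GL (Fin n) k) : trc (mG φ g) = φ (trc g) := by
  simp [trc, mG_val, trace, map_sum]

theorem bar_map (P : Subgroup (GL (Fin n) k)) : Nonempty (Bar (P.map (mG φ)) ≃* Bar P) := by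
  let e := P.equivMapOfInjective _ (mG_inj φ)
  refine Cov.equiv_quot (π := (QuotientGroup.mk' _).comp e.symm.toMonoidHom)
    ⟨(QuotientGroup.mk'_surjective _).comp e.symm.surjective, fun g => ?_⟩
  obtain ⟨g, rfl⟩ := e.surjective g
  simp only [MulEquiv.toMonoidHom_eq_coe, MonoidHom.coe_comp, MonoidHom.coe_coe,
    Function.comp_apply, MulEquiv.symm_apply_apply]
  exact ((cov_mk P).ker g).trans (mG_mem_scalars φ).symm

theorem gspan_map (h : gspan P = ⊤) : gspan (P.map (mG φ)) = ⊤ := by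
  have key : ∀ a ∈ gspan P, a.map φ ∈ gspan (P.map (mG φ)) := fun a ha => by
    refine gspan_induction ha (fun x hx => coe_mem_gspan (Subgroup.mem_map_of_mem _ hx)) ?_ (fun x y hx hy => ?_)
      fun c x hx => ?_
    · rw [Matrix.map_zero _ φ.map_zero]; exact zero_mem _
    · rw [Matrix.map_add _ φ.map_add]; exact add_mem hx hy
    · have : (c • x).map φ = φ c • x.map φ := by ext; simp
      rw [this]; exact Subalgebra.smul_mem _ hx _
  refine eq_top_iff.2 fun a _ => ?_
  rw [matrix_eq_sum_single a]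
  refine sum_mem fun i _ => sum_mem fun j _ => ?_
  have := Subalgebra.smul_mem _ (key (single i j 1) (h ▸ Algebra.mem_top)) (a i j)
  rwa [Matrix.map_single i j 1 φ, map_one, smul_single, smul_eq_mul, mul_one] at this

theorem absIrr_comap (h : G ≤ (mG φ).range) (hG : ActsAbsolutelyIrreducibly (matrixSet G)) :
    ActsAbsolutelyIrreducibly (matrixSet (G.comap (mG φ))) := by
  refine ⟨irr_iff.2 fun W hW => ?_, fun M hM => ?_⟩
  · by_contra hc
    push Not at hc
    obtain ⟨w, hw, hw0⟩ := (Submodule.ne_bot_iff W).1 hc.1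
    obtain ⟨f, f0, hf⟩ := Submodule.exists_le_ker_of_lt_top _ (lt_top_iff_ne_top.2 hc.2)
    let a : Fin n → k := fun i => f (Pi.single i 1)
    have ha : ∀ v, f v = a ⬝ᵥ v := fun v => by
      conv_lhs => rw [pi_eq_sum_univ' v]
      simp [a, dotProduct, mul_comm]
    rcases irr_iff.1 hG.1 (Submodule.span K ((φ ∘ ·) '' W)) (fun g hg v hv => by
      obtain ⟨g, rfl⟩ := h hg
      refine Submodule.span_induction (p := fun v _ => (mG φ g).val *ᵥ v ∈ _) ?_ (by simp)
        (fun a b _ _ ha hb => by rw [mulVec_add]; exact add_mem ha hb)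
        (fun c a _ ha => by rw [mulVec_smul]; exact Submodule.smul_mem _ _ ha) hv
      rintro _ ⟨v, hv, rfl⟩
      exact Submodule.subset_span ⟨_, hW g hg v hv, funext fun i => RingHom.map_mulVec φ _ _ i⟩)
      with e | e
    · exact hw0 ((comp_eq_zero φ).1 ((Submodule.eq_bot_iff _).1 e _
        (Submodule.subset_span ⟨w, hw, rfl⟩)))
    · have : ∀ v ∈ Submodule.span K ((φ ∘ ·) '' (W : Set (Fin n → k))), (φ ∘ a) ⬝ᵥ v = 0 :=
        fun v hv => Submodule.span_induction (p := fun v _ => (φ ∘ a) ⬝ᵥ v = 0) (by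
          rintro _ ⟨v, hv, rfl⟩
          rw [← RingHom.map_dotProduct, ← ha, show f v = 0 from hf hv, map_zero]) (by simp)
          (fun a b _ _ ha hb => by simp [ha, hb]) (fun c a _ ha => by simp [ha]) hv
      refine f0 (LinearMap.ext fun v => φ.injective ?_)
      rw [ha, RingHom.map_dotProduct, this _ (e ▸ Submodule.mem_top)]; simp
  · obtain ⟨c, hc⟩ := hG.2 (M.map φ) (by
      rintro _ ⟨g, hg, rfl⟩
      obtain ⟨g, rfl⟩ := h hg
      have := congrArg (·.map φ) (hM _ ⟨g, hg, rfl⟩)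
      simpa only [Matrix.map_mul, mG_val] using this)
    exact exists_smul_of_commute fun b => map_inj φ (by
      simp only [Matrix.map_mul, hc, smul_mul_assoc, mul_smul_comm, one_mul, mul_one])

theorem perfect_comap (h : G ≤ (mG φ).range) (hG : ⁅G, G⁆ = G) :
    ⁅G.comap (mG φ), G.comap (mG φ)⁆ = G.comap (mG φ) :=
  Subgroup.map_injective (mG_inj φ) (by
    rw [Subgroup.map_commutator, Subgroup.map_comap_eq_self h, hG])

theorem bar_comap (h : G ≤ (mG φ).range) : Nonempty (Bar G ≃* Bar (G.comap (mG φ))) := by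
  have := bar_map φ (G.comap (mG φ))
  rwa [Subgroup.map_comap_eq_self h] at this

theorem qs3_comap {E : Subgroup (GL (Fin 3) K)} (h : E ≤ (mG φ).range) (hE : H61.L3.QS E) :
    H61.L3.QS (E.comap (mG φ)) :=
  ⟨fun _ hg => (mG_mem_sl φ).1 (hE.le hg), perfect_comap φ h hE.perfect,
    have := hE.simple; (bar_comap φ h).some.symm.isSimpleGroup, absIrr_comap φ h hE.absIrr⟩

theorem QS.map {P : Subgroup (GL (Fin 5) k)} (h : QS P) : QS (P.map (mG φ)) :=
  ⟨fun _ ⟨_, hg, e⟩ => e ▸ (mG_mem_sl φ).2 (h.le hg), by rw [← Subgroup.map_commutator, h.perfect],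
    have := h.simple; (bar_map φ P).some.isSimpleGroup, gspan_map φ h.span⟩

theorem LF.exists_subfield (h : LF K) (G : Subgroup (GL (Fin n) K)) [Finite G] :
    ∃ F : Subfield K, Finite F ∧ G ≤ (mG F.subtype).range := by
  classical
  have := Fintype.ofFinite G
  let S : Finset K := Finset.univ.image fun x : G × Fin n × Fin n => x.1.1.val x.2.1 x.2.2
  have hS : ∀ g ∈ G, ∀ i j, g.val i j ∈ Subfield.closure (S : Set K) := fun g hg i j =>
    Subfield.subset_closure (Finset.mem_image_of_mem (fun x : G × Fin n × Fin n => x.1.1.val x.2.1 x.2.2)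
      (Finset.mem_univ (⟨g, hg⟩, i, j)))
  refine ⟨_, h S, fun g hg => ?_⟩
  obtain ⟨a, -, e⟩ := (in_comap_mG (G := G) (Subfield.closure (S : Set K)).subtype
    (Y := Matrix.of fun i j => ⟨_, hS g hg i j⟩)).2 ⟨g, hg, rfl⟩
  exact ⟨a, Units.ext (by rw [mG_val, e]; rfl)⟩

theorem lf_of_finite (F : Type u) [Field F] [Finite F] : LF F := fun _ => inferInstance

theorem lf_algebraicClosure (F : Type u) [Field F] [Finite F] : LF (AlgebraicClosure F) := fun S => by
  have : Module.Finite F (IntermediateField.adjoin F (S : Set (AlgebraicClosure F))) :=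
    IntermediateField.finiteDimensional_adjoin fun x _ => Algebra.IsIntegral.isIntegral x
  have : Finite (IntermediateField.adjoin F (S : Set (AlgebraicClosure F))) :=
    Module.finite_of_finite F
  exact Finite.of_injective _ (Subfield.inclusion (T := (IntermediateField.adjoin F
    (S : Set (AlgebraicClosure F))).toSubfield) (Subfield.closure_le.2
      (IntermediateField.subset_adjoin F _))).injective

end H41.LD
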