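import Cfsg.Agent.H41.LDL3
import Cfsg.Agent.H41.LDCyc

/-! LD5: assembly of the reflection part. -/

set_option autoImplicit false

open Matrix Cfsg Cfsg.Geo H19
open scoped MatrixGroups commutatorElement

namespace H41.LD

universe u

variable {K : Type u} [Field K] {n : ℕ}

theorem cc_sw_three {e ε : Fin 3 → Fin n → K} (h : Dual e ε) {i j k l : Fin 3} (hij : i ≠ j)
    (hkl : k ≠ l) {η θ : K} (hη : η ≠ 0) (hθ : θ ≠ 0) :
    cc (sw e ε i j η) (sw e ε k l θ) = 1 ∨ (k = i ∧ l = j) ∨ (k = j ∧ l = i) := by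
  simp only [cc, sw, sub_dotProduct, dotProduct_sub, smul_dotProduct, dotProduct_smul,
    smul_eq_mul, h _ _]
  fin_cases i <;> fin_cases j <;> fin_cases k <;> fin_cases l <;> simp at hij hkl ⊢ <;> field_simp

theorem cc_inB3 {e ε : Fin 3 → Fin n → K} (h : Dual e ε) {x y : R n K} (hx : InB3 e ε x)
    (hy : InB3 e ε y) : cc x y = 0 ∨ cc x y = 1 ∨ cc x y = 2 ∨ N x = N y := by
  have ds : ∀ i j k (η : K), j ≠ k → η ≠ 0 →
      cc (dg e ε i) (sw e ε j k η) = 0 ∨ cc (dg e ε i) (sw e ε j k η) = 2 := fun i j k η hjk hη => by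
    simp only [cc, sw, dg, sub_dotProduct, dotProduct_sub, smul_dotProduct, dotProduct_smul,
      smul_eq_mul, h _ _]
    fin_cases i <;> fin_cases j <;> fin_cases k <;> simp at hjk ⊢ <;> right <;> field_simp
  have ss : ∀ i j k l (η θ : K), i ≠ j → k ≠ l → η = 1 ∨ η = -1 → θ = 1 ∨ θ = -1 →
      cc (sw e ε i j η) (sw e ε k l θ) = 0 ∨ cc (sw e ε i j η) (sw e ε k l θ) = 1 ∨
        N (sw e ε i j η) = N (sw e ε k l θ) := fun i j k l η θ hij hkl hη hθ => by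
    have h1 : η ≠ 0 := by rcases hη with rfl | rfl <;> simp
    have h2 : θ ≠ 0 := by rcases hθ with rfl | rfl <;> simp
    have h3 : N (sw e ε j i θ) = N (sw e ε i j θ) := by
      rw [← N_sw_symm e ε i j h2]; rcases hθ with rfl | rfl <;> simp
    have h4 : cc (sw e ε i j η) (sw e ε i j θ) = 0 ∨ N (sw e ε i j η) = N (sw e ε i j θ) := by
      rw [cc_sw_sw h hij h1 h2]
      rcases hη with rfl | rfl <;> rcases hθ with rfl | rfl <;> norm_num
    rcases cc_sw_three h hij hkl h1 h2 with a | ⟨rfl, rfl⟩ | ⟨rfl, rfl⟩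
    · exact .inr (.inl a)
    · exact h4.imp_right .inr
    · rw [cc_congr rfl h3, h3]; exact h4.imp_right .inr
  have nm : ∀ x, InB3 e ε x → (∃ i, N x = N (dg e ε i)) ∨
      ∃ i j η, i ≠ j ∧ (η = 1 ∨ η = -1) ∧ N x = N (sw e ε i j η) := fun x hx =>
    hx.imp_right fun ⟨i, j, hij, a⟩ => a.elim (fun a => ⟨i, j, 1, hij, .inl rfl, a⟩)
      fun a => ⟨i, j, -1, hij, .inr rfl, a⟩
  rcases nm x hx with ⟨i, a⟩ | ⟨i, j, η, hij, hη, a⟩ <;>
    rcases nm y hy with ⟨k, b⟩ | ⟨k, l, θ, hkl, hθ, b⟩ <;> rw [cc_congr a b, a, b]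
  · by_cases hik : i = k
    · simp [hik]
    · simp [cc, dg, h.ne hik]
  · have := ds i k l θ hkl (by rcases hθ with rfl | rfl <;> simp); tauto
  · have := ds k i j η hij (by rcases hη with rfl | rfl <;> simp); rw [cc_comm]; tauto
  · have := ss i j k l η θ hij hkl hη hθ; tauto

variable {G : Subgroup (GL (Fin 5) K)}

theorem TL.c12 {r s t : R 5 K} (h : TL G r s t) (hn : NR G r s t) (hT : Thin G) :
    cc r s = 1 ∨ cc r s = 2 := by
  obtain ⟨e, ε, hb, -, h1, h2⟩ := h.b3 r s hn.r1 (sup_1 ..) hn.r2 (sup_2 ..)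
  exact ((cc_inB3 hb.dual h1 h2).resolve_left (hn.cc_ne hT)).imp_right fun a =>
    a.resolve_right hn.N_ne

/-- The pair hypothesis reduces to non-degenerate triples. -/
theorem hp_of (hD : (2 : K) ≠ 0 → Deg G) {e ε : Fin 3 → Fin 5 → K} (hf : Frame G e ε) {ζ : K}
    (hζ : Mu G e ε ζ) (h1 : ζ ^ 2 ≠ 1) (H : ∀ x, Rf G x → (∀ η, Mu G e ε η →
      NR G (sw e ε 0 1 η) (sw e ε 0 1 (η * ζ)) x ∧ dt (sw e ε 0 1 η) (sw e ε 0 1 (η * ζ)) x ≠ 0) →
      HP1 e ε x) : HP G e ε := fun x hx => by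
  by_cases h0 : X e ε x 0 = X e ε x 1
  · exact .inl h0
  have hz : ζ - ζ⁻¹ ≠ 0 := fun e => h1 (by
    have := hζ.1; field_simp at e; linear_combination e)
  have e1 : ∀ η : K, η ≠ 0 → η * ζ * η⁻¹ = ζ ∧ (η * ζ)⁻¹ * η = ζ⁻¹ := fun η hη => by
    have := hζ.1; constructor <;> field_simp
  have nr : ∀ η, Mu G e ε η → NR G (sw e ε 0 1 η) (sw e ε 0 1 (η * ζ)) x := fun η hη =>
    ⟨hη.2, (hf.mu_mul hη hζ).2, hx, sub_ne_zero.1 (by
      rw [tau_sw_sub hf.dual (by decide) hη.1 (mul_ne_zero hη.1 hζ.1), (e1 η hη.1).1, (e1 η hη.1).2]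
      exact mul_ne_zero (sub_ne_zero.2 h0) hz)⟩
  by_cases hd : ∃ η, Mu G e ε η ∧ dt (sw e ε 0 1 η) (sw e ε 0 1 (η * ζ)) x = 0
  swap
  · exact H x hx fun η hη => ⟨nr η hη, fun e => hd ⟨η, hη, e⟩⟩
  obtain ⟨η, hη, hd⟩ := hd
  by_cases h2 : (2 : K) = 0
  · rw [dt_sw_sw hf.dual (by decide) hη.1 (mul_ne_zero hη.1 hζ.1), (e1 η hη.1).1, (e1 η hη.1).2,
      mul_eq_zero] at hd
    exact absurd (hd.elim (fun a => absurd (by linear_combination -a + (1 - ζ⁻¹) * h2) hz)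
      fun a => by linear_combination -a + (1 - X e ε x 1) * h2) h0
  obtain ⟨a, b⟩ := hD h2 _ _ _ (nr η hη) hd
  have key : ∀ (e : Fin 3 → Fin 5 → K) (c : K), e 0 - c • e 1 ∈ Submodule.span K {e 0, e 1} :=
    fun e c => sub_mem (Submodule.subset_span (by simp))
      (Submodule.smul_mem _ _ (Submodule.subset_span (by simp)))
  refine .inr (.inr (.inr ⟨Submodule.span_le.2 ?_ a, Submodule.span_le.2 ?_ b⟩)) <;>
    rintro _ (rfl | rfl) <;> exact key _ _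

/-- The jobs of the reflection part. -/
structure RJ : Prop where
  l3 : JobL3.{u}
  s2 : JobS2.{u}
  deg : JobDeg.{u}
  pl : JobPL.{u}
  fp : JobFP.{u}
  ma : JobMA.{u}
  mb : JobMB.{u}
  q8 : JobQ8.{u}
  oh : JobOH.{u}
  m4 : JobM4.{u}
  g24 : JobG24.{u}

theorem RJ.fin3 (J : RJ.{u}) [IsAlgClosed K] (hG : RS G) {r s t : R 5 K} (h : NR G r s t) :
    ∃ e ε w, Fin3 G e ε w := by
  have L3 := J.l3 K G hG
  have hD : (2 : K) ≠ 0 → Deg G := J.deg J.s2 K G hG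
  have OH := fun h2 => J.oh K G hG h2
    (J.pl J.s2 K G hG h2 (J.q8 J.fp J.ma J.mb K G hG h2 L3 (hD h2))) ⟨r, h.r1⟩
  have L3' : ∀ r s t, NR G r s t → dt r s t ≠ 0 → Mono G r s t ∨ ((2 : K) ≠ 0 ∧ TL G r s t) :=
    fun r s t h hd => (L3 r s t h hd).imp_right fun a =>
      ⟨a.1, a.2.resolve_right ((OH a.1).2 r s t h hd)⟩
  have MB := J.mb J.ma K G hG
  have cube : ∀ ζ : K, ζ ^ 2 + ζ + 1 = 0 → ζ ^ 3 = 1 := fun ζ e => by linear_combination (ζ - 1) * e
  have A : ∀ e ε ζ, Frame G e ε → Mu G e ε ζ → ζ ^ 2 ≠ 1 → ζ ^ 3 = 1 ∨ ζ ^ 2 = -1 :=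
    fun e ε ζ hf hζ h1 => by
      by_contra hc
      push Not at hc
      refine hc.1 (cube ζ (MB e ε ζ hf hζ h1 (hp_of hD hf hζ h1 fun x hx H => ?_)).om)
      obtain ⟨a, b⟩ := H 1 hf.mu_one
      rw [one_mul] at a b
      rcases L3' _ _ _ a b with m | ⟨-, m⟩
      · exact (J.fp K G).2 e ε ζ x hf hζ h1 hc.1 hx b m
      have := m.c12 a hG.thin
      rw [cc_sw_sw hf.dual (by decide) one_ne_zero hζ.1, inv_one, mul_one, mul_one] at this
      have h0 := hζ.1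
      rcases this with c | c <;> field_simp at c
      · exact absurd (cube ζ (by linear_combination c)) hc.1
      · exact absurd (by linear_combination c) hc.2
  have B : ∀ r s t, NR G r s t → dt r s t ≠ 0 → Mono G r s t → ∃ e ε ζ, Frame G e ε ∧
      Mu G e ε ζ ∧ ζ ^ 2 ≠ 1 ∧ (cc r s = 1 ∨ (ζ ^ 2 = -1 ∧ cc r s = 2)) := fun r s t h hd hm => by
    obtain ⟨e, ε, ζ, hf, hζ, h1, h2⟩ := (J.fp K G).1 r s t h hd hm
    refine ⟨e, ε, ζ, hf, hζ, h1, ?_⟩
    have h0 := hζ.1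
    rcases h2 with c | c
    · exact .inl c
    rcases A e ε ζ hf hζ h1 with a | a
    · refine .inl (c.trans ?_)
      have : ζ - 1 ≠ 0 := fun e => h1 (by rw [sub_eq_zero.1 e, one_pow])
      field_simp
      exact mul_left_cancel₀ this (by linear_combination a)
    · exact .inr ⟨a, c.trans (by field_simp; linear_combination a)⟩
  have c12 : C12 G := fun r s t h hd => (L3' r s t h hd).elim
    (fun m => let ⟨_, _, _, _, _, _, c⟩ := B r s t h hd m; c.imp_right And.right)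
    fun m => m.2.c12 h hG.thin
  have C : ∀ e ε ζ, Frame G e ε → Mu G e ε ζ → ζ ^ 2 ≠ 1 → ζ ^ 2 ≠ -1 := fun e ε ζ hf hζ h1 h4 => by
    have h2 : (2 : K) ≠ 0 := fun e => h1 (by linear_combination h4 - e)
    exact hζ.1 (by
      linear_combination (MB e ε ζ hf hζ h1 (J.m4 K G hG h2 (hD h2) c12 (OH h2).1 e ε ζ hf hζ h4)).om
        - h4)
  have M : ∀ r s t, NR G r s t → dt r s t ≠ 0 → Mono G r s t := fun r s t h hd =>
    (L3' r s t h hd).resolve_right fun ⟨h2, m⟩ => J.g24 K G hG h2 (hD h2) c12 (OH h2).1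
      (fun e ε ζ hf hζ a => C e ε ζ hf hζ (fun b => h2 (by linear_combination a - b)) a) r s t h hd m
  have c1 : ∀ r s t, NR G r s t → dt r s t ≠ 0 → cc r s = 1 := fun r s t h hd =>
    let ⟨e, ε, ζ, hf, hζ, h1, c⟩ := B r s t h hd (M r s t h hd)
    c.resolve_right fun a => C e ε ζ hf hζ h1 a.1
  obtain ⟨r, s, t, h, hd⟩ : ∃ r s t, NR G r s t ∧ dt r s t ≠ 0 := by
    by_cases h2 : (2 : K) = 0
    · exact ⟨r, s, t, h, fun e => h.ne (by
        rw [dt] at e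
        linear_combination e - (4 - (cc r s + cc s t + cc r t) + tau r t s) * h2)⟩
    · obtain ⟨r', s', x, a, b, c, d⟩ := hG.exists_nr h
      exact ⟨r', s', x, c, (hD h2).dt_ne a b c d⟩
  obtain ⟨e, ε, ζ, hf, hζ, h1, -⟩ := B r s t h hd (M r s t h hd)
  refine ⟨e, ε, ζ, MB e ε ζ hf hζ h1 (hp_of hD hf hζ h1 fun x hx H => ?_)⟩
  have h3 := (A e ε ζ hf hζ h1).resolve_right (C e ε ζ hf hζ h1)
  have h0 := hζ.1
  have hz : ζ - 1 ≠ 0 := fun e => h1 (by rw [sub_eq_zero.1 e, one_pow])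
  have om : ζ ^ 2 + ζ + 1 = 0 := mul_left_cancel₀ hz (by linear_combination h3)
  have c : ∀ η, Mu G e ε η → cc (sw e ε 0 1 η) x = 1 := fun η hη =>
    c1 _ _ _ (H η hη).1.swap (by rw [dt_swap]; exact (H η hη).2)
  have c0 := c 1 hf.mu_one
  have c1 := c ζ hζ
  have c2 := c _ (hf.mu_inv hζ)
  rw [cc_sw _ _ _ _ one_ne_zero, inv_one] at c0
  rw [cc_sw _ _ _ _ h0] at c1
  rw [cc_sw _ _ _ _ (inv_ne_zero h0), inv_inv] at c2
  have hi : ζ⁻¹ = ζ ^ 2 := inv_eq_of_mul_eq_one_right (by linear_combination h3)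
  rw [hi] at c1 c2
  have hz2 : ζ + 1 ≠ 0 := fun e => h1 (by linear_combination (ζ - 1) * e)
  simp only [HP1, X, Z] at c0 c1 c2 ⊢
  generalize ε 0 ⬝ᵥ x.1 = v0 at *
  generalize ε 1 ⬝ᵥ x.1 = v1 at *
  generalize x.2 ⬝ᵥ e 0 = p0 at *
  generalize x.2 ⬝ᵥ e 1 = p1 at *
  have e1 : v0 * p1 = v1 * p0 := mul_left_cancel₀ (mul_ne_zero h0 hz) (by linear_combination c1 - c2)
  have h3' : (3 : K) ≠ 0 := fun e => hz (pow_eq_zero_iff two_ne_zero |>.1 (by
    linear_combination om - ζ * e))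
  have e2 : v1 * p0 = 0 := mul_left_cancel₀ h3' (by
    linear_combination c1 - c0 + (ζ - 1) * e1 + v1 * p0 * om)
  have e3 : v0 * p0 + v1 * p1 = 1 := by linear_combination c0 + e1 + 2 * e2
  rw [e2] at e1
  rcases mul_eq_zero.1 e1 with a | a <;> rcases mul_eq_zero.1 e2 with b | b
  · simp [a, b] at e3
  · exact .inr (.inr (.inl ⟨by simpa [a] using e3, a, b⟩))
  · exact .inr (.inl ⟨by simpa [a] using e3, b, a⟩)
  · simp [a, b] at e3

theorem le_of_perfect {P L : Subgroup (GL (Fin n) K)} (hP : ⁅P, P⁆ = P)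
    (h : P ≤ L ⊔ scalars (Fin n) K) : P ≤ L := by
  rw [← hP, Subgroup.commutator_le]
  intro a ha b hb
  obtain ⟨x, hx, c, rfl⟩ := mem_sup_scalars (h ha)
  obtain ⟨y, hy, d, rfl⟩ := mem_sup_scalars (h hb)
  have e : ⁅x * scal (Fin n) c, y * scal (Fin n) d⁆ = ⁅x, y⁆ := by
    have c1 := fun g => scalars_commute (scal_mem (ι := Fin n) c) g
    have d1 := fun g => scalars_commute (scal_mem (ι := Fin n) d) g
    generalize scal (Fin n) c = c at c1
    generalize scal (Fin n) d = d at d1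
    simp only [commutatorElement_def, _root_.mul_inv_rev]
    calc x * c * (y * d) * (c⁻¹ * x⁻¹) * (d⁻¹ * y⁻¹)
        = x * (c * (y * d)) * c⁻¹ * (x⁻¹ * d⁻¹) * y⁻¹ := by group
      _ = x * y * (d * x⁻¹) * d⁻¹ * y⁻¹ := by rw [c1]; group
      _ = _ := by rw [d1]; group
  rw [e, commutatorElement_def]
  exact L.mul_mem (L.mul_mem (L.mul_mem hx hy) (L.inv_mem hx)) (L.inv_mem hy)

/-- If all triples are reversible then the traces are real. -/
theorem real_of_rev (hG : RS G) {x : R 5 K} (hx : Rf G x) (h : ∀ r s t, ¬ NR G r s t)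
    {P : Subgroup (GL (Fin 5) K)} (hP : ⁅P, P⁆ = P) (hle : P ≤ G) : Real P := fun g hg => by
  have := jobCyc K 5 (RingHom.eqLocus (RingHom.fst K K) (RingHom.snd K K)) 1
    {y | Rf G (-y.1, y.2)} {g | ∃ y ∈ {y | Rf G y}, g.val = 1 - N y} (mul_one 1) ?_ ?_
    (fun _ _ => by simp [RingHom.mem_eqLocus]) rfl (fun _ _ _ _ => ⟨rfl, rfl⟩) ?_ ?_ g
    (le_of_perfect hP (hle.trans (hG.gen_all hx).2) hg)
  · exact this.symm
  · rintro g ⟨y, hy, e⟩
    refine ⟨(-y.1, y.2), by simpa using hy, by rw [e, N_neg_left, sub_eq_add_neg], ?_⟩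
    rw [Units.inv_eq_of_mul_eq_one_right (by rw [e]; exact rf_mul_self hy.1), N_neg_left, one_smul,
      sub_eq_add_neg]
  · intro x hx y hy
    have := Rf.cj hx hy
    simp only [cj, dotProduct_neg, smul_neg, neg_smul, neg_neg, sub_neg_eq_add] at this
    simpa [sub_eq_add_neg, add_comm] using this
  · intro x hx y hy z hz
    have : tau (-x.1, x.2) (-y.1, y.2) (-z.1, z.2) = tau (-x.1, x.2) (-z.1, z.2) (-y.1, y.2) :=
      by_contra fun e => h _ _ _ ⟨hx, hy, hz, e⟩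
    simp only [tau, dotProduct_neg] at this
    change tau x y z = 1 * tau x z y
    simp only [tau]; linear_combination -this
  · intro x hx y hy e
    exact .inl (by simpa using hG.thin.sym hx hy (by simpa using e))

end H41.LD
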