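import Cfsg.Agent.H54.T5Base
import Cfsg.Agent.H25.TvSU

/-! LD5: systems of transvections in characteristic two; uniqueness of the axis. -/

set_option autoImplicit false

open Matrix Cfsg Cfsg.Geo H19 H54.T5

namespace H41.LD

universe u

variable {F : Type u} [Field F] {n : ℕ} {T : (Fin n → F) → (Fin n → F) → Prop}
  {u w φ ψ : Fin n → F}

theorem tb_flip' (h : TB T) (h2 : (2 : F) = 0) (h1 : T u φ) (h1' : T w ψ) (a2 : ψ ⬝ᵥ u ≠ 0) {c : F}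
    (b2 : T (u + c • w) ((ψ ⬝ᵥ u)⁻¹ • ψ + (c * φ ⬝ᵥ w)⁻¹ • φ)) {φ' : Fin n → F} (h3 : T u φ') :
    T w (c • (φ' + (c * φ' ⬝ᵥ w) • ((ψ ⬝ᵥ u)⁻¹ • ψ + (c * φ ⬝ᵥ w)⁻¹ • φ))) := by
  have := h.conj' b2 h3
  simp only [add_dotProduct, smul_dotProduct, h.orth h1, smul_eq_mul, inv_mul_cancel₀ a2, mul_zero,
    add_zero, one_smul, dotProduct_add, dotProduct_smul, h.orth h3, zero_add,
    sub_add_cancel_left] at this
  have := h.neg this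
  rwa [neg_neg, h.smul_iff] at this

theorem tb_flip (h : TB T) (hs : Sw T) (h2 : (2 : F) = 0) (h1 : T u φ) (h1' : T w ψ)
    (a1 : φ ⬝ᵥ w ≠ 0) (a2 : ψ ⬝ᵥ u ≠ 0) {φ' : Fin n → F} (h3 : T u φ') :
    ∃ ψ', T w ψ' ∧ ψ' ⬝ᵥ u = ψ ⬝ᵥ u * φ' ⬝ᵥ w / φ ⬝ᵥ w := by
  obtain ⟨c, b1, b2⟩ := hs u φ w ψ h1 h1' a1 a2
  refine ⟨_, tb_flip' h h2 h1 h1' a2 b2 h3, ?_⟩
  simp [h.orth h1, h.orth h3, a2]
  rw [← b1]; field_simp

theorem tb_pair_aux (h : TB T) (hs : Sw T) (h2 : (2 : F) = 0) (h1 : T u φ) (h1' : T w ψ)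
    (a1 : φ ⬝ᵥ w ≠ 0) (a2 : ψ ⬝ᵥ u ≠ 0) :
    ∃ K : Subfield F, (∀ x, x ∈ K ↔ ∃ φ', T u φ' ∧ φ' ⬝ᵥ w = x * φ ⬝ᵥ w) ∧
      ∀ x, x ∈ K ↔ ∃ ψ', T w ψ' ∧ ψ' ⬝ᵥ u = x * ψ ⬝ᵥ u := by
  have h0 : T u 0 := h.zeroR h1
  refine ⟨{ carrier := {x | ∃ φ', T u φ' ∧ φ' ⬝ᵥ w = x * φ ⬝ᵥ w}
            one_mem' := ⟨φ, h1, by simp⟩
            zero_mem' := ⟨0, h0, by simp⟩
            add_mem' := ?_
            neg_mem' := ?_
            mul_mem' := ?_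
            inv_mem' := ?_ }, fun _ => Iff.rfl, fun x => ⟨?_, ?_⟩⟩
  · rintro x y ⟨φ₁, b1, b2⟩ ⟨φ₂, c1, c2⟩
    by_cases hy : y = 0
    · exact ⟨0, h0, by simp [hy]⟩
    obtain ⟨ψ₁, d1, d2⟩ := tb_flip h hs h2 h1 h1' a1 a2 b1
    obtain ⟨φ₃, e1, e2⟩ := tb_flip h hs h2 h1' c1 a2 (by simp [c2, hy, a1]) d1
    exact ⟨φ₃, e1, by rw [e2, d2, b2, c2]; field_simp⟩
  · rintro x y ⟨φ₁, b1, b2⟩ ⟨φ₂, c1, c2⟩
    exact ⟨_, h.addR b1 c1, by rw [add_dotProduct, b2, c2, add_mul]⟩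
  · rintro x ⟨φ₁, b1, b2⟩
    exact ⟨_, h.negR b1, by rw [neg_dotProduct, b2, neg_mul]⟩
  · rintro x ⟨φ₁, b1, b2⟩
    by_cases hx : x = 0
    · exact ⟨0, h0, by simp [hx]⟩
    obtain ⟨ψ₁, d1, d2⟩ := tb_flip h hs h2 b1 h1' (by simp [b2, hx, a1]) a2 h1
    obtain ⟨φ₃, e1, e2⟩ := tb_flip h hs h2 h1' h1 a2 a1 d1
    exact ⟨φ₃, e1, by rw [e2, d2, b2]; field_simp⟩
  · rintro ⟨φ₁, b1, b2⟩
    obtain ⟨ψ₁, d1, d2⟩ := tb_flip h hs h2 h1 h1' a1 a2 b1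
    exact ⟨ψ₁, d1, by rw [d2, b2]; field_simp⟩
  · rintro ⟨ψ₁, b1, b2⟩
    obtain ⟨φ₁, d1, d2⟩ := tb_flip h hs h2 h1' h1 a2 a1 b1
    exact ⟨φ₁, d1, by rw [d2, b2]; field_simp⟩

theorem tb_pair_two (h : TB T) (hs : Sw T) (h2 : (2 : F) = 0) (h1 : T u φ) (h1' : T w ψ)
    (a1 : φ ⬝ᵥ w ≠ 0) (a2 : ψ ⬝ᵥ u ≠ 0) :
    ∃ K : Subfield F, (∀ x, x ∈ K ↔ ∃ φ', T u φ' ∧ φ' ⬝ᵥ w = x * φ ⬝ᵥ w) ∧
      (∀ x, x ∈ K ↔ ∃ ψ', T w ψ' ∧ ψ' ⬝ᵥ u = x * ψ ⬝ᵥ u) ∧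
      (φ ⬝ᵥ w * ψ ⬝ᵥ u ∈ K ∨ ∀ x ∈ K, x = 0 ∨ x = 1) := by
  obtain ⟨K, k1, k2⟩ := tb_pair_aux h hs h2 h1 h1' a1 a2
  refine ⟨K, k1, k2, or_iff_not_imp_right.2 fun hc => ?_⟩
  push Not at hc
  obtain ⟨d, hd, d0, d1⟩ := hc
  have d2 : 1 + d ≠ 0 := fun h => d1 (by linear_combination h - h2)
  obtain ⟨c, b1, b2⟩ := hs u φ w ψ h1 h1' a1 a2
  have hc0 : c ≠ 0 := by rintro rfl; exact a2 (by simpa using b1.symm)
  obtain ⟨ψ', c1, c2⟩ := (k2 _).1 (pow_mem hd 2)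
  obtain ⟨c', e1, e2⟩ := hs u φ w ψ' h1 c1 a1 (by simp [c2, d0, a2])
  obtain rfl : c' = c * d := sub_eq_zero.1 (mul_self_eq_zero.1 (mul_right_cancel₀ a1 (by
    linear_combination e1 + c2 - d ^ 2 * b1 + (c ^ 2 * d ^ 2 - c * c' * d) * (φ ⬝ᵥ w) * h2)))
  obtain ⟨K', l1, l2⟩ := tb_pair_aux h hs h2 b2 h1 (by simp [h.orth h1, a2])
    (by simp [h.orth h1, a1, hc0])
  obtain ⟨φ', f1, f2⟩ := (k1 _).1 (div_mem hd (add_mem (one_mem K) hd))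
  obtain ⟨χ, g1, g2⟩ := (l1 _).1 ((l2 (d / (1 + d))).2 ⟨φ', f1, by
    simp [h.orth h1, h.orth f1, f2]; ring⟩)
  simp only [add_dotProduct, smul_dotProduct, h.orth h1, smul_eq_mul, inv_mul_cancel₀ a2, mul_zero,
    add_zero, mul_one] at g2
  have g3 : χ ⬝ᵥ w = -(d / (1 + d)) / c := by
    have := h.orth g1
    rw [dotProduct_add, dotProduct_smul, g2, smul_eq_mul] at this
    field_simp at this ⊢
    linear_combination this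
  have g4 := h.conj g1 e2
  rw [show u + (c * d) • w + (χ ⬝ᵥ (u + (c * d) • w)) • (u + c • w) = (1 + d) • u by
    rw [show χ ⬝ᵥ (u + (c * d) • w) = d by
      rw [dotProduct_add, dotProduct_smul, g2, g3, smul_eq_mul]
      field_simp
      linear_combination -d * h2]
    match_scalars
    · ring
    · linear_combination c * d * h2, h.smul_iff] at g4
  have g5 := (k1 ((1 + d) ^ 2 / (d * (c * φ ⬝ᵥ w)))).2 ⟨_, g4, by
    simp [h.orth h1, h.orth c1, c2, g3]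
    field_simp
    linear_combination (0 : F) * h2⟩
  have g6 := div_mem (div_mem (pow_mem (add_mem (one_mem K) hd) 2) g5) hd
  convert pow_mem g6 2 using 1
  rw [← b1]; field_simp

theorem exists_sqrt_mem [Finite F] (h2 : (2 : F) = 0) {K : Subfield F} {a : F} (ha : a ∈ K) :
    ∃ s ∈ K, s ^ 2 = a := by
  have : Function.Injective fun s : K => s ^ 2 := fun s t e => Subtype.ext
    (sub_eq_zero.1 (mul_self_eq_zero.1 (by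
      have e : (s : F) ^ 2 = t ^ 2 := congrArg Subtype.val e
      linear_combination e + ((t : F) ^ 2 - s * t) * h2)))
  obtain ⟨s, e⟩ := Finite.surjective_of_injective this ⟨a, ha⟩
  exact ⟨s, s.2, congrArg Subtype.val e⟩

/-- The axes of `u` are the covectors `s² φ₀ + s χ`. -/
structure Par (T : (Fin n → F) → (Fin n → F) → Prop) (K : Subfield F) (u φ₀ χ : Fin n → F) :
    Prop where
  iff : ∀ φ, T u φ ↔ ∃ s ∈ K, φ = s ^ 2 • φ₀ + s • χ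
  inj : ∀ s ∈ K, s ^ 2 • φ₀ + s • χ = 0 → s = 0

/-- The axes of two far points (all non-zero axes of one are non-zero on the other). -/
theorem exists_par [Finite F] (h : TB T) (hs : Sw T) (h2 : (2 : F) = 0) (h1' : T w ψ)
    (a2 : ψ ⬝ᵥ u = 1) (f1 : ∀ φ, T u φ → φ ⬝ᵥ w = 0 → φ = 0) (f2 : ∀ ψ, T w ψ → ψ ⬝ᵥ u = 0 → ψ = 0)
    (h1 : T u φ) (h0 : φ ≠ 0) {φ' : Fin n → F} (h3 : T u φ') (h0' : φ' ≠ 0) (hne : φ' ≠ φ) :
    ∃ (K : Subfield F) (d : F) (φ₀ χ : Fin n → F), d ∈ K ∧ d ≠ 0 ∧ d ≠ 1 ∧ φ₀ ⬝ᵥ w = 1 ∧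
      χ ⬝ᵥ w = 0 ∧ χ ⬝ᵥ u = 0 ∧ Par T K u φ₀ χ ∧ Par T K w (ψ + χ) χ := by
  have a1 : φ ⬝ᵥ w ≠ 0 := fun e => h0 (f1 φ h1 e)
  have a2' : ψ ⬝ᵥ u ≠ 0 := by simp [a2]
  have u1 : ∀ a b, T u a → T u b → a ⬝ᵥ w = b ⬝ᵥ w → a = b := fun a b ha hb e =>
    sub_eq_zero.1 (f1 _ (h.subR ha hb) (by simp [e]))
  have u2 : ∀ a b, T w a → T w b → a ⬝ᵥ u = b ⬝ᵥ u → a = b := fun a b ha hb e =>
    sub_eq_zero.1 (f2 _ (h.subR ha hb) (by simp [e]))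
  obtain ⟨K, k1, k2, k3⟩ := tb_pair_two h hs h2 h1 h1' a1 a2'
  have hd : φ' ⬝ᵥ w / φ ⬝ᵥ w ∈ K := (k1 _).2 ⟨φ', h3, by field_simp⟩
  have hd0 : φ' ⬝ᵥ w / φ ⬝ᵥ w ≠ 0 := div_ne_zero (fun e => h0' (f1 _ h3 e)) a1
  have hd1 : φ' ⬝ᵥ w / φ ⬝ᵥ w ≠ 1 := fun e => hne (u1 _ _ h3 h1 ((div_eq_one_iff_eq a1).1 e))
  generalize φ' ⬝ᵥ w / φ ⬝ᵥ w = d at hd hd0 hd1
  have k4 : φ ⬝ᵥ w ∈ K := by simpa [a2] using k3.resolve_right fun e => (e d hd).elim hd0 hd1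
  simp only [a2, mul_one] at k2
  have k5 : ∀ s ∈ K, ∃ φ', T u φ' ∧ φ' ⬝ᵥ w = s ^ 2 := fun s hs => by
    obtain ⟨a, b, c⟩ := (k1 _).1 (div_mem (pow_mem hs 2) k4)
    exact ⟨a, b, by rw [c]; field_simp⟩
  choose! Φ p1 p2 using k5
  have fl : ∀ s ∈ K, s ≠ 0 → ∀ r ∈ K, T w (r ^ 2 • ψ + s⁻¹ • (Φ (r * s) + r ^ 2 • Φ s)) :=
    fun s hs' s0 r hr => by
      obtain ⟨c, b1, b2⟩ := hs u _ w ψ (p1 s hs') h1' (by simp [p2 s hs', s0]) a2'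
      rw [p2 s hs', a2] at b1
      obtain rfl : c = s⁻¹ := eq_inv_of_mul_eq_one_left (sub_eq_zero.1 (mul_self_eq_zero.1 (by
        linear_combination b1 + (1 - c * s) * h2)))
      convert tb_flip' h h2 (p1 s hs') h1' a2' b2 (p1 _ (mul_mem hr hs')) using 1
      rw [p2 _ (mul_mem hr hs'), p2 s hs', a2]
      match_scalars <;> field_simp
  have o : ∀ s ∈ K, Φ s ⬝ᵥ u = 0 := fun s hs => h.orth (p1 s hs)
  have E : ∀ s ∈ K, s ≠ 0 → ∀ r ∈ K, Φ (r * s) + r ^ 2 • Φ s = s • (Φ r + r ^ 2 • Φ 1) :=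
    fun s hs' s0 r hr => by
      have := u2 _ _ (fl s hs' s0 r hr) (fl 1 K.one_mem one_ne_zero r hr) (by
        simp [o _ hs', o _ hr, o _ (mul_mem hr hs'), o _ K.one_mem])
      rw [add_right_inj, inv_one, one_smul, mul_one] at this
      rw [← this, smul_inv_smul₀ s0]
  have hq : d ^ 2 + d ≠ 0 := fun e => mul_ne_zero hd0 (sub_ne_zero.2 hd1) (by
    linear_combination e - d * h2)
  have P : ∀ s ∈ K, Φ s = s ^ 2 • ((d ^ 2 + d)⁻¹ • (Φ d + d • Φ 1)) +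
      s • ((d ^ 2 + d)⁻¹ • (Φ d + d ^ 2 • Φ 1)) := fun s hs' => by
    by_cases s0 : s = 0
    · simpa [s0] using f1 _ (p1 s hs') (by rw [p2 s hs', s0]; simp)
    have e1 := E s hs' s0 d hd
    have e2 := E d hd hd0 s hs'
    rw [mul_comm] at e2
    ext i
    have e1 := congrFun e1 i
    have e2 := congrFun e2 i
    simp only [Pi.add_apply, Pi.smul_apply, smul_eq_mul] at e1 e2 ⊢
    refine mul_left_cancel₀ hq ?_
    linear_combination e1 - e2 - d * s ^ 2 * Φ 1 i * h2 - (s ^ 2 * (Φ d i + d * Φ 1 i) +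
      s * (Φ d i + d ^ 2 * Φ 1 i)) * mul_inv_cancel₀ hq
  have w1 : ((d ^ 2 + d)⁻¹ • (Φ d + d • Φ 1)) ⬝ᵥ w = 1 := by
    simp [p2 _ hd, p2 _ K.one_mem, ← mul_add, hq]
  have w2 : ((d ^ 2 + d)⁻¹ • (Φ d + d ^ 2 • Φ 1)) ⬝ᵥ w = 0 := by
    simp [p2 _ hd, p2 _ K.one_mem, ← two_mul, h2]
  have w3 : ((d ^ 2 + d)⁻¹ • (Φ d + d ^ 2 • Φ 1)) ⬝ᵥ u = 0 := by simp [o _ hd, o _ K.one_mem]
  generalize (d ^ 2 + d)⁻¹ • (Φ d + d • Φ 1) = φ₀ at P w1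
  generalize (d ^ 2 + d)⁻¹ • (Φ d + d ^ 2 • Φ 1) = χ at P w2 w3
  have Q : ∀ r ∈ K, T w (r ^ 2 • (ψ + χ) + r • χ) := fun r hr => by
    convert fl 1 K.one_mem one_ne_zero r hr using 1
    rw [mul_one, P r hr, P 1 K.one_mem]
    match_scalars
    exacts [by ring, by ring, by linear_combination -r ^ 2 * h2]
  refine ⟨K, d, φ₀, χ, hd, hd0, hd1, w1, w2, w3, ⟨fun a => ⟨fun ha => ?_, ?_⟩, fun s _ e => ?_⟩,
    ⟨fun a => ⟨fun ha => ?_, ?_⟩, fun s _ e => ?_⟩⟩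
  · obtain ⟨s, hs', e⟩ := exists_sqrt_mem h2
      (mul_mem ((k1 (a ⬝ᵥ w / φ ⬝ᵥ w)).2 ⟨a, ha, by field_simp⟩) k4)
    exact ⟨s, hs', P s hs' ▸ u1 _ _ ha (p1 s hs') (by rw [p2 s hs', e]; field_simp)⟩
  · rintro ⟨s, hs', rfl⟩; exact P s hs' ▸ p1 s hs'
  · simpa [w1, w2] using congrArg (· ⬝ᵥ w) e
  · obtain ⟨s, hs', e⟩ := exists_sqrt_mem h2 ((k2 _).2 ⟨a, ha, rfl⟩)
    exact ⟨s, hs', u2 _ _ ha (Q s hs') (by simp [a2, w3, e])⟩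
  · rintro ⟨s, hs', rfl⟩; exact Q s hs'
  · simpa [w3, a2] using congrArg (· ⬝ᵥ u) e

/-- A point far from `u` is killed by `φ₀` or by `χ`. -/
theorem Par.far [Finite F] (h : TB T) (hs : Sw T) (h2 : (2 : F) = 0) {K : Subfield F}
    {φ₀ χ x ξ : Fin n → F} (hp : Par T K u φ₀ χ) {d : F} (hd : d ∈ K) (hd0 : d ≠ 0) (hd1 : d ≠ 1)
    (hx : T x ξ) (a2 : ξ ⬝ᵥ u ≠ 0) (f1 : ∀ φ, T u φ → φ ⬝ᵥ x = 0 → φ = 0) :
    φ₀ ⬝ᵥ x = 0 ∨ χ ⬝ᵥ x = 0 := by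
  wlog a3 : ξ ⬝ᵥ u = 1 generalizing x ξ
  · simpa [a2] using this (h.rescale hx a2) (by simp [a2])
      (fun φ hφ e => f1 φ hφ (by simpa [a2] using e)) (by simp [a2])
  have t : ∀ s ∈ K, T u (s ^ 2 • φ₀ + s • χ) := fun s hs => (hp.iff _).2 ⟨s, hs, rfl⟩
  generalize hα : φ₀ ⬝ᵥ x = α
  generalize hβ : χ ⬝ᵥ x = β
  have v : ∀ s : F, (s ^ 2 • φ₀ + s • χ) ⬝ᵥ x = s ^ 2 * α + s * β := fun s => by simp [hα, hβ]
  have z : ∀ s ∈ K, s ^ 2 * α + s * β = 0 → s = 0 := fun s hs e =>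
    hp.inj s hs (f1 _ (t s hs) (by rw [v, e]))
  have a1 : (1 : F) ^ 2 * α + 1 * β ≠ 0 := fun e => one_ne_zero (z 1 K.one_mem e)
  obtain ⟨K', k1, -, k3⟩ := tb_pair_two h hs h2 (t 1 K.one_mem) hx (by rwa [v]) a2
  rw [v] at k1 k3
  have m : ∀ s ∈ K, (s ^ 2 * α + s * β) / (1 ^ 2 * α + 1 * β) ∈ K' := fun s hs =>
    (k1 _).2 ⟨_, t s hs, by rw [v, div_mul_cancel₀ _ a1]⟩
  have k4 : 1 ^ 2 * α + 1 * β ∈ K' := by
    simpa [a3] using k3.resolve_right fun e => (e _ (m d hd)).elim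
      (fun e => hd0 (z d hd ((div_eq_zero_iff.1 e).resolve_right a1))) fun e =>
      sub_ne_zero.2 hd1 (z _ (sub_mem hd K.one_mem) (by
        linear_combination (div_eq_one_iff_eq a1).1 e + (α - d * α) * h2))
  have m' : ∀ s ∈ K, s ^ 2 * α + s * β ∈ K' := fun s hs => by
    simpa only [div_mul_cancel₀ _ a1] using mul_mem (m s hs) k4
  have hc : Nat.card K = Nat.card K' := Nat.card_eq_of_bijective
    (fun s : K => (⟨_, m' s s.2⟩ : K')) ⟨fun s r e => Subtype.ext (sub_eq_zero.1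
      (z _ (sub_mem s.2 r.2) (by
        have e : (s : F) ^ 2 * α + s * β = r ^ 2 * α + r * β := congrArg Subtype.val e
        linear_combination e + ((r : F) ^ 2 * α - s * r * α) * h2))), fun y => by
      obtain ⟨a, ha, e⟩ := (k1 _).1 (div_mem y.2 k4)
      obtain ⟨s, hs', rfl⟩ := (hp.iff a).1 ha
      exact ⟨⟨s, hs'⟩, Subtype.ext (by rw [v, div_mul_cancel₀ _ a1] at e; exact e)⟩⟩
  have m2 : ∀ s ∈ K, s ^ 2 * α + s * β ∈ K := fun s hs => by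
    rw [← H25.Tv3.mem_iff_pow_card, hc, H25.Tv3.mem_iff_pow_card]; exact m' s hs
  have hα' : α ∈ K := by
    have := div_mem (sub_mem (div_mem (m2 d hd) hd) (m2 1 K.one_mem)) (sub_mem hd K.one_mem)
    convert this using 1
    have := sub_ne_zero.2 hd1
    field_simp; ring
  have hβ' : β ∈ K := by simpa using sub_mem (m2 1 K.one_mem) hα'
  refine or_iff_not_imp_left.2 fun e => ?_
  have := z _ (div_mem hβ' hα') (by field_simp; linear_combination β ^ 2 * h2)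
  simpa [e] using this

/-- In a symmetric irreducible system with root groups of order two the axis is unique. -/
theorem uniq_of_sym [Finite F] (hn : 2 ≤ n) (h : TB T) (hs : Sw T) (h2 : (2 : F) = 0) (ho : Out T)
    (sym : ∀ u φ w ψ, T u φ → T w ψ → φ ≠ 0 → w ≠ 0 → φ ⬝ᵥ w = 0 → ψ ⬝ᵥ u = 0)
    (two : ∀ u φ (a : F), T u φ → T u (a • φ) → u ≠ 0 → φ ≠ 0 → a = 0 ∨ a = 1)
    (h1 : T u φ) {φ' : Fin n → F} (h3 : T u φ') (hu : u ≠ 0) (h0 : φ ≠ 0) (h0' : φ' ≠ 0) :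
    φ' = φ := by
  by_contra hne
  have far : ∀ u w ψ, T w ψ → ψ ⬝ᵥ u ≠ 0 → w ≠ 0 → ∀ φ, T u φ → φ ⬝ᵥ w = 0 → φ = 0 :=
    fun u w ψ a b c φ d e => by_contra fun f => b (sym _ _ _ _ d a f c e)
  obtain ⟨w, ψ, b1, b2, b3⟩ := ho.opp hn (fun _ _ _ _ => h.conj) hu h0
  wlog a2 : ψ ⬝ᵥ u = 1 generalizing w ψ
  · exact this _ _ (h.rescale b1 b3) (by simp [b2, b3]) (by simp [b3]) (by simp [b3])
  obtain ⟨K, d, φ₀, χ, hd, hd0, hd1, w1, w2, w3, p1, p2⟩ := exists_par h hs h2 b1 a2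
    (far u w ψ b1 b3 (right_ne b2)) (far w u φ h1 b2 hu) h1 h0 h3 h0' hne
  have p3 : Par T K (u + w) (φ₀ + ψ) χ := by
    have key : ∀ a, T u a → T (u + w) (a + (a ⬝ᵥ w) • ψ) := fun a ha => by
      have := h.conj b1 ha
      rwa [a2, one_smul, sub_eq_add_neg, ← neg_smul, ← neg_one_mul,
        show (-1 : F) = 1 by linear_combination -h2, one_mul] at this
    refine ⟨fun a => ⟨fun ha => ?_, ?_⟩, fun s _ e => ?_⟩
    · have := h.conj' b1 ha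
      simp only [dotProduct_add, a2, h.orth b1, add_zero, one_smul, add_sub_cancel_right] at this
      obtain ⟨s, hs', e⟩ := (p1.iff _).1 this
      have e' := congrArg (· ⬝ᵥ w) e
      simp only [add_dotProduct, smul_dotProduct, h.orth b1, w1, w2, smul_eq_mul, mul_zero,
        add_zero, mul_one] at e'
      refine ⟨s, hs', ?_⟩
      rw [eq_sub_of_add_eq e, e']
      match_scalars
      exacts [by ring, by ring, by linear_combination -s ^ 2 * h2]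
    · rintro ⟨s, hs', rfl⟩
      convert key _ ((p1.iff _).2 ⟨s, hs', rfl⟩) using 1
      simp only [add_dotProduct, smul_dotProduct, w1, w2, smul_eq_mul]
      module
    · simpa [w1, w2, h.orth b1] using congrArg (· ⬝ᵥ w) e
  have L : ∀ u φ₀, u ≠ 0 → Par T K u φ₀ χ → ∀ x ξ, T x ξ → ξ ≠ 0 → χ ⬝ᵥ x ≠ 0 → φ₀ ⬝ᵥ x = 0 :=
    fun u φ₀ hu p x ξ hx hξ e => by
      by_cases a : ξ ⬝ᵥ u = 0
      · have f := fun s hs => sym _ _ _ _ hx ((p.iff _).2 ⟨s, hs, rfl⟩) hξ hu a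
        have f1 := f 1 K.one_mem
        have f2 := f d hd
        simp only [add_dotProduct, smul_dotProduct, smul_eq_mul] at f1 f2
        exact (mul_eq_zero.1 (show (d * (d - 1)) * φ₀ ⬝ᵥ x = 0 by
          linear_combination f2 - d * f1)).resolve_left (mul_ne_zero hd0 (sub_ne_zero.2 hd1))
      · exact (p.far h hs h2 hd hd0 hd1 hx a (far u x ξ hx a (right_ne e))).resolve_right e
  have hχ : χ ≠ 0 := by
    rintro rfl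
    have t := fun s hs => (p1.iff _).2 ⟨s, hs, rfl⟩
    have t1 := t 1 K.one_mem
    have t2 := t d hd
    simp only [smul_zero, add_zero, one_pow, one_smul] at t1 t2
    rcases two u φ₀ _ t1 t2 hu (left_ne (by simp [w1] : φ₀ ⬝ᵥ w ≠ 0)) with e | e
    · exact hd0 (pow_eq_zero_iff two_ne_zero |>.1 e)
    · exact sub_ne_zero.2 hd1 (mul_self_eq_zero.1 (by linear_combination e + (1 - d) * h2))
  obtain ⟨c, hc⟩ := exists_dot_one hχ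
  obtain ⟨x, ξ, c1, c2, v, -, c3⟩ := ho (ann {χ}) ((Submodule.ne_bot_iff _).2
    ⟨u, fun _ e => by rw [e, dotProduct_comm, w3], hu⟩) fun e =>
      one_ne_zero (hc.symm.trans ((e ▸ Submodule.mem_top : c ∈ ann {χ}) χ rfl))
  have c4 : χ ⬝ᵥ x ≠ 0 := fun e => c2 fun _ e' => by rw [e', dotProduct_comm, e]
  have e1 := L u _ hu p1 x ξ c1 (left_ne c3) c4
  have e2 := L w _ (right_ne b2) p2 x ξ c1 (left_ne c3) c4
  have e3 := L (u + w) _ (right_ne (u := ψ) (by simp [a2, h.orth b1])) p3 x ξ c1 (left_ne c3) c4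
  rw [add_dotProduct] at e2 e3
  exact c4 (by linear_combination e2 - e3 + e1)

theorem thin_of_two [Finite F] {P : Subgroup (GL (Fin 5) F)} {k : Subfield F} (hP : QS P)
    (hS : TS P k) (hk : Two k) (hA : ¬ Asym P) : Thin P := by
  have tv : ∀ {x}, Rf P x → TV P x.1 x.2 := fun {x} hx => ⟨hx.1.trans hk.1, by
    obtain ⟨g, hg, e⟩ := hx.isIn
    exact ⟨g, hg, by rw [e, sub_eq_add_neg, ← neg_one_smul F (N x),
      show (-1 : F) = 1 by linear_combination -hk.1, one_smul]⟩⟩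
  have sym : ∀ u φ w ψ, TV P u φ → TV P w ψ → φ ≠ 0 → w ≠ 0 → φ ⬝ᵥ w = 0 → ψ ⬝ᵥ u = 0 :=
    fun u φ w ψ a b c d e => by_contra fun f => hA ⟨_, _, b, a, d, c, f, e⟩
  have two : ∀ u φ (a : F), TV P u φ → TV P (a • u) φ → u ≠ 0 → φ ≠ 0 → a = 0 ∨ a = 1 :=
    fun u φ a b c d e => hk.2 a ((hS _ b d e a).1 c)
  have hs := sw_tv (by norm_num) hk.1 P
  refine ⟨fun a b => sym _ _ _ _ (tv a) (tv b) a.2.2.1 b.2.1, fun a b e => ?_, fun a b e => ?_⟩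
  · exact uniq_of_sym (by norm_num) (tb P) hs hk.1 (out_tv hP (tv a) a.2.1 a.2.2.1) sym
      (fun u φ a b c => two u φ a b (((tb P).smul_iff a).2 c)) (tv b) (e ▸ tv a) b.2.1 b.2.2.1 a.2.2.1
  · exact uniq_of_sym (by norm_num) (tb P).swap (hs.swap (tb P)) hk.1
      (out_tv hP (tv a) a.2.1 a.2.2.1).swap (fun φ u ψ w a b c d e => by
        rw [dotProduct_comm] at e ⊢; exact sym _ _ _ _ b a d c e)
      (fun φ u a b c d e => two u φ a b c e d) (tv b) (e ▸ tv a) b.2.2.1 b.2.1 a.2.1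

end H41.LD
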