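/- Landau's theorem: a finite group with a bounded number of classes has bounded order. -/
import Cfsg.Agent.H28.ConjCount
import Cfsg.Agent.H28.CharBasis

namespace H41

open H28

theorem exists_bound_unit_fractions (k : ℕ) : ∀ r : ℚ, ∃ N : ℕ, ∀ s : Multiset ℕ,
    Multiset.card s = k → (∀ n ∈ s, 0 < n) → (s.map fun n : ℕ => (n : ℚ)⁻¹).sum = r →
      ∀ n ∈ s, n ≤ N := by
  induction k with
  | zero => exact fun r => ⟨0, fun s hs _ _ n hn => by simp [Multiset.card_eq_zero.1 hs] at hn⟩
  | succ k ih =>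
    intro r
    choose f hf using ih
    refine ⟨⌈(k + 1) / r⌉₊ ⊔ (Finset.range (⌈(k + 1) / r⌉₊ + 1)).sup fun m => f (r - (m : ℚ)⁻¹),
      fun s hs hpos hsum n hn => ?_⟩
    obtain ⟨m, hm, hmin⟩ := Multiset.exists_min_image id (s := s) (fun h => by simp [h] at hs)
    have hm0 : (0 : ℚ) < m := by exact_mod_cast hpos m hm
    have h1 : r ≤ (k + 1) * (m : ℚ)⁻¹ := by
      have := Multiset.sum_le_card_nsmul (s.map fun n : ℕ => (n : ℚ)⁻¹) (m : ℚ)⁻¹ (by
        intro x hx
        obtain ⟨a, ha, rfl⟩ := Multiset.mem_map.1 hx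
        exact inv_anti₀ hm0 (by exact_mod_cast hmin a ha))
      rw [hsum, Multiset.card_map, hs] at this
      simpa using this
    obtain ⟨t, rfl⟩ := Multiset.exists_cons_of_mem hm
    rw [Multiset.map_cons, Multiset.sum_cons] at hsum
    have hr : 0 < r := by
      rw [← hsum]
      refine add_pos_of_pos_of_nonneg (inv_pos.2 hm0) (Multiset.sum_nonneg fun x hx => ?_)
      obtain ⟨a, -, rfl⟩ := Multiset.mem_map.1 hx
      positivity
    have h2 : m ≤ ⌈((k : ℚ) + 1) / r⌉₊ := by
      have : (m : ℚ) ≤ (k + 1) / r := by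
        rw [le_div_iff₀ hr]
        have := mul_le_mul_of_nonneg_left h1 hm0.le
        rwa [mul_left_comm, mul_inv_cancel₀ hm0.ne', mul_one] at this
      exact_mod_cast this.trans (Nat.le_ceil _)
    rcases Multiset.mem_cons.1 hn with rfl | hn
    · exact h2.trans le_sup_left
    · refine (hf (r - (m : ℚ)⁻¹) t (by simpa using hs)
        (fun a ha => hpos a (Multiset.mem_cons_of_mem ha)) (by rw [← hsum]; ring) n hn).trans ?_
      exact (Finset.le_sup (f := fun m : ℕ => f (r - (m : ℚ)⁻¹))
        (Finset.mem_range.2 (Nat.lt_succ_of_le h2))).trans le_sup_right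

universe u

/-- Landau's theorem. -/
theorem landau (k : ℕ) : ∃ N : ℕ, ∀ (G : Type u) [Group G] [Finite G],
    Nat.card (ConjClasses G) ≤ k → Nat.card G ≤ N := by
  choose f hf using fun j => exists_bound_unit_fractions j 1
  refine ⟨(Finset.range (k + 1)).sup f, fun G _ _ hk => ?_⟩
  classical
  have := Fintype.ofFinite G
  have := Fintype.ofFinite (ConjClasses G)
  let c : ConjClasses G → ℕ := fun C => Nat.card (Subgroup.centralizer ({Quotient.out C} : Set G))
  have h0 : (Nat.card G : ℚ) ≠ 0 := by exact_mod_cast Nat.card_pos.ne'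
  have h1 := sum_eq_sum_conjClasses (G := G) (fun _ => (Nat.card G : ℚ)⁻¹) fun _ _ _ => rfl
  rw [Finset.sum_const, Finset.card_univ, ← Nat.card_eq_fintype_card, nsmul_eq_mul,
    mul_inv_cancel₀ h0] at h1
  have h2 := hf (Nat.card (ConjClasses G)) (Finset.univ.val.map c)
    (by simp [Nat.card_eq_fintype_card]) (by
      intro n hn
      obtain ⟨C, -, rfl⟩ := Multiset.mem_map.1 hn
      exact Nat.card_pos) (by
      rw [Multiset.map_map, h1]
      refine Finset.sum_congr rfl fun C _ => ?_
      have h3 : (c C : ℚ) ≠ 0 := by exact_mod_cast (Nat.card_pos (α := _)).ne'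
      have h4 : (((Subgroup.centralizer ({Quotient.out C} : Set G)).index : ℕ) : ℚ) ≠ 0 := by
        exact_mod_cast Subgroup.index_ne_zero_of_finite
      rw [← (Subgroup.centralizer ({Quotient.out C} : Set G)).index_mul_card, nsmul_eq_mul,
        Nat.cast_mul, mul_inv, ← mul_assoc, mul_inv_cancel₀ h4, one_mul]
      rfl) (c (ConjClasses.mk 1)) (Multiset.mem_map_of_mem c (Finset.mem_univ_val _))
  have h3 : Quotient.out (ConjClasses.mk (1 : G)) = 1 := by
    have : IsConj (Quotient.out (ConjClasses.mk (1 : G))) 1 :=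
      ConjClasses.mk_eq_mk_iff_isConj.1 (Quotient.out_eq _)
    exact isConj_one_left.1 this
  have h4 : c (ConjClasses.mk 1) = Nat.card G := by
    simp only [c, h3]
    rw [show Subgroup.centralizer ({1} : Set G) = ⊤ from
      eq_top_iff.2 fun g _ => Subgroup.mem_centralizer_singleton_iff.2 (by simp), Subgroup.card_top]
  rw [← h4]
  exact h2.trans (Finset.le_sup (Finset.mem_range.2 (Nat.lt_succ_of_le hk)))

end H41
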